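import Mathlib
import Cfsg.Prelude.Def_QuasithinSetup
import Cfsg.Agent.H54.FStar
import Cfsg.Agent.H1.Coprime
import Cfsg.Agent.H27.Rad

set_option autoImplicit false

/-!
# Upward closure of `ℒ_f(G, T)` (helper37, for S1851)
-/

namespace Cfsg.Agent.H37.QTLf

open Cfsg Subgroup Cfsg.Agent.H54

section subnormal

variable {Γ : Type*} [Group Γ]

/-- If `X` is subnormal in `Γ` and `P` is a normal `2`-subgroup, every element of `X ⊔ P` has a
`2`-power power in `X`. -/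
theorem exists_pow_mem_of_subnormal (P : Subgroup Γ) [hPn : P.Normal] (hP : IsPGroup 2 P)
    {X : Subgroup Γ} (hX : X.IsSubnormal) : ∀ g ∈ X ⊔ P, ∃ k : ℕ, g ^ 2 ^ k ∈ X := by
  induction hX with
  | top => intro g _; exact ⟨0, Subgroup.mem_top _⟩
  | step H K hle hK hN ih =>
    intro g hg
    obtain ⟨k, hk⟩ := ih g (sup_le_sup_right hle P hg)
    have hg2 : g ^ 2 ^ k ∈ H ⊔ P := pow_mem hg _
    obtain ⟨h, hh, u, hu, hhu⟩ := Subgroup.mem_sup_of_normal_right.mp hg2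
    have huK : u ∈ K := by
      have : u = h⁻¹ * g ^ 2 ^ k := by rw [← hhu]; group
      rw [this]; exact mul_mem (inv_mem (hle hh)) hk
    obtain ⟨j, hj⟩ := hP ⟨u, hu⟩
    have huj : u ^ 2 ^ j = 1 := by simpa using congrArg Subtype.val hj
    refine ⟨k + j, ?_⟩
    have e1 : g ^ 2 ^ (k + j) = (h * u) ^ 2 ^ j := by rw [pow_add, pow_mul, hhu]
    rw [e1]
    have key : ∀ n : ℕ, ∃ h' ∈ H, (h * u) ^ n = h' * u ^ n := by
      intro n
      induction n with
      | zero => exact ⟨1, one_mem _, by simp⟩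
      | succ n ihn =>
        obtain ⟨h', hh', e⟩ := ihn
        refine ⟨h' * (u ^ n * h * (u ^ n)⁻¹), mul_mem hh' ?_, ?_⟩
        · exact (Subgroup.normal_subgroupOf_iff hle).mp hN h (u ^ n) hh (pow_mem huK n)
        · rw [pow_succ, e, pow_succ]; group
    obtain ⟨h', hh', e⟩ := key (2 ^ j)
    rw [e, huj, mul_one]; exact hh'

/-- Odd-order elements of `X ⊔ P` lie in the subnormal subgroup `X`. -/
theorem mem_of_odd_of_subnormal (P : Subgroup Γ) [hPn : P.Normal] (hP : IsPGroup 2 P)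
    {X : Subgroup Γ} (hX : X.IsSubnormal) {g : Γ} (hg : g ∈ X ⊔ P) (hodd : Odd (orderOf g)) :
    g ∈ X := by
  obtain ⟨k, hk⟩ := exists_pow_mem_of_subnormal P hP hX g hg
  have hcop : Nat.Coprime (2 ^ k) (orderOf g) :=
    Nat.Coprime.pow_left k (Nat.coprime_two_left.mpr hodd)
  obtain ⟨m, hm⟩ := exists_pow_eq_self_of_coprime hcop
  rw [← hm]; exact pow_mem hk m

end subnormal

section internal

variable {G : Type*} [Group G]

theorem oddGenerated_le (K : Subgroup G) : oddGenerated K ≤ K := by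
  unfold oddGenerated
  rw [Subgroup.closure_le]
  exact fun x hx => hx.1

/-- `O_2(H)` normalizes every subnormal subgroup of `H` generated by elements of odd order. -/
theorem pCoreOf_le_normalizer_of_subnormal {Y H : Subgroup G} (hYH : Y ≤ H)
    (hsub : (Y.subgroupOf H).IsSubnormal) (hodd : oddGenerated Y = Y) :
    Cfsg.pCoreOf 2 H ≤ normalizer (Y : Set G) := by
  apply le_normalizer_of_conj_mem
  intro u hu y hy
  have hcl : oddGenerated Y ≤ Y.comap (MulAut.conj u).toMonoidHom := by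
    unfold oddGenerated
    rw [Subgroup.closure_le]
    rintro x ⟨hxY, hxodd⟩
    show u * x * u⁻¹ ∈ Y
    obtain ⟨ũ, hũ, rfl⟩ := hu
    have h1 : ũ * ⟨x, hYH hxY⟩ * ũ⁻¹ ∈ Y.subgroupOf H ⊔ pCore 2 ↥H :=
      mul_mem (mul_mem (Subgroup.mem_sup_right hũ)
        (Subgroup.mem_sup_left (Subgroup.mem_subgroupOf.mpr hxY)))
        (inv_mem (Subgroup.mem_sup_right hũ))
    have h2 : Odd (orderOf (ũ * ⟨x, hYH hxY⟩ * ũ⁻¹)) := by
      have e1 : orderOf (ũ * ⟨x, hYH hxY⟩ * ũ⁻¹) = orderOf (⟨x, hYH hxY⟩ : H) :=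
        (MulAut.conj ũ).orderOf_eq _
      rw [e1, Subgroup.orderOf_mk]; exact hxodd
    have h3 := mem_of_odd_of_subnormal (pCore 2 ↥H) (pCore_isPGroup 2 ↥H) hsub h1 h2
    have h4 := Subgroup.mem_subgroupOf.mp h3
    simpa using h4
  rw [← hodd] at hy
  exact hcl hy

/-- A perfect subgroup of a finite group is generated by its elements of odd order. -/
theorem oddGenerated_eq_of_perfect [Finite G] (K : Subgroup G) (hperf : ⁅K, K⁆ = K) :
    oddGenerated K = K := by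
  have : Fact (Nat.Prime 2) := ⟨Nat.prime_two⟩
  have hle : oddGenerated K ≤ K := oddGenerated_le K
  apply le_antisymm hle
  have hn : ((oddGenerated K).subgroupOf K).Normal := by
    rw [Subgroup.normal_subgroupOf_iff hle]
    intro h k hh hk
    have hcl : oddGenerated K ≤ (oddGenerated K).comap (MulAut.conj k).toMonoidHom := by
      unfold oddGenerated
      rw [Subgroup.closure_le]
      rintro x ⟨hxK, hxodd⟩
      have e1 : orderOf (k * x * k⁻¹) = orderOf x := (MulAut.conj k).orderOf_eq x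
      have h5 : k * x * k⁻¹ ∈ {x : G | x ∈ K ∧ Odd (orderOf x)} :=
        ⟨mul_mem (mul_mem hk hxK) (inv_mem hk), by rw [e1]; exact hxodd⟩
      exact Subgroup.subset_closure h5
    exact hcl hh
  have h2 : IsPGroup 2 (↥K ⧸ (oddGenerated K).subgroupOf K) := by
    intro q
    obtain ⟨g, rfl⟩ := QuotientGroup.mk_surjective q
    obtain ⟨a, m, hm, ho⟩ := Nat.exists_eq_two_pow_mul_odd (orderOf_pos (g : G)).ne'
    refine ⟨a, ?_⟩
    rw [← QuotientGroup.mk_pow, QuotientGroup.eq_one_iff, Subgroup.mem_subgroupOf]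
    apply Subgroup.subset_closure
    refine ⟨?_, ?_⟩
    · rw [Subgroup.coe_pow]; exact pow_mem g.2 _
    · rw [Subgroup.coe_pow]
      have hd : orderOf ((g : G) ^ 2 ^ a) ∣ m :=
        orderOf_dvd_of_pow_eq_one (by rw [← pow_mul, ← ho, pow_orderOf_eq_one])
      exact Odd.of_dvd_nat hm hd
  have hperf' : Group.IsPerfect ↥K := Subgroup.isPerfect_iff.mpr hperf
  have : Group.IsNilpotent (↥K ⧸ (oddGenerated K).subgroupOf K) := h2.isNilpotent
  have hsub : Subsingleton (↥K ⧸ (oddGenerated K).subgroupOf K) := by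
    by_contra hns
    rw [not_subsingleton_iff_nontrivial] at hns
    exact Group.IsPerfect.not_isSolvable (↥K ⧸ (oddGenerated K).subgroupOf K) inferInstance
  intro g hg
  have h3 : ((⟨g, hg⟩ : K) : ↥K ⧸ (oddGenerated K).subgroupOf K) = 1 := Subsingleton.elim _ _
  rw [QuotientGroup.eq_one_iff, Subgroup.mem_subgroupOf] at h3
  exact h3

/-- Elements of `Ω₁(Z(X))` lie in `Z(X)` and are involutions (for `p = 2`; any `p` works). -/
theorem mem_omegaOne_center {p : ℕ} {X : Subgroup G} {w : G}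
    (hw : w ∈ omegaOne p (X ⊓ centralizer (X : Set G))) :
    w ∈ X ⊓ centralizer (X : Set G) ∧ w ^ p = 1 := by
  unfold omegaOne at hw
  induction hw using Subgroup.closure_induction with
  | mem x hx => exact hx
  | one => exact ⟨one_mem _, one_pow _⟩
  | mul a b _ _ ha hb =>
    refine ⟨mul_mem ha.1 hb.1, ?_⟩
    have hc : Commute a b := (Subgroup.mem_centralizer_iff.mp hb.1.2 a ha.1.1)
    rw [hc.mul_pow, ha.2, hb.2, one_mul]
  | inv a _ ha => exact ⟨inv_mem ha.1, by rw [inv_pow, ha.2, inv_one]⟩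

theorem mem_omegaOne_of {p : ℕ} {X : Subgroup G} {w : G} (hw : w ∈ X) (hp : w ^ p = 1) :
    w ∈ omegaOne p X :=
  Subgroup.subset_closure ⟨hw, hp⟩

theorem omegaOne_mono {p : ℕ} {X Y : Subgroup G} (h : X ≤ Y) : omegaOne p X ≤ omegaOne p Y :=
  Subgroup.closure_mono (fun _ hx => ⟨h hx.1, hx.2⟩)

theorem normalizer_le_normalizer_omegaOne (p : ℕ) (X : Subgroup G) :
    normalizer (X : Set G) ≤ normalizer ((omegaOne p X : Subgroup G) : Set G) := by
  apply le_normalizer_of_conj_mem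
  intro g hg y hy
  have hcl : omegaOne p X ≤ (omegaOne p X).comap (MulAut.conj g).toMonoidHom := by
    unfold omegaOne
    rw [Subgroup.closure_le]
    rintro x ⟨hxX, hxp⟩
    apply Subgroup.subset_closure
    refine ⟨(Subgroup.mem_normalizer_iff.mp hg x).mp hxX, ?_⟩
    show (g * x * g⁻¹) ^ p = 1
    rw [conj_pow, hxp]; group
  exact hcl hy

/-- The normalizer of `X` normalizes `Ω₁(Z(X))`. -/
theorem normalizer_le_normalizer_omegaOne_center (p : ℕ) (X : Subgroup G) :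
    normalizer (X : Set G) ≤
      normalizer ((omegaOne p (X ⊓ centralizer (X : Set G)) : Subgroup G) : Set G) :=
  (le_normalizer_inf' le_rfl (normalizer_le_normalizer_centralizer X)).trans
    (normalizer_le_normalizer_omegaOne p _)

end internal

section finite

variable {G : Type*} [Group G] [Finite G]

omit [Finite G] in
theorem le_sylow_of_normalized (T : Sylow 2 G) {Q : Subgroup G} (hQ : IsPGroup 2 Q)
    (hT : (T : Subgroup G) ≤ normalizer (Q : Set G)) : Q ≤ T := by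
  have h2 : IsPGroup 2 ↥((T : Subgroup G) ⊔ Q) := T.isPGroup'.to_sup_of_normal_right' hQ hT
  have h3 := T.is_maximal' h2 le_sup_left
  rw [← h3]
  exact le_sup_right

/-- In a group of even characteristic, a subgroup `H` containing a Sylow `2`-subgroup with
`O_2(H) ≠ 1` has characteristic `2`. -/
theorem charP_of_evenChar (hE : IsOfEvenCharacteristic G) (T : Sylow 2 G) (H : Subgroup G)
    (hTH : (T : Subgroup G) ≤ H) (hne : Cfsg.pCoreOf 2 H ≠ ⊥) : CharP 2 ↥H := by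
  have hQ2 : IsPGroup 2 (Cfsg.pCoreOf 2 H) := isPGroup_pCoreOf H
  have hHM : H ≤ normalizer ((Cfsg.pCoreOf 2 H : Subgroup G) : Set G) := le_normalizer_pCoreOf H
  have hM : CharP 2 ↥(normalizer ((Cfsg.pCoreOf 2 H : Subgroup G) : Set G)) :=
    hE (normalizer ((Cfsg.pCoreOf 2 H : Subgroup G) : Set G)) ⟨Cfsg.pCoreOf 2 H, hQ2, hne, rfl⟩
      ⟨T, hTH.trans hHM⟩
  have h2 : Cfsg.pCoreOf 2 (normalizer ((Cfsg.pCoreOf 2 H : Subgroup G) : Set G)) ≤
      (T : Subgroup G) :=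
    le_sylow_of_normalized T (isPGroup_pCoreOf _)
      ((hTH.trans hHM).trans (le_normalizer_pCoreOf _))
  have h3 : Cfsg.pCoreOf 2 (normalizer ((Cfsg.pCoreOf 2 H : Subgroup G) : Set G)) ≤
      Cfsg.pCoreOf 2 H :=
    le_pCoreOf (h2.trans hTH) (hHM.trans (le_normalizer_pCoreOf _)) (isPGroup_pCoreOf _)
  have h1 : Cfsg.pCoreOf 2 H ≤
      Cfsg.pCoreOf 2 (normalizer ((Cfsg.pCoreOf 2 H : Subgroup G) : Set G)) :=
    le_pCoreOf le_normalizer le_rfl hQ2
  rw [charP_iff_internal] at hM ⊢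
  intro c hc hcent
  exact h3 (hM c (hHM hc) (fun q hq => hcent q (h3 hq)))

/-- `O_2(Y) ≤ O_2(H)` for `Y` subnormal in `H`. -/
theorem pCoreOf_le_pCoreOf_of_subnormal {Y H : Subgroup G} (hYH : Y ≤ H)
    (hsub : (Y.subgroupOf H).IsSubnormal) : Cfsg.pCoreOf 2 Y ≤ Cfsg.pCoreOf 2 H := by
  have : Fact (Nat.Prime 2) := ⟨Nat.prime_two⟩
  have h1 := Cfsg.Agent.H27.radIn_le_of_subnormal (Cfsg.Agent.H27.isoInv_pGroup 2)
    (Cfsg.Agent.H27.radClosed_pGroup 2) hsub
  have h2 := Subgroup.map_mono (f := H.subtype) h1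
  rw [Cfsg.Agent.H27.radIn_map_of_injective (Cfsg.Agent.H27.isoInv_pGroup 2) _
    H.subtype_injective, Subgroup.map_subgroupOf_eq_of_le hYH] at h2
  exact h2

/-- If `L` acts nontrivially on `Ω₁(Z(O_2(L)))`, it acts nontrivially on `Ω₁(Z(O_2(H)))`. -/
theorem moduleV_ne_bot_imp {L H : Subgroup G} (hLH : L ≤ H) (hchar : CharP 2 ↥H)
    (hnorm : Cfsg.pCoreOf 2 H ≤ normalizer (L : Set G)) (hodd : oddGenerated L = L)
    (hV : moduleV L ≠ ⊥) :
    ⁅omegaOne 2 (Cfsg.pCoreOf 2 H ⊓ centralizer ((Cfsg.pCoreOf 2 H : Subgroup G) : Set G)), L⁆ ≠ ⊥ := by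
  have : Fact (Nat.Prime 2) := ⟨Nat.prime_two⟩
  intro hbot
  apply hV
  have hRp : IsPGroup 2 (Cfsg.pCoreOf 2 H) := isPGroup_pCoreOf H
  have hQp : IsPGroup 2 (Cfsg.pCoreOf 2 L) := isPGroup_pCoreOf L
  have hLR : L ≤ normalizer ((Cfsg.pCoreOf 2 H : Subgroup G) : Set G) :=
    hLH.trans (le_normalizer_pCoreOf H)
  have hLQ : L ≤ normalizer ((Cfsg.pCoreOf 2 L : Subgroup G) : Set G) := le_normalizer_pCoreOf L
  have hRQ : Cfsg.pCoreOf 2 H ≤ normalizer ((Cfsg.pCoreOf 2 L : Subgroup G) : Set G) :=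
    hnorm.trans (normalizer_le_normalizer_pCoreOf L)
  have hRLQ : Cfsg.pCoreOf 2 H ⊓ L ≤ Cfsg.pCoreOf 2 L :=
    le_pCoreOf inf_le_right (le_normalizer_inf' hLR le_normalizer) (hRp.to_le inf_le_left)
  have hZ1 : ∀ z ∈ omegaOne 2 (Cfsg.pCoreOf 2 H ⊓
      centralizer ((Cfsg.pCoreOf 2 H : Subgroup G) : Set G)), ∀ l ∈ L, l * z = z * l := by
    intro z hz l hl
    have := Subgroup.commutator_mem_commutator hz hl
    rw [hbot, Subgroup.mem_bot, commutatorElement_eq_one_iff_mul_comm] at this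
    exact this.symm
  have hWQ : omegaOne 2 (Cfsg.pCoreOf 2 L ⊓ centralizer ((Cfsg.pCoreOf 2 L : Subgroup G) : Set G)) ≤
      Cfsg.pCoreOf 2 L := fun w hw => (mem_omegaOne_center hw).1.1
  have key : ∀ x ∈ L, Odd (orderOf x) → ∀ w ∈ omegaOne 2 (Cfsg.pCoreOf 2 L ⊓
      centralizer ((Cfsg.pCoreOf 2 L : Subgroup G) : Set G)), x * w = w * x := by
    intro x hxL hxodd
    have hzx : zpowers x ≤ normalizer ((Cfsg.pCoreOf 2 H : Subgroup G) : Set G) := by
      rw [zpowers_le]; exact hLR hxL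
    apply thompson_AxB_elt x (Cfsg.pCoreOf 2 H ⊓ centralizer ({x} : Set G)) _
      (hRp.to_le inf_le_left) (Nat.coprime_two_right.mpr hxodd)
    · intro b hb
      exact Subgroup.mem_centralizer_iff.mp hb.2 x rfl
    · exact hQp.to_le hWQ
    · exact normalizer_le_normalizer_omegaOne_center 2 _ (hLQ hxL)
    · exact inf_le_left.trans (hRQ.trans (normalizer_le_normalizer_omegaOne_center 2 _))
    · intro w hw hwB
      have hwR : ∀ r ∈ Cfsg.pCoreOf 2 H, r * w = w * r := by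
        intro r hr
        have hcop : (Nat.card (zpowers x)).Coprime (Nat.card (Cfsg.pCoreOf 2 H)) := by
          obtain ⟨k, hk⟩ := IsPGroup.iff_card.mp hRp
          rw [hk, Nat.card_zpowers]
          exact Nat.Coprime.pow_right k (Nat.coprime_two_right.mpr hxodd)
        obtain ⟨c, hc, y, hy, rfl⟩ := Cfsg.Agent.H1.exists_centralizer_mul_commutator
          (zpowers x) (Cfsg.pCoreOf 2 H) hzx hcop
          (Or.inl (Group.isSolvable_of_comm (fun a b => mul_comm' a b))) r hr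
        have hcB : c ∈ Cfsg.pCoreOf 2 H ⊓ centralizer ({x} : Set G) :=
          ⟨hc.1, Subgroup.centralizer_le (by
            rw [Set.singleton_subset_iff]; exact mem_zpowers x) hc.2⟩
        have hyQ : y ∈ Cfsg.pCoreOf 2 L := by
          apply hRLQ
          refine ⟨Cfsg.Agent.H1.commutator_le_of_le_normalizer _ _ hzx hy, ?_⟩
          have h5 : ⁅Cfsg.pCoreOf 2 H, zpowers x⁆ ≤ L := by
            rw [Subgroup.commutator_comm]
            exact (Subgroup.commutator_mono (zpowers_le.mpr hxL) le_rfl).trans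
              (Cfsg.Agent.H1.commutator_le_of_le_normalizer _ L hnorm)
          exact h5 hy
        have hyw : y * w = w * y :=
          Subgroup.mem_centralizer_iff.mp (mem_omegaOne_center hw).1.2 y hyQ
        rw [mul_assoc, hyw, ← mul_assoc, hwB c hcB, mul_assoc]
      have hwH : w ∈ H := hLH (pCoreOf_le L (hWQ hw))
      have hwRmem : w ∈ Cfsg.pCoreOf 2 H :=
        (charP_iff_internal H).mp hchar w hwH (fun q hq => (hwR q hq).symm)
      have hwZ : w ∈ omegaOne 2 (Cfsg.pCoreOf 2 H ⊓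
          centralizer ((Cfsg.pCoreOf 2 H : Subgroup G) : Set G)) :=
        mem_omegaOne_of ⟨hwRmem, Subgroup.mem_centralizer_iff.mpr (fun r hr => hwR r hr)⟩
          (mem_omegaOne_center hw).2
      exact hZ1 w hwZ x hxL
  show ⁅omegaOne 2 (Cfsg.pCoreOf 2 L ⊓ centralizer ((Cfsg.pCoreOf 2 L : Subgroup G) : Set G)), L⁆ = ⊥
  rw [Subgroup.commutator_eq_bot_iff_le_centralizer]
  intro w hw
  rw [Subgroup.mem_centralizer_iff]
  intro l hl
  have hLc : oddGenerated L ≤ centralizer ({w} : Set G) := by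
    unfold oddGenerated
    rw [Subgroup.closure_le]
    rintro x ⟨hxL, hxodd⟩
    rw [SetLike.mem_coe, Subgroup.mem_centralizer_iff]
    intro h hh
    rw [Set.mem_singleton_iff] at hh; subst hh
    exact (key x hxL hxodd h hw).symm
  rw [hodd] at hLc
  exact (Subgroup.mem_centralizer_iff.mp (hLc hl) w rfl).symm

/-- `Ω₁(Z(O_2(H_L))) ≤ Ω₁(Z(O_2(H_K)))` for `T ≤ H_L ≤ H_K` with `H_K` of characteristic `2`. -/
theorem omegaOne_center_mono_of (T : Sylow 2 G) {HL HK : Subgroup G} (hLK : HL ≤ HK)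
    (hTL : (T : Subgroup G) ≤ HL) (hchar : CharP 2 ↥HK) :
    omegaOne 2 (Cfsg.pCoreOf 2 HL ⊓ centralizer ((Cfsg.pCoreOf 2 HL : Subgroup G) : Set G)) ≤
      omegaOne 2 (Cfsg.pCoreOf 2 HK ⊓ centralizer ((Cfsg.pCoreOf 2 HK : Subgroup G) : Set G)) := by
  apply omegaOne_mono
  have hRKT : Cfsg.pCoreOf 2 HK ≤ (T : Subgroup G) :=
    le_sylow_of_normalized T (isPGroup_pCoreOf HK)
      ((hTL.trans hLK).trans (le_normalizer_pCoreOf HK))
  have hRLT : Cfsg.pCoreOf 2 HL ≤ (T : Subgroup G) :=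
    le_sylow_of_normalized T (isPGroup_pCoreOf HL) (hTL.trans (le_normalizer_pCoreOf HL))
  have hRKL : Cfsg.pCoreOf 2 HK ≤ Cfsg.pCoreOf 2 HL :=
    le_pCoreOf (hRKT.trans hTL) (hLK.trans (le_normalizer_pCoreOf HK)) (isPGroup_pCoreOf HK)
  intro z hz
  have hzc : z ∈ centralizer ((Cfsg.pCoreOf 2 HK : Subgroup G) : Set G) :=
    Subgroup.centralizer_le hRKL hz.2
  refine ⟨(charP_iff_internal HK).mp hchar z (hLK (hTL (hRLT hz.1))) (fun q hq => ?_), hzc⟩
  exact (Subgroup.mem_centralizer_iff.mp hzc q hq).symm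

omit [Finite G] in
/-- If `K` acts nontrivially on `Ω₁(Z(O_2(H)))`, it acts nontrivially on `Ω₁(Z(O_2(K)))`. -/
theorem moduleV_ne_bot_of {K H : Subgroup G} (hKH : K ≤ H)
    (hQR : Cfsg.pCoreOf 2 K ≤ Cfsg.pCoreOf 2 H)
    (hnorm : Cfsg.pCoreOf 2 H ≤ normalizer (K : Set G)) (hodd : oddGenerated K = K)
    (hZ : ⁅omegaOne 2 (Cfsg.pCoreOf 2 H ⊓
      centralizer ((Cfsg.pCoreOf 2 H : Subgroup G) : Set G)), K⁆ ≠ ⊥) : moduleV K ≠ ⊥ := by
  intro hbot
  apply hZ
  have hRp : IsPGroup 2 (Cfsg.pCoreOf 2 H) := isPGroup_pCoreOf H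
  have hKR : K ≤ normalizer ((Cfsg.pCoreOf 2 H : Subgroup G) : Set G) :=
    hKH.trans (le_normalizer_pCoreOf H)
  have hRKQ : Cfsg.pCoreOf 2 H ⊓ K ≤ Cfsg.pCoreOf 2 K :=
    le_pCoreOf inf_le_right (le_normalizer_inf' hKR le_normalizer) (hRp.to_le inf_le_left)
  have hW : ∀ w ∈ omegaOne 2 (Cfsg.pCoreOf 2 K ⊓
      centralizer ((Cfsg.pCoreOf 2 K : Subgroup G) : Set G)), ∀ k ∈ K, k * w = w * k := by
    intro w hw k hk
    have h0 : ⁅omegaOne 2 (Cfsg.pCoreOf 2 K ⊓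
      centralizer ((Cfsg.pCoreOf 2 K : Subgroup G) : Set G)), K⁆ = ⊥ := hbot
    have := Subgroup.commutator_mem_commutator hw hk
    rw [h0, Subgroup.mem_bot, commutatorElement_eq_one_iff_mul_comm] at this
    exact this.symm
  have key : ∀ x ∈ K, Odd (orderOf x) → ∀ z ∈ omegaOne 2 (Cfsg.pCoreOf 2 H ⊓
      centralizer ((Cfsg.pCoreOf 2 H : Subgroup G) : Set G)), x * z = z * x := by
    intro x hxK hxodd z hz
    have hzZ := mem_omegaOne_center hz
    have hcZ : x * z * x⁻¹ * z⁻¹ ∈ omegaOne 2 (Cfsg.pCoreOf 2 H ⊓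
        centralizer ((Cfsg.pCoreOf 2 H : Subgroup G) : Set G)) :=
      mul_mem (conj_mem_of_le_normalizer
        (hKR.trans (normalizer_le_normalizer_omegaOne_center 2 _)) hxK hz) (inv_mem hz)
    have hcZ' := mem_omegaOne_center hcZ
    have hcK : x * z * x⁻¹ * z⁻¹ ∈ K := by
      have e : x * z * x⁻¹ * z⁻¹ = x * (z * x⁻¹ * z⁻¹) := by group
      rw [e]
      exact mul_mem hxK (conj_mem_of_le_normalizer hnorm hzZ.1.1 (inv_mem hxK))
    have hcQ : x * z * x⁻¹ * z⁻¹ ∈ Cfsg.pCoreOf 2 K := hRKQ ⟨hcZ'.1.1, hcK⟩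
    have hcW : x * z * x⁻¹ * z⁻¹ ∈ omegaOne 2 (Cfsg.pCoreOf 2 K ⊓
        centralizer ((Cfsg.pCoreOf 2 K : Subgroup G) : Set G)) :=
      mem_omegaOne_of ⟨hcQ, Subgroup.centralizer_le hQR hcZ'.1.2⟩ hcZ'.2
    have hxc : x * (x * z * x⁻¹ * z⁻¹) = (x * z * x⁻¹ * z⁻¹) * x := hW _ hcW x hxK
    have hpow : ∀ n : ℕ, x ^ n * z * (x ^ n)⁻¹ = (x * z * x⁻¹ * z⁻¹) ^ n * z := by
      intro n
      induction n with
      | zero => simp
      | succ n ih =>
        have hxcn : x * (x * z * x⁻¹ * z⁻¹) ^ n = (x * z * x⁻¹ * z⁻¹) ^ n * x :=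
          (Commute.pow_right (show Commute x (x * z * x⁻¹ * z⁻¹) from hxc) n)
        calc x ^ (n + 1) * z * (x ^ (n + 1))⁻¹ = x * (x ^ n * z * (x ^ n)⁻¹) * x⁻¹ := by
              rw [pow_succ']; group
          _ = x * ((x * z * x⁻¹ * z⁻¹) ^ n * z) * x⁻¹ := by rw [ih]
          _ = (x * (x * z * x⁻¹ * z⁻¹) ^ n) * (z * x⁻¹) := by group
          _ = (x * z * x⁻¹ * z⁻¹) ^ n * x * (z * x⁻¹) := by rw [hxcn]
          _ = (x * z * x⁻¹ * z⁻¹) ^ n * (x * z * x⁻¹ * z⁻¹) * z := by group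
          _ = (x * z * x⁻¹ * z⁻¹) ^ (n + 1) * z := by rw [← pow_succ]
    have h1 := hpow (orderOf x)
    rw [pow_orderOf_eq_one] at h1
    have h2 : (x * z * x⁻¹ * z⁻¹) ^ orderOf x = 1 := by
      have e : (x * z * x⁻¹ * z⁻¹) ^ orderOf x * z = z := by rw [← h1]; group
      exact mul_eq_right.mp e
    have h3 : x * z * x⁻¹ * z⁻¹ = 1 := by
      obtain ⟨m, hm⟩ := hxodd
      rw [hm, pow_succ, pow_mul, hcZ'.2, one_pow, one_mul] at h2
      exact h2
    calc x * z = (x * z * x⁻¹ * z⁻¹) * z * x := by group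
      _ = z * x := by rw [h3, one_mul]
  rw [Subgroup.commutator_eq_bot_iff_le_centralizer]
  intro z hz
  rw [Subgroup.mem_centralizer_iff]
  intro k hk
  have hKc : oddGenerated K ≤ centralizer ({z} : Set G) := by
    unfold oddGenerated
    rw [Subgroup.closure_le]
    rintro x ⟨hxK, hxodd⟩
    rw [SetLike.mem_coe, Subgroup.mem_centralizer_iff]
    intro h hh
    rw [Set.mem_singleton_iff] at hh; subst hh
    exact (key x hxK hxodd h hz).symm
  rw [hodd] at hKc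
  exact (Subgroup.mem_centralizer_iff.mp (hKc hk) z rfl).symm

/-- Basic facts on a member `Y` of `ℒ(G, T)` in a group of even characteristic. -/
theorem calL_facts (hE : IsOfEvenCharacteristic G) (T : Sylow 2 G) {Y : Subgroup G}
    (hY : Y ∈ calL (T : Subgroup G)) :
    Y ≠ ⊥ ∧ oddGenerated Y = Y ∧ CharP 2 ↥(Y ⊔ (T : Subgroup G)) ∧ CharP 2 ↥Y ∧
      Cfsg.pCoreOf 2 (Y ⊔ (T : Subgroup G)) ≤ normalizer (Y : Set G) ∧
      Cfsg.pCoreOf 2 Y ≤ Cfsg.pCoreOf 2 (Y ⊔ (T : Subgroup G)) := by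
  have : Fact (Nat.Prime 2) := ⟨Nat.prime_two⟩
  obtain ⟨⟨hne, hperf, hsub, -⟩, -, hO2⟩ := hY
  have hYH : Y ≤ Y ⊔ (T : Subgroup G) := le_sup_left
  have hYne : Y ≠ ⊥ := by
    rintro rfl
    apply hne
    exact Subgroup.bot_subgroupOf _
  have hYperf : ⁅Y, Y⁆ = Y := by
    have := congrArg (Subgroup.map (Y ⊔ (T : Subgroup G)).subtype) hperf
    rw [Subgroup.map_commutator, Subgroup.map_subgroupOf_eq_of_le hYH] at this
    exact this
  have hodd := oddGenerated_eq_of_perfect Y hYperf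
  have hRne : Cfsg.pCoreOf 2 (Y ⊔ (T : Subgroup G)) ≠ ⊥ := by
    intro h
    apply hO2
    exact (Subgroup.map_eq_bot_iff_of_injective _ (Subgroup.subtype_injective _)).mp h
  have hchar : CharP 2 ↥(Y ⊔ (T : Subgroup G)) := charP_of_evenChar hE T _ le_sup_right hRne
  have hcharY : CharP 2 ↥Y :=
    charP_of_equiv (Subgroup.subgroupOfEquivOfLe hYH) (charP_subnormal hchar _ hsub)
  exact ⟨hYne, hodd, hchar, hcharY, pCoreOf_le_normalizer_of_subnormal hYH hsub hodd,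
    pCoreOf_le_pCoreOf_of_subnormal hYH hsub⟩

/-- Upward closure of `ℒ_f(G, T)` inside `ℒ(G, T)`. -/
theorem calLf_of_le (hE : IsOfEvenCharacteristic G) (T : Sylow 2 G) {L K : Subgroup G}
    (hL : L ∈ calLf (T : Subgroup G)) (hK : K ∈ calL (T : Subgroup G)) (hLK : L ≤ K) :
    K ∈ calLf (T : Subgroup G) := by
  have : Fact (Nat.Prime 2) := ⟨Nat.prime_two⟩
  obtain ⟨hKne, hKodd, hKchar, hKcharK, hKnorm, hKQR⟩ := calL_facts hE T hK
  obtain ⟨-, hLodd, hLchar, -, hLnorm, -⟩ := calL_facts hE T hL.1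
  refine ⟨hK, ⟨hKne, hKodd, fstar_eq_pCore_iff_charP.mpr hKcharK⟩, ?_⟩
  have h1 := moduleV_ne_bot_imp (le_sup_left : L ≤ L ⊔ (T : Subgroup G)) hLchar hLnorm hLodd
    hL.2.2
  have h2 := omegaOne_center_mono_of T (sup_le_sup_right hLK (T : Subgroup G)) le_sup_right hKchar
  have h3 : ⁅omegaOne 2 (Cfsg.pCoreOf 2 (K ⊔ (T : Subgroup G)) ⊓
      centralizer ((Cfsg.pCoreOf 2 (K ⊔ (T : Subgroup G)) : Subgroup G) : Set G)), K⁆ ≠ ⊥ := by
    intro h
    apply h1
    rw [eq_bot_iff, ← h]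
    exact Subgroup.commutator_mono h2 hLK
  exact moduleV_ne_bot_of le_sup_left hKQR hKnorm hKodd h3

end finite

end Cfsg.Agent.H37.QTLf
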