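import Cfsg.Agent.H52.SoDefs

/-!
# S2944 (`N_G(K) = N_G(W_K)` for `K ∈ 𝒦₀(T)`, and `K` is a `J(T^g)`-component whenever
`J(T^g) ≤ N_G(W_K)`): statements of the pieces

Route.  `N := N_G(W_K)`, `J(T) ≤ S` a Sylow 2-subgroup of `N`; then `J(S) = J(T)`, `N` lies in
the family of `S` and `K ≤ N` is a `J(S)`-component (SETUP), so all facts of S2942/S2943 hold for
`(S, N, K)`, and also for `(S^n, N, K^n)` for `n ∈ N` (JCONJ, OVCONJ).  Inside `X = ↥N`, with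
`Q = O₂(X)`, `V = Ω₁(Z(Q))`, `C = C_X(V)`: `W_{K^n} = W_K^n = W_K = [V, K]`, so `K C = K^n C`
(UNIQ).  The new input: the elements of odd order of `J(X)` commute modulo `Q` (GLQ, from the
structure theorem S0617 and a lemma on central extensions, CEXT).  Then `K Q = K^n Q` (INJ2)
and `K = K^n`.  For the second claim, `J(T^g) = J(S^m)` for some `m ∈ N` (SYLJ).
-/

set_option autoImplicit false
open Cfsg

namespace Cfsg.Agent.H37.Sp

open Cfsg.Agent.H52.Sn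

universe u

/-- CEXT: if the image of `π` is generated by independent normal copies of `SL(2,2) ≅ S₃` and
the kernel of `π` is central of odd order, then the elements of odd order of the source
commute. -/
def StCext : Prop := ∀ {G₁ Y : Type u} [Group G₁] [Finite G₁] [Group Y] (π : G₁ →* Y)
    {ι : Type u} (E : ι → Subgroup Y),
  π.ker ≤ Subgroup.center G₁ → Odd (Nat.card ↥π.ker) →
  (∀ i, π.range ≤ Subgroup.normalizer ((E i : Subgroup Y) : Set Y)) →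
  (∀ i, Nonempty (↥(E i) ≃* Matrix.SpecialLinearGroup (Fin 2) (ZMod 2))) →
  iSupIndep E → (⨆ i, E i) = π.range →
  ∀ x y : G₁, Odd (orderOf x) → Odd (orderOf y) → x * y = y * x

/-- CEXTX: the same inside a group `X`, modulo a normal subgroup `Q` contained in the kernel
of `f`, for the subgroup `M`. -/
def StCextX : Prop := ∀ {X Y : Type u} [Group X] [Finite X] [Group Y] (f : X →* Y)
    (M Q : Subgroup X) {ι : Type u} (E : ι → Subgroup Y),
  Q.Normal → Q ≤ f.ker →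
  (∀ c ∈ f.ker, ∀ m ∈ M, c * m * c⁻¹ * m⁻¹ ∈ Q) →
  (∀ c ∈ f.ker, c * c ∈ Q → c ∈ Q) →
  (∀ i, M.map f ≤ Subgroup.normalizer ((E i : Subgroup Y) : Set Y)) →
  (∀ i, Nonempty (↥(E i) ≃* Matrix.SpecialLinearGroup (Fin 2) (ZMod 2))) →
  iSupIndep E → (⨆ i, E i) = M.map f →
  ∀ x ∈ M, ∀ y ∈ M, Odd (orderOf x) → Odd (orderOf y) → x * y * x⁻¹ * y⁻¹ ∈ Q

/-- GLQ: the strengthening of `StGL` from `C_X(V)` to `Q`: if moreover `Q ⊴ X` lies in
`C_X(V)`, `C_X(V)` centralizes `J(X)` modulo `Q` and `C_X(V) / Q` has no involutions, then the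
elements of odd order of `J(X)` commute modulo `Q`. -/
def StGLQ : Prop := ∀ {X : Type u} [Group X] [Finite X] (V Q : Subgroup X) [V.Normal],
  IsElementaryAbelian 2 V → IsPSolvable 2 X →
  pCore 2 (X ⧸ Subgroup.centralizer (V : Set X)) = ⊥ →
  Q.Normal → Q ≤ Subgroup.centralizer (V : Set X) →
  (∀ c ∈ Subgroup.centralizer (V : Set X), ∀ m ∈ thompsonSubgroup 2 X,
    c * m * c⁻¹ * m⁻¹ ∈ Q) →
  (∀ c ∈ Subgroup.centralizer (V : Set X), c * c ∈ Q → c ∈ Q) →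
  ∀ x ∈ thompsonSubgroup 2 X, ∀ y ∈ thompsonSubgroup 2 X, Odd (orderOf x) → Odd (orderOf y) →
    x * y * x⁻¹ * y⁻¹ ∈ Q

/-- CQ: `C` centralizes `J(X)` modulo `Q`, and `C / Q` has no involutions. -/
def StCQ : Prop := ∀ {X : Type u} [Group X] [Finite X] (T C Q : Subgroup X),
  IsPGroup 2 ↥T → Odd T.index → C.Normal → Q.Normal → IsPGroup 2 ↥Q →
  T ⊓ C ≤ Q → C ≤ Subgroup.normalizer (T : Set X) →
  (∀ c ∈ C, ∀ m ∈ thompsonSubgroup 2 X, c * m * c⁻¹ * m⁻¹ ∈ Q) ∧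
    (∀ c ∈ C, c * c ∈ Q → c ∈ Q)

/-- INJ2: a component is determined by its image modulo `C`, also for components with respect
to different Sylow subgroups, once the elements of odd order of `M` commute modulo `Q`. -/
def StInj2 : Prop := ∀ {X : Type u} [Group X] [Finite X]
    (C Q M T₁ J₁ K₁ O₁ T₂ J₂ K₂ O₂ : Subgroup X),
  Facts T₁ C Q M J₁ K₁ O₁ → Facts T₂ C Q M J₂ K₂ O₂ →
  O₁ ≤ Q → O₂ ≤ Q → ⁅K₁, C⁆ ≤ Q → ⁅K₂, C⁆ ≤ Q →
  (∀ x ∈ M, ∀ y ∈ M, Odd (orderOf x) → Odd (orderOf y) → x * y * x⁻¹ * y⁻¹ ∈ Q) →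
  K₁ ⊔ C = K₂ ⊔ C → K₁ = K₂

/-- ABS2: the abstract uniqueness statement for two Sylow subgroups (from FINA, FINB, UNIQ,
INJ2). -/
def StAbs2 : Prop := ∀ {X : Type u} [Group X] [Finite X]
    (V T₁ T₂ Q M J₁ J₂ K₁ O₁ K₂ O₂ : Subgroup X) [V.Normal],
  IsElementaryAbelian 2 V →
  Facts T₁ (Subgroup.centralizer (V : Set X)) Q M J₁ K₁ O₁ →
  Facts T₂ (Subgroup.centralizer (V : Set X)) Q M J₂ K₂ O₂ →
  (∀ x ∈ M, ∀ y ∈ M, Odd (orderOf x) → Odd (orderOf y) → x * y * x⁻¹ * y⁻¹ ∈ Q) →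
  Nat.card ↥⁅V, K₁⁆ = 4 → Nat.card ↥⁅V, K₂⁆ = 4 → ⁅V, K₁⁆ ⊓ ⁅V, K₂⁆ ≠ ⊥ →
  K₁ = K₂

/-- WCONJ: `W_{K^g} = (W_K)^g`. -/
def StWConj : Prop := ∀ {G : Type u} [Group G] [Finite G] (K : Subgroup G) (g : G),
  wOf (K.map (MulAut.conj g).toMonoidHom) = (wOf K).map (MulAut.conj g).toMonoidHom

/-- JCONJ: conjugates of `J(T)`-components are `J(T^g)`-components. -/
def StJConj : Prop := ∀ {G : Type u} [Group G] [Finite G] (T K : Subgroup G) (g : G),
  IsJComponent T K →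
  IsJComponent (T.map (MulAut.conj g).toMonoidHom) (K.map (MulAut.conj g).toMonoidHom)

/-- OVCONJ: the family of `T` and of `T^g` have the same members containing `g`. -/
def StOvConj : Prop := ∀ {G : Type u} [Group G] [Finite G] (T L : Subgroup G) (g : G),
  g ∈ L → L ∈ jOvergroups T → L ∈ jOvergroups (T.map (MulAut.conj g).toMonoidHom)

/-- SETUP: for `K ∈ 𝒦₀(T)` there is a Sylow 2-subgroup `S` of `N_G(W_K)` with `J(S) = J(T)`;
`N_G(W_K)` lies in the family of `S`, and `K ≤ N_G(W_K)` is a `J(S)`-component. -/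
def StSetup : Prop := ∀ {G : Type u} [Group G] [Finite G],
  IsCharacteristicTwoType G →
  ∀ (T K : Subgroup G), IsPGroup 2 ↥T → K ∈ jComponentsZero T →
  ∃ S : Subgroup G, IsPGroup 2 ↥S ∧ S ≠ ⊥ ∧
    thompsonSubgroupOf 2 S = thompsonSubgroupOf 2 T ∧
    Subgroup.normalizer (wOf K : Set G) ∈ jOvergroups S ∧ IsJComponent S K ∧
    K ≤ Subgroup.normalizer (wOf K : Set G)

/-- SYLJ: if `S` is a Sylow 2-subgroup of `N` with `J(S) = J(T)` and `J(T^g) ≤ N`, then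
`J(T^g) = J(S^m)` for some `m ∈ N`. -/
def StSylJ : Prop := ∀ {G : Type u} [Group G] [Finite G] (T S N : Subgroup G) (g : G),
  IsPGroup 2 ↥T → IsSylowTwoIn S N → thompsonSubgroupOf 2 S = thompsonSubgroupOf 2 T →
  thompsonSubgroupOf 2 (T.map (MulAut.conj g).toMonoidHom) ≤ N →
  ∃ m ∈ N, thompsonSubgroupOf 2 (T.map (MulAut.conj g).toMonoidHom) =
    thompsonSubgroupOf 2 (S.map (MulAut.conj m).toMonoidHom)

/-- The statement S2944. -/
def StMain4 : Prop := ∀ {G : Type u} [Group G] [Finite G],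
  IsCharacteristicTwoType G →
  (∀ N : Subgroup G, IsTwoLocal N → Group.IsSolvable ↥N) →
  (∀ S : Sylow 2 G, Subgroup.centralizer (omegaCenterOf (S : Subgroup G) : Set G) ≤
      Subgroup.normalizer ((S : Subgroup G) : Set G)) →
  ∀ (T : Subgroup G), IsPGroup 2 ↥T → T ≠ ⊥ → ∀ (K : Subgroup G), K ∈ jComponentsZero T →
  Subgroup.normalizer (K : Set G) = Subgroup.normalizer (wOf K : Set G) ∧
    ∀ g : G, thompsonSubgroupOf 2 (T.map (MulAut.conj g).toMonoidHom) ≤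
        Subgroup.normalizer (wOf K : Set G) →
      IsJComponent (T.map (MulAut.conj g).toMonoidHom) K

end Cfsg.Agent.H37.Sp
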