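import Mathlib
import Cfsg.Agent.H74.W2PDefs

set_option autoImplicit false
set_option linter.unusedSectionVars false

/-!
# S0720-LA1 (helper37, for helper74): the eigenspaces `Vh x p h` have dimension `2`
-/

namespace Cfsg.Agent.H37.W2P

open Cfsg.Agent.H74.W2P Equiv MulAction

variable {Ω : Type*} [Fintype Ω] [DecidableEq Ω]

theorem zeta_pow_self {p : ℕ} (hp : p ≠ 0) : zeta p ^ p = 1 := by
  unfold zeta
  rw [← Complex.exp_nat_mul]
  have hp' : (p : ℂ) ≠ 0 := Nat.cast_ne_zero.mpr hp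
  have : (p : ℂ) * (2 * Real.pi * Complex.I / p) = 2 * Real.pi * Complex.I := by
    field_simp
  rw [this, Complex.exp_two_pi_mul_I]

theorem zeta_ne_zero (p : ℕ) : zeta p ≠ 0 := Complex.exp_ne_zero _

theorem zeta_zpow_congr {p : ℕ} (hp : p ≠ 0) {i j : ℤ} (h : (p : ℤ) ∣ i - j) :
    zeta p ^ i = zeta p ^ j := by
  obtain ⟨c, hc⟩ := h
  have : i = j + p * c := by linarith
  rw [this, zpow_add₀ (zeta_ne_zero p), zpow_mul, zpow_natCast, zeta_pow_self hp, one_zpow,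
    mul_one]

theorem dvd_of_zpow_fix {G : Subgroup (Perm Ω)} {p : ℕ} {x : Perm Ω} (hyp : Hyp G p x) (a : Ω)
    (i : ℤ) (h : (x ^ i) a = a) : (p : ℤ) ∣ i := by
  by_contra hnd
  have hcop : IsCoprime (p : ℤ) i :=
    (Nat.prime_iff_prime_int.mp hyp.hp).irreducible.coprime_iff_not_dvd.2 hnd
  obtain ⟨u, v, huv⟩ := hcop
  have hxp : x ^ (p : ℤ) = 1 := by rw [zpow_natCast, ← hyp.hxord, pow_orderOf_eq_one]
  have hx : x = (x ^ i) ^ v := by
    have h1 : x ^ (u * p + v * i) = x := by rw [huv, zpow_one]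
    rw [zpow_add, mul_comm u, zpow_mul, hxp, one_zpow, one_mul, mul_comm v, zpow_mul] at h1
    exact h1.symm
  apply hyp.hxfix a
  rw [hx]
  exact Equiv.Perm.zpow_apply_eq_self_of_apply_eq_self h v

theorem zeta_pow_congr {G : Subgroup (Perm Ω)} {p : ℕ} {x : Perm Ω} (hyp : Hyp G p x) (a : Ω)
    (i j : ℕ) (h : (x ^ i) a = (x ^ j) a) : zeta p ^ i = zeta p ^ j := by
  have h1 : (x ^ ((i : ℤ) - j)) a = a := by
    have : (x ^ ((i : ℤ) - j)) = (x ^ j)⁻¹ * x ^ i := by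
      rw [sub_eq_neg_add, zpow_add, zpow_neg, zpow_natCast, zpow_natCast]
    rw [this, Perm.mul_apply, h]
    exact Equiv.symm_apply_apply _ _
  have h2 := dvd_of_zpow_fix hyp a _ h1
  have h3 := zeta_zpow_congr hyp.hp.ne_zero h2
  rwa [zpow_natCast, zpow_natCast] at h3

theorem pow_p_eq_one {G : Subgroup (Perm Ω)} {p : ℕ} {x : Perm Ω} (hyp : Hyp G p x) :
    x ^ p = 1 := by rw [← hyp.hxord, pow_orderOf_eq_one]

/-- the function `ζ ^ (h k)` at `x ^ k a`, zero outside the `x`-cycle of `a` -/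
noncomputable def coef (x : Perm Ω) (p : ℕ) (h : ZMod p) (a ω : Ω) : ℂ :=
  open Classical in
  if hω : ∃ k : ℕ, (x ^ k) a = ω then zeta p ^ (h.val * hω.choose) else 0

theorem coef_of_not (x : Perm Ω) (p : ℕ) (h : ZMod p) (a ω : Ω)
    (hω : ¬ ∃ k : ℕ, (x ^ k) a = ω) : coef x p h a ω = 0 := by
  unfold coef
  rw [dif_neg hω]

theorem coef_self {G : Subgroup (Perm Ω)} {p : ℕ} {x : Perm Ω} (hyp : Hyp G p x) (h : ZMod p)
    (a : Ω) : coef x p h a a = 1 := by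
  have hω : ∃ k : ℕ, (x ^ k) a = a := ⟨0, by simp⟩
  unfold coef
  rw [dif_pos hω]
  have h1 : zeta p ^ hω.choose = zeta p ^ 0 :=
    zeta_pow_congr hyp a _ _ (by rw [hω.choose_spec]; simp)
  rw [mul_comm, pow_mul, h1, pow_zero, one_pow]

theorem coef_mem {G : Subgroup (Perm Ω)} {p : ℕ} {x : Perm Ω} (hyp : Hyp G p x) (h : ZMod p)
    (a : Ω) : coef x p h a ∈ Vh x p h := by
  intro ω
  by_cases hω : ∃ k : ℕ, (x ^ k) a = ω
  · have hω' : ∃ k : ℕ, (x ^ k) a = x ω := by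
      obtain ⟨k, hk⟩ := hω
      exact ⟨k + 1, by rw [pow_succ', Perm.mul_apply, hk]⟩
    unfold coef
    rw [dif_pos hω, dif_pos hω']
    have h1 : zeta p ^ hω'.choose = zeta p ^ (hω.choose + 1) :=
      zeta_pow_congr hyp a _ _ (by
        rw [hω'.choose_spec, pow_succ', Perm.mul_apply, hω.choose_spec])
    rw [mul_comm h.val, pow_mul, h1, mul_comm h.val, pow_mul, ← pow_mul, ← pow_mul, add_mul,
      pow_add, one_mul, mul_comm]
  · have hω' : ¬ ∃ k : ℕ, (x ^ k) a = x ω := by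
      rintro ⟨k, hk⟩
      apply hω
      refine ⟨(p - 1) + k, ?_⟩
      rw [pow_add, Perm.mul_apply, hk, ← Perm.mul_apply, ← pow_succ,
        Nat.sub_add_cancel hyp.hp.one_le, pow_p_eq_one hyp, Perm.one_apply]
    rw [coef_of_not x p h a ω hω, coef_of_not x p h a (x ω) hω', mul_zero]

theorem exists_two_reps {G : Subgroup (Perm Ω)} {p : ℕ} {x : Perm Ω} (hyp : Hyp G p x) :
    ∃ a₀ b₀ : Ω, (∀ ω, (∃ k : ℕ, (x ^ k) a₀ = ω) ∨ (∃ k : ℕ, (x ^ k) b₀ = ω)) ∧
      ∀ i j : ℕ, (x ^ i) a₀ ≠ (x ^ j) b₀ := by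
  classical
  have hp0 : 0 < p := hyp.hp.pos
  have hcard := hyp.hcard
  have hne : Nonempty Ω := by
    rw [← Fintype.card_pos_iff, hcard]; omega
  obtain ⟨a₀⟩ := hne
  have hmod : ∀ (m : ℕ) (a : Ω), (x ^ m) a = (x ^ (m % p)) a := by
    intro m a
    rw [← hyp.hxord, pow_mod_orderOf]
  obtain ⟨b₀, hb₀⟩ : ∃ b₀ : Ω, ∀ k : ℕ, (x ^ k) a₀ ≠ b₀ := by
    by_contra hcon
    have hsurj : Function.Surjective (fun k : Fin p => (x ^ (k : ℕ)) a₀) := by
      intro b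
      by_contra hb
      apply hcon
      refine ⟨b, fun k hk => hb ⟨⟨k % p, Nat.mod_lt _ hp0⟩, ?_⟩⟩
      simp only
      rw [← hmod, hk]
    have := Fintype.card_le_of_surjective _ hsurj
    rw [Fintype.card_fin, hcard] at this
    omega
  have hab : ∀ i j : ℕ, (x ^ i) a₀ ≠ (x ^ j) b₀ := by
    intro i j hij
    apply hb₀ ((p - 1) * j + i)
    rw [pow_add, Perm.mul_apply, hij, ← Perm.mul_apply, ← pow_add, ← Nat.succ_mul,
      Nat.succ_eq_add_one, Nat.sub_add_cancel hyp.hp.one_le, pow_mul, pow_p_eq_one hyp, one_pow,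
      Perm.one_apply]
  refine ⟨a₀, b₀, ?_, hab⟩
  let φ : Bool × Fin p → Ω := fun ck => (x ^ (ck.2 : ℕ)) (if ck.1 then a₀ else b₀)
  have hsame : ∀ (a : Ω) (k k' : Fin p), (x ^ (k : ℕ)) a = (x ^ (k' : ℕ)) a → k = k' := by
    intro a k k' hkk
    have h1 : (x ^ (((k : ℕ) : ℤ) - (k' : ℕ))) a = a := by
      have : (x ^ (((k : ℕ) : ℤ) - (k' : ℕ))) = (x ^ (k' : ℕ))⁻¹ * x ^ (k : ℕ) := by
        rw [sub_eq_neg_add, zpow_add, zpow_neg, zpow_natCast, zpow_natCast]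
      rw [this, Perm.mul_apply, hkk]
      exact Equiv.symm_apply_apply _ _
    have h2 := dvd_of_zpow_fix hyp a _ h1
    have h3 : (((k : ℕ) : ℤ) - (k' : ℕ)) = 0 := by
      apply Int.eq_zero_of_abs_lt_dvd h2
      rw [abs_lt]
      have := k.2
      have := k'.2
      constructor <;> omega
    apply Fin.ext
    omega
  have hinj : Function.Injective φ := by
    rintro ⟨c, k⟩ ⟨c', k'⟩ hck
    simp only [φ] at hck
    cases c <;> cases c'
    · simp only [Bool.false_eq_true, if_false] at hck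
      rw [hsame b₀ k k' hck]
    · simp only [Bool.false_eq_true, if_false, if_true] at hck
      exact absurd hck.symm (hab _ _)
    · simp only [Bool.false_eq_true, if_false, if_true] at hck
      exact absurd hck (hab _ _)
    · simp only [if_true] at hck
      rw [hsame a₀ k k' hck]
  have hbij : Function.Bijective φ := by
    rw [Fintype.bijective_iff_injective_and_card]
    refine ⟨hinj, ?_⟩
    rw [Fintype.card_prod, Fintype.card_bool, Fintype.card_fin, hcard]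
  intro ω
  obtain ⟨⟨c, k⟩, hck⟩ := hbij.2 ω
  cases c
  · right
    exact ⟨k, by simpa [φ] using hck⟩
  · left
    exact ⟨k, by simpa [φ] using hck⟩

theorem Vh_apply_pow {p : ℕ} {x : Perm Ω} {h : ZMod p} {f : Ω → ℂ} (hf : f ∈ Vh x p h) (k : ℕ)
    (ω : Ω) : f ((x ^ k) ω) = zeta p ^ (h.val * k) * f ω := by
  induction k with
  | zero => simp
  | succ k ih =>
    rw [pow_succ', Perm.mul_apply, hf ((x ^ k) ω), ih, ← mul_assoc, ← pow_add]
    congr 2
    ring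

theorem finrank_Vh {G : Subgroup (Perm Ω)} {p : ℕ} {x : Perm Ω} (hyp : Hyp G p x) (h : ZMod p) :
    Module.finrank ℂ ↥(Vh x p h) = 2 := by
  classical
  obtain ⟨a₀, b₀, hcov, hab⟩ := exists_two_reps hyp
  let Φ : ↥(Vh x p h) →ₗ[ℂ] ℂ × ℂ :=
    ((LinearMap.proj a₀ : (Ω → ℂ) →ₗ[ℂ] ℂ).prod (LinearMap.proj b₀ : (Ω → ℂ) →ₗ[ℂ] ℂ)).comp
      (Vh x p h).subtype
  have hΦ : ∀ f : ↥(Vh x p h), Φ f = ((f : Ω → ℂ) a₀, (f : Ω → ℂ) b₀) := fun f => rfl
  have hinj : Function.Injective Φ := by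
    rw [← LinearMap.ker_eq_bot, LinearMap.ker_eq_bot']
    intro f hf
    rw [hΦ, Prod.mk_eq_zero] at hf
    apply Subtype.ext
    funext ω
    rcases hcov ω with ⟨k, hk⟩ | ⟨k, hk⟩
    · rw [← hk, Vh_apply_pow f.2, hf.1, mul_zero]; rfl
    · rw [← hk, Vh_apply_pow f.2, hf.2, mul_zero]; rfl
  have hsurj : Function.Surjective Φ := by
    rintro ⟨c₁, c₂⟩
    refine ⟨⟨c₁ • coef x p h a₀ + c₂ • coef x p h b₀,
      (Vh x p h).add_mem ((Vh x p h).smul_mem _ (coef_mem hyp h a₀))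
        ((Vh x p h).smul_mem _ (coef_mem hyp h b₀))⟩, ?_⟩
    rw [hΦ]
    have h1 : coef x p h b₀ a₀ = 0 := by
      apply coef_of_not
      rintro ⟨k, hk⟩
      exact hab 0 k (by rw [hk]; simp)
    have h2 : coef x p h a₀ b₀ = 0 := by
      apply coef_of_not
      rintro ⟨k, hk⟩
      exact hab k 0 (by rw [hk]; simp)
    simp only [Pi.add_apply, Pi.smul_apply, smul_eq_mul, coef_self hyp, h1, h2, mul_one,
      mul_zero, add_zero, zero_add]
  have e := LinearEquiv.ofBijective Φ ⟨hinj, hsurj⟩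
  rw [e.finrank_eq, Module.finrank_prod, Module.finrank_self]

end Cfsg.Agent.H37.W2P

open Cfsg.Agent.H74.W2P Equiv MulAction in
example {Ω : Type*} [Fintype Ω] [DecidableEq Ω] {G : Subgroup (Perm Ω)} {p : ℕ} {x : Perm Ω}
    (hyp : Hyp G p x) (h : ZMod p) :
    Module.finrank ℂ ↥(Vh x p h) = 2 :=
  Cfsg.Agent.H37.W2P.finrank_Vh hyp h
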