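import Mathlib
import Cfsg.Agent.S0118
import Cfsg.Agent.S1242
import Cfsg.Agent.S1457
import Cfsg.Agent.H37.AG
import Cfsg.Agent.H58.GTe

set_option autoImplicit false

/-!
# B&G Lemma 9.5, the transfer step (helper37, piece T1 of S1402 for helper38)

`bg95_transfer`: in a minimal simple group of odd order, if `A` is an abelian normal subgroup of
a Sylow `p`-subgroup `P` and `D` contains the normalizers of all `R` with `A ≤ R ≤ P`, then
`P ≤ D'`.  (Glauberman's `ZJ`-theorem S0118 + the focal subgroup theorem S1242 + `p`-stability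
S1457 + the Frattini argument.)
-/

namespace Cfsg.Agent.H37.BG95

open Cfsg Subgroup
open scoped Pointwise commutatorElement

universe u

/-- an element whose image in `Z ⧸ K` has order prime to `p` and which has `p`-power order lies
in `K` -/
theorem mem_of_pow_of_coprime {Z : Type*} [Group Z] (K : Subgroup Z) [K.Normal] {p : ℕ}
    {y : Z} {k : ℕ} (hy : y ^ (p ^ k) = 1)
    (hc : (orderOf (QuotientGroup.mk' K y)).Coprime p) : y ∈ K := by
  have h1 : orderOf (QuotientGroup.mk' K y) ∣ p ^ k := by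
    apply orderOf_dvd_of_pow_eq_one
    rw [← map_pow, hy, map_one]
  have h2 : orderOf (QuotientGroup.mk' K y) = 1 :=
    Nat.Coprime.eq_one_of_dvd (Nat.Coprime.pow_right k hc) h1
  rw [orderOf_eq_one_iff] at h2
  exact (QuotientGroup.eq_one_iff y).mp h2

/-- a `p`-element is conjugate into a given Sylow `p`-subgroup -/
theorem exists_conj_mem_sylow {Γ : Type*} [Group Γ] [Finite Γ] {p : ℕ} [Fact p.Prime]
    (S : Sylow p Γ) (y : Γ) {k : ℕ} (hy : y ^ (p ^ k) = 1) :
    ∃ n : Γ, n * y * n⁻¹ ∈ (S : Subgroup Γ) := by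
  have hpg : IsPGroup p (Subgroup.zpowers y) := by
    rintro ⟨z, hz⟩
    obtain ⟨i, rfl⟩ := Subgroup.mem_zpowers_iff.mp hz
    refine ⟨k, Subtype.ext ?_⟩
    simp only [Subgroup.coe_pow, Subgroup.coe_one]
    rw [← zpow_natCast, ← zpow_mul, mul_comm, zpow_mul, zpow_natCast, hy, one_zpow]
  obtain ⟨Q, hQ⟩ := hpg.exists_le_sylow
  obtain ⟨n, hn⟩ := MulAction.exists_smul_eq Γ Q S
  refine ⟨n, ?_⟩
  have h1 : y ∈ (Q : Subgroup Γ) := hQ (Subgroup.mem_zpowers y)
  have h2 : MulAut.conj n • y ∈ MulAut.conj n • (Q : Subgroup Γ) :=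
    Subgroup.smul_mem_pointwise_smul _ _ _ h1
  have h3 : (MulAut.conj n • (Q : Subgroup Γ)) = (S : Subgroup Γ) := by
    rw [← Sylow.coe_subgroup_smul, hn]
  rw [h3] at h2
  have h4 : MulAut.conj n • y = n * y * n⁻¹ := by simp [MulAut.smul_def]
  rw [h4] at h2
  exact h2

/-- the abstract core: if `Γ = O^p(Γ) Γ'`, `L` is a normal `p'`-subgroup and `Γ = L X`, then
every `p`-subgroup of `X` lies in `X'`. -/
theorem le_commutator_of_residual {Γ : Type*} [Group Γ] [Finite Γ] {p : ℕ} [Fact p.Prime]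
    (hres : Cfsg.pResidual p Γ ⊔ commutator Γ = ⊤)
    (L : Subgroup Γ) [L.Normal] (hL : (Nat.card L).Coprime p)
    (X : Subgroup Γ) (hLX : L ⊔ X = ⊤)
    (P : Subgroup Γ) (hPX : P ≤ X) (hP : IsPGroup p P) : P ≤ ⁅X, X⁆ := by
  classical
  have hp : p.Prime := Fact.out
  set π : Γ →* Γ ⧸ L := QuotientGroup.mk' L with hπ
  have hmapX : X.map π = ⊤ := by
    have h1 : (L ⊔ X).map π = ⊤ := by
      rw [hLX]
      exact Subgroup.map_top_of_surjective π (QuotientGroup.mk'_surjective L)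
    rw [Subgroup.map_sup] at h1
    have h2 : L.map π = ⊥ := by
      rw [Subgroup.map_eq_bot_iff, hπ, QuotientGroup.ker_mk']
    rw [h2, bot_sup_eq] at h1
    exact h1
  have hcomm : commutator (Γ ⧸ L) = (⁅X, X⁆).map π := by
    rw [Subgroup.map_commutator, hmapX, _root_.commutator_def]
  set R : Subgroup Γ := (commutator (Γ ⧸ L)).comap π with hR
  have hRn : R.Normal := by
    rw [hR]; infer_instance
  have hcomR : commutator Γ ≤ R := by
    rw [_root_.commutator_def, Subgroup.commutator_le]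
    intro a _ b _
    show π ⁅a, b⁆ ∈ commutator (Γ ⧸ L)
    rw [map_commutatorElement, _root_.commutator_def]
    exact Subgroup.commutator_mem_commutator (Subgroup.mem_top _) (Subgroup.mem_top _)
  -- the quotient `Γ ⧸ R` is commutative
  have hQcomm : ∀ a b : Γ ⧸ R, a * b = b * a := by
    intro a b
    obtain ⟨a', rfl⟩ := QuotientGroup.mk_surjective a
    obtain ⟨b', rfl⟩ := QuotientGroup.mk_surjective b
    rw [← QuotientGroup.mk_mul, ← QuotientGroup.mk_mul, QuotientGroup.eq]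
    apply hcomR
    have : (a' * b')⁻¹ * (b' * a') = ⁅b'⁻¹, a'⁻¹⁆ := by
      rw [commutatorElement_def]; group
    rw [this, _root_.commutator_def]
    exact Subgroup.commutator_mem_commutator (Subgroup.mem_top _) (Subgroup.mem_top _)
  -- the `p'`-elements of `Γ ⧸ R` form a subgroup
  let S : Subgroup (Γ ⧸ R) :=
    { carrier := {q | (orderOf q).Coprime p}
      mul_mem' := by
        intro a b ha hb
        exact Nat.Coprime.coprime_dvd_left
          ((Commute.orderOf_mul_dvd_lcm (hQcomm a b)).trans (Nat.lcm_dvd_mul _ _))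
          (Nat.Coprime.mul_left ha hb)
      one_mem' := by
        show (orderOf (1 : Γ ⧸ R)).Coprime p
        rw [orderOf_one]; exact Nat.coprime_one_left p
      inv_mem' := by
        intro a ha
        show (orderOf a⁻¹).Coprime p
        rw [orderOf_inv]; exact ha }
  have hSres : ∀ m ∈ Cfsg.pResidual p Γ, (QuotientGroup.mk' R m) ∈ S := by
    intro m hm
    unfold Cfsg.pResidual at hm
    induction hm using Subgroup.closure_induction with
    | mem y hy =>
      exact Nat.Coprime.coprime_dvd_left (orderOf_map_dvd (QuotientGroup.mk' R) y) hy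
    | one => rw [map_one]; exact S.one_mem
    | mul y z _ _ hy hz => rw [map_mul]; exact S.mul_mem hy hz
    | inv y _ hy => rw [map_inv]; exact S.inv_mem hy
  have hStop : ∀ g : Γ, (orderOf (QuotientGroup.mk' R g)).Coprime p := by
    intro g
    have hg : g ∈ Cfsg.pResidual p Γ ⊔ R := by
      have h1 : Cfsg.pResidual p Γ ⊔ commutator Γ ≤ Cfsg.pResidual p Γ ⊔ R :=
        sup_le_sup_left hcomR _
      exact h1 (hres ▸ Subgroup.mem_top g)
    obtain ⟨m, hm, r, hr, rfl⟩ := Subgroup.mem_sup_of_normal_right.mp hg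
    have hr1 : QuotientGroup.mk' R r = 1 := (QuotientGroup.eq_one_iff r).mpr hr
    have h2 : QuotientGroup.mk' R (m * r) = QuotientGroup.mk' R m := by
      rw [map_mul, hr1, mul_one]
    rw [h2]
    exact hSres m hm
  intro x hx
  obtain ⟨k, hk⟩ := hP ⟨x, hx⟩
  have hxk : x ^ (p ^ k) = 1 := by
    have := congrArg Subtype.val hk
    simpa using this
  -- step 4 : `x ∈ R`
  have hxR : x ∈ R := mem_of_pow_of_coprime R hxk (hStop x)
  -- step 5
  have hxR' : π x ∈ (⁅X, X⁆).map π := by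
    rw [← hcomm]; exact hxR
  obtain ⟨c, hc, hcx⟩ := hxR'
  have hXX : ⁅X, X⁆ ≤ X := by
    rw [Subgroup.commutator_le]
    intro a ha b hb
    rw [commutatorElement_def]
    exact X.mul_mem (X.mul_mem (X.mul_mem ha hb) (X.inv_mem ha)) (X.inv_mem hb)
  have hl : c⁻¹ * x ∈ L := by
    have : (QuotientGroup.mk c : Γ ⧸ L) = QuotientGroup.mk x := hcx
    exact QuotientGroup.eq.mp this
  have hcX : c ∈ X := hXX hc
  have hxX : x ∈ X := hPX hx
  have hlX : c⁻¹ * x ∈ X := X.mul_mem (X.inv_mem hcX) hxX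
  have hc' : (⟨c, hcX⟩ : X) ∈ commutator X := by
    have h1 : c ∈ (commutator X).map X.subtype := by
      rw [Subgroup.map_subtype_commutator]; exact hc
    obtain ⟨c₀, hc₀, hcc⟩ := h1
    have : c₀ = ⟨c, hcX⟩ := Subtype.ext hcc
    rw [← this]; exact hc₀
  have hx' : (⟨x, hxX⟩ : X) ∈ commutator X := by
    have hxk' : (⟨x, hxX⟩ : X) ^ (p ^ k) = 1 := Subtype.ext (by simpa using hxk)
    apply mem_of_pow_of_coprime (commutator X) hxk'
    have h1 : QuotientGroup.mk' (commutator X) (⟨x, hxX⟩ : X) =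
        QuotientGroup.mk' (commutator X) (⟨c⁻¹ * x, hlX⟩ : X) := by
      have : (⟨x, hxX⟩ : X) = ⟨c, hcX⟩ * ⟨c⁻¹ * x, hlX⟩ := Subtype.ext (by simp)
      have hc1 : QuotientGroup.mk' (commutator X) (⟨c, hcX⟩ : X) = 1 :=
        (QuotientGroup.eq_one_iff _).mpr hc'
      rw [this, map_mul, hc1, one_mul]
    rw [h1]
    have h2 : orderOf (QuotientGroup.mk' (commutator X) (⟨c⁻¹ * x, hlX⟩ : X)) ∣
        orderOf (⟨c⁻¹ * x, hlX⟩ : X) := orderOf_map_dvd _ _
    have h3 : orderOf (⟨c⁻¹ * x, hlX⟩ : X) = orderOf (c⁻¹ * x) := Subgroup.orderOf_mk _ _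
    have h4 : orderOf (c⁻¹ * x) ∣ Nat.card L := by
      have h5 : orderOf (⟨c⁻¹ * x, hl⟩ : L) = orderOf (c⁻¹ * x) := Subgroup.orderOf_mk _ _
      rw [← h5]; exact orderOf_dvd_natCard _
    exact Nat.Coprime.coprime_dvd_left (h2.trans (h3 ▸ h4)) hL
  have h6 : x ∈ (commutator X).map X.subtype := ⟨⟨x, hxX⟩, hx', rfl⟩
  rw [Subgroup.map_subtype_commutator] at h6
  exact h6

/-- no section of a group of odd order is `SL(2,p)` (`p` odd) -/
theorem no_sl2_section {G : Type u} [Group G] [Finite G] (hodd : Odd (Nat.card G)) {p : ℕ}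
    [Fact p.Prime] (hp2 : p ≠ 2) :
    ¬ ∃ (H K : Subgroup G) (hK : (K.subgroupOf H).Normal),
      Nonempty ((H ⧸ K.subgroupOf H) ≃* Matrix.SpecialLinearGroup (Fin 2) (ZMod p)) := by
  rintro ⟨H, K, _, ⟨e⟩⟩
  have hp : p.Prime := Fact.out
  have h2 : orderOf (-1 : Matrix.SpecialLinearGroup (Fin 2) (ZMod p)) = 2 := by
    apply orderOf_eq_prime
    · simp
    · intro h
      have h1 := congrArg (fun M : Matrix.SpecialLinearGroup (Fin 2) (ZMod p) => M.1 0 0) h
      simp only [Matrix.SpecialLinearGroup.coe_neg, Matrix.SpecialLinearGroup.coe_one,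
        Matrix.neg_apply, Matrix.one_apply_eq] at h1
      have h3 : (2 : ZMod p) = 0 := by
        have : (1 : ZMod p) + 1 = 0 := by
          nth_rewrite 1 [← h1]; ring
        rw [← this]; norm_num
      have h4 : ((2 : ℕ) : ZMod p) = 0 := by exact_mod_cast h3
      rw [ZMod.natCast_eq_zero_iff] at h4
      exact hp2 ((Nat.prime_dvd_prime_iff_eq hp Nat.prime_two).mp h4)
  have h3 : orderOf (e.symm (-1)) = 2 := by
    rw [MulEquiv.orderOf_eq]; exact h2
  have h4 : 2 ∣ Nat.card (H ⧸ K.subgroupOf H) := h3 ▸ orderOf_dvd_natCard _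
  have h5 : Nat.card (H ⧸ K.subgroupOf H) ∣ Nat.card H := by
    rw [← Subgroup.index_eq_card]; exact Subgroup.index_dvd_card _
  have h6 : 2 ∣ Nat.card G := h4.trans (h5.trans (Subgroup.card_subgroup_dvd_card H))
  exact (Nat.not_even_iff_odd.mpr hodd) (even_iff_two_dvd.mpr h6)

theorem bg95_transfer {G : Type u} [Group G] [Finite G] (hG : IsMinSimpleOddOrder G) (p : ℕ)
    [Fact p.Prime] (P : Sylow p G) (A : Subgroup G) (hAP : A ≤ (P : Subgroup G))
    (hAc : IsMulCommutative A) (hAn : (P : Subgroup G) ≤ normalizer (A : Set G))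
    (D : Subgroup G)
    (hD : ∀ R : Subgroup G, A ≤ R → R ≤ (P : Subgroup G) → normalizer (R : Set G) ≤ D) :
    (P : Subgroup G) ≤ ⁅D, D⁆ := by
  classical
  have hp : p.Prime := Fact.out
  obtain ⟨hodd, hsimple, hnc, hsolv⟩ := hG
  by_cases hP0 : (P : Subgroup G) = ⊥
  · rw [hP0]; exact bot_le
  have hp2 : p ≠ 2 := by
    intro hp2
    apply hP0
    obtain ⟨k, hk⟩ := IsPGroup.iff_card.mp P.isPGroup'
    have hdvd : Nat.card (P : Subgroup G) ∣ Nat.card G := Subgroup.card_subgroup_dvd_card _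
    have hk0 : k = 0 := by
      by_contra hk0
      have h2 : 2 ∣ Nat.card G := by
        rw [hk, hp2] at hdvd
        exact (dvd_pow_self 2 hk0).trans hdvd
      exact (Nat.not_even_iff_odd.mpr hodd) (even_iff_two_dvd.mpr h2)
    rw [hk0, pow_zero] at hk
    exact Subgroup.card_eq_one.mp hk
  have hfree := no_sl2_section hodd (p := p) hp2
  -- the normalizer of `Z(J(P))`
  set N : Subgroup G :=
    normalizer ((Cfsg.centerThompsonOf p (P : Subgroup G) : Subgroup G) : Set G) with hN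
  have hPN : (P : Subgroup G) ≤ N := by
    rw [hN, Cfsg.Agent.H58.centerThompsonOf_eq_cJ]
    exact Subgroup.le_normalizer.trans
      (Cfsg.Agent.H58.normalizer_le_normalizer_cJ p (P : Subgroup G))
  have hZ0 : Cfsg.centerThompsonOf p (P : Subgroup G) ≠ ⊥ := by
    rw [Cfsg.Agent.H58.centerThompsonOf_eq_cJ]
    exact Cfsg.Agent.H58.cJ_ne_bot (Or.inr rfl) P.isPGroup' hP0
  have hNtop : N ≠ ⊤ := by
    intro h
    have hn : (Cfsg.centerThompsonOf p (P : Subgroup G)).Normal :=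
      Subgroup.normalizer_eq_top_iff.mp h
    rcases hn.eq_bot_or_eq_top with h1 | h1
    · exact hZ0 h1
    · apply hnc
      have hcomm := Cfsg.Agent.H58.cJ_comm p (P : Subgroup G)
      rw [← Cfsg.Agent.H58.centerThompsonOf_eq_cJ, h1] at hcomm
      refine ⟨⟨fun a b => ?_⟩⟩
      have := hcomm.is_comm.comm ⟨a, Subgroup.mem_top a⟩ ⟨b, Subgroup.mem_top b⟩
      exact congrArg Subtype.val this
  have hNsolv : Group.IsSolvable N := hsolv N hNtop
  have hNodd : Odd (Nat.card N) := hodd.of_dvd_nat (Subgroup.card_subgroup_dvd_card N)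
  -- `G' = G`
  have hGcomm : commutator G = ⊤ := by
    rcases (inferInstance : (commutator G).Normal).eq_bot_or_eq_top with h1 | h1
    · exfalso
      apply hnc
      refine ⟨⟨fun a b => ?_⟩⟩
      have h2 : ⁅a, b⁆ ∈ commutator G := by
        rw [_root_.commutator_def]
        exact Subgroup.commutator_mem_commutator (Subgroup.mem_top _) (Subgroup.mem_top _)
      rw [h1, Subgroup.mem_bot, commutatorElement_eq_one_iff_mul_comm] at h2
      exact h2
    · exact h1
  -- the Sylow subgroup of `N`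
  let S : Sylow p N := P.subtype hPN
  have hS : (S : Subgroup N) = (P : Subgroup G).subgroupOf N := Sylow.coe_subtype P hPN
  -- fusion control
  have hfus : ∀ g ∈ N, (∃ k : ℕ, orderOf g = p ^ k) → ∀ a : G, a * g * a⁻¹ ∈ N →
      ∃ h ∈ N, h * g * h⁻¹ = a * g * a⁻¹ := by
    intro g hg ⟨k, hk⟩ a ha
    have hgk : g ^ (p ^ k) = 1 := by rw [← hk]; exact pow_orderOf_eq_one g
    have hgk1 : (⟨g, hg⟩ : N) ^ (p ^ k) = 1 := Subtype.ext (by simpa using hgk)
    have hgk2 : (⟨a * g * a⁻¹, ha⟩ : N) ^ (p ^ k) = 1 := by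
      apply Subtype.ext
      have : (a * g * a⁻¹) ^ (p ^ k) = 1 := by
        rw [conj_pow, hgk]; group
      simpa using this
    obtain ⟨n₁, hn₁⟩ := exists_conj_mem_sylow S (⟨g, hg⟩ : N) hgk1
    obtain ⟨n₂, hn₂⟩ := exists_conj_mem_sylow S (⟨a * g * a⁻¹, ha⟩ : N) hgk2
    rw [hS, Subgroup.mem_subgroupOf] at hn₁ hn₂
    have hn₁' : (n₁ : G) * g * (n₁ : G)⁻¹ ∈ (P : Subgroup G) := by simpa using hn₁
    have hn₂' : (n₂ : G) * (a * g * a⁻¹) * (n₂ : G)⁻¹ ∈ (P : Subgroup G) := by simpa using hn₂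
    have hcg : ((n₁ : G) * a⁻¹ * (n₂ : G)⁻¹)⁻¹ * ((n₁ : G) * g * (n₁ : G)⁻¹) *
        ((n₁ : G) * a⁻¹ * (n₂ : G)⁻¹) = (n₂ : G) * (a * g * a⁻¹) * (n₂ : G)⁻¹ := by group
    obtain ⟨n, hn, hconj⟩ := Cfsg.Agent.S0118.result hp2 hfree P
      ({(n₁ : G) * g * (n₁ : G)⁻¹} : Set G) (by
        intro z hz
        rw [Set.mem_singleton_iff] at hz
        rw [hz]; exact hn₁') ((n₁ : G) * a⁻¹ * (n₂ : G)⁻¹) (by
        rintro _ ⟨z, hz, rfl⟩
        rw [Set.mem_singleton_iff] at hz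
        rw [hz]
        show ((n₁ : G) * a⁻¹ * (n₂ : G)⁻¹)⁻¹ * ((n₁ : G) * g * (n₁ : G)⁻¹) *
          ((n₁ : G) * a⁻¹ * (n₂ : G)⁻¹) ∈ (P : Subgroup G)
        rw [hcg]; exact hn₂')
    have key := hconj _ (Set.mem_singleton _)
    rw [hcg] at key
    refine ⟨(n₂ : G)⁻¹ * n⁻¹ * (n₁ : G), N.mul_mem (N.mul_mem (N.inv_mem n₂.2) (N.inv_mem hn))
      n₁.2, ?_⟩
    calc (n₂ : G)⁻¹ * n⁻¹ * (n₁ : G) * g * ((n₂ : G)⁻¹ * n⁻¹ * (n₁ : G))⁻¹
        = (n₂ : G)⁻¹ * (n⁻¹ * ((n₁ : G) * g * (n₁ : G)⁻¹) * n) * (n₂ : G) := by group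
      _ = (n₂ : G)⁻¹ * ((n₂ : G) * (a * g * a⁻¹) * (n₂ : G)⁻¹) * (n₂ : G) := by rw [key]
      _ = a * g * a⁻¹ := by group
  have hidx : Nat.Coprime p N.index :=
    (Nat.Prime.coprime_iff_not_dvd hp).2
      (fun h => P.not_dvd_index (h.trans (Subgroup.index_dvd_of_le hPN)))
  have h1242 := Cfsg.Agent.S1242.result (G := G) (p := p) N hidx hfus
  rw [hGcomm, sup_top_eq, top_inf_eq] at h1242
  have hres : Cfsg.pResidual p ↥N ⊔ commutator ↥N = ⊤ := by
    rw [eq_top_iff]
    intro x _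
    have hx : (x : G) ∈ (Cfsg.pResidual p ↥N ⊔ commutator ↥N).map N.subtype := by
      rw [← h1242]; exact x.2
    obtain ⟨y, hy, hyx⟩ := hx
    have : y = x := Subtype.ext hyx
    rw [← this]; exact hy
  -- `A ≤ O_{p',p}(N)`
  have hAN : A ≤ N := hAP.trans hPN
  have hA'S : A.subgroupOf N ≤ (S : Subgroup N) := by
    rw [hS]
    intro x hx
    rw [Subgroup.mem_subgroupOf] at hx ⊢
    exact hAP hx
  have hA'c : IsMulCommutative (A.subgroupOf N) := by
    refine ⟨⟨fun a b => ?_⟩⟩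
    have ha : ((a : N) : G) ∈ A := Subgroup.mem_subgroupOf.mp a.2
    have hb : ((b : N) : G) ∈ A := Subgroup.mem_subgroupOf.mp b.2
    have h := hAc.is_comm.comm ⟨_, ha⟩ ⟨_, hb⟩
    have h' : ((a : N) : G) * ((b : N) : G) = ((b : N) : G) * ((a : N) : G) :=
      congrArg Subtype.val h
    exact Subtype.ext (Subtype.ext h')
  have hA'n : (S : Subgroup N) ≤ normalizer ((A.subgroupOf N : Subgroup N) : Set N) := by
    rw [hS]
    intro g hg
    rw [Subgroup.mem_subgroupOf] at hg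
    have hg' := hAn hg
    rw [Subgroup.mem_normalizer_iff] at hg' ⊢
    intro x
    rw [Subgroup.mem_subgroupOf, Subgroup.mem_subgroupOf]
    have := hg' (x : G)
    simpa using this
  have hAK : A.subgroupOf N ≤ pPrimePCore p N :=
    Cfsg.Agent.S1457.result (G := ↥N) hNodd p S (A.subgroupOf N) hA'S hA'c hA'n
  -- `P₁ = P ∩ O_{p',p}(N)`
  set P1 : Subgroup G := ((S : Subgroup N) ⊓ pPrimePCore p N).map N.subtype with hP1
  have hAP1 : A ≤ P1 := by
    intro a ha
    have h1 : (⟨a, hAN ha⟩ : N) ∈ A.subgroupOf N := Subgroup.mem_subgroupOf.mpr ha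
    exact ⟨⟨a, hAN ha⟩, ⟨hA'S h1, hAK h1⟩, rfl⟩
  have hP1P : P1 ≤ (P : Subgroup G) := by
    rintro _ ⟨x, hx, rfl⟩
    have h1 : x ∈ (S : Subgroup N) := hx.1
    rw [hS, Subgroup.mem_subgroupOf] at h1
    exact h1
  have hNP1 : normalizer (P1 : Set G) ≤ D := hD P1 hAP1 hP1P
  have hPD : (P : Subgroup G) ≤ D :=
    Subgroup.le_normalizer.trans (hD (P : Subgroup G) hAP le_rfl)
  -- the factorization `N = O_{p'}(N) (N ∩ D)`
  have hKn : (pPrimePCore p N).Normal := Cfsg.Agent.H37.AG.pPrimePCore_normal p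
  have hLn : (pPrimeCore p N).Normal := Cfsg.pPrimeCore_normal p N
  have hLX : pPrimeCore p N ⊔ D.subgroupOf N = ⊤ := by
    rw [eq_top_iff]
    intro x _
    obtain ⟨v, hv, y, hy, rfl⟩ := Cfsg.Agent.H37.AG.frattini_inf S (pPrimePCore p N) x
    have hv' := Cfsg.Agent.H37.AG.pPrimePCore_le_sup S hv
    obtain ⟨w, hw, r, hr, rfl⟩ := Subgroup.mem_sup_of_normal_left.mp hv'
    have hry : r * y ∈ normalizer ((((S : Subgroup N) ⊓ pPrimePCore p N : Subgroup N)) : Set N) :=
      Subgroup.mul_mem _ (Subgroup.le_normalizer hr) hy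
    have hry' : ((r * y : N) : G) ∈ normalizer (P1 : Set G) := by
      have h1 := Subgroup.le_normalizer_map N.subtype
        (H := ((S : Subgroup N) ⊓ pPrimePCore p N : Subgroup N))
      exact h1 ⟨r * y, hry, rfl⟩
    have : w * r * y = w * (r * y) := mul_assoc _ _ _
    rw [this]
    exact Subgroup.mul_mem_sup hw (Subgroup.mem_subgroupOf.mpr (hNP1 hry'))
  have hLcop : (Nat.card (pPrimeCore p N)).Coprime p := Cfsg.Agent.H37.card_pPrimeCore_coprime p
  have hSX : (S : Subgroup N) ≤ D.subgroupOf N := by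
    rw [hS]
    intro x hx
    rw [Subgroup.mem_subgroupOf] at hx ⊢
    exact hPD hx
  have hfin := le_commutator_of_residual hres (pPrimeCore p N) hLcop (D.subgroupOf N) hLX
    (S : Subgroup N) hSX S.isPGroup'
  intro x hx
  have h1 : (⟨x, hPN hx⟩ : N) ∈ (S : Subgroup N) := by
    rw [hS, Subgroup.mem_subgroupOf]; exact hx
  have h2 : x ∈ (⁅D.subgroupOf N, D.subgroupOf N⁆).map N.subtype := ⟨⟨x, hPN hx⟩, hfin h1, rfl⟩
  rw [Subgroup.map_commutator] at h2
  have h3 : (D.subgroupOf N).map N.subtype ≤ D := by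
    rintro _ ⟨y, hy, rfl⟩
    exact Subgroup.mem_subgroupOf.mp hy
  exact Subgroup.commutator_mono h3 h3 h2

end Cfsg.Agent.H37.BG95

open Cfsg Subgroup in
example {G : Type*} [Group G] [Finite G] (hG : IsMinSimpleOddOrder G) (p : ℕ) [Fact p.Prime]
    (P : Sylow p G) (A : Subgroup G) (hAP : A ≤ (P : Subgroup G)) (hAc : IsMulCommutative A)
    (hAn : (P : Subgroup G) ≤ normalizer (A : Set G)) (D : Subgroup G)
    (hD : ∀ R : Subgroup G, A ≤ R → R ≤ (P : Subgroup G) → normalizer (R : Set G) ≤ D) :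
    (P : Subgroup G) ≤ ⁅D, D⁆ :=
  Cfsg.Agent.H37.BG95.bg95_transfer hG p P A hAP hAc hAn D hD

namespace Cfsg.Agent.H37.BG95

open Cfsg Subgroup

/-- the same statement in the form of helper38's piece BGT1 -/
theorem transfer_T1 {G : Type*} [Group G] [Finite G] (hG : IsMinSimpleOddOrder G) {p : ℕ}
    [Fact p.Prime] (P : Sylow p G)
    {A : Subgroup G} (hAP : A ≤ (P : Subgroup G)) (hAc : IsMulCommutative A)
    (hAn : (P : Subgroup G) ≤ normalizer (A : Set G))
    {D : Subgroup G}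
    (hD : ∀ R : Subgroup G, IsPGroup p R → A ≤ R → normalizer (R : Set G) ≤ D) :
    (P : Subgroup G) ≤ ⁅D, D⁆ :=
  bg95_transfer hG p P A hAP hAc hAn D (fun R hAR hRP => hD R (P.isPGroup'.to_le hRP) hAR)

end Cfsg.Agent.H37.BG95

open Cfsg Subgroup in
example {G : Type*} [Group G] [Finite G] (hG : IsMinSimpleOddOrder G) {p : ℕ} [Fact p.Prime]
    (P : Sylow p G)
    {A : Subgroup G} (hAP : A ≤ (P : Subgroup G)) (hAc : IsMulCommutative A)
    (hAn : (P : Subgroup G) ≤ normalizer (A : Set G))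
    {D : Subgroup G}
    (hD : ∀ R : Subgroup G, IsPGroup p R → A ≤ R → normalizer (R : Set G) ≤ D) :
    (P : Subgroup G) ≤ ⁅D, D⁆ :=
  Cfsg.Agent.H37.BG95.transfer_T1 hG P hAP hAc hAn hD
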