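import Mathlib
import Cfsg.Agent.H63.BG11Defs
import Cfsg.Agent.Lib.Helper30.Trans
import Cfsg.Agent.H72.Subn
import Cfsg.Agent.H71.BG10K
import Cfsg.Agent.H70.BG10D

set_option autoImplicit false

/-!
# Bender–Glauberman 12.4, the core of the step `p ∈ σ(M)` (helper37)

If `M` is a maximal subgroup with `M_α = 1` and `A ≤ M` is elementary abelian of order `p ^ 2`
centralizing `M_σ`, then `p ∈ σ(M)`.  The statements S1394, S1395 and S1396 (first case) enter
as `Prop`-valued hypotheses.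
-/

namespace Cfsg.Agent.H37.BG12

open Cfsg Subgroup Cfsg.Agent.H58.BG10 Cfsg.Agent.Lib.Helper30

universe u

/-- S1394 without the hypothesis `hG`. -/
def St1394 (G : Type u) [Group G] : Prop :=
  ∀ (A : Subgroup G), TransitivityHypothesis A →
    ¬ RankLE 1 ↥(A ⊓ centralizer (A : Set G)) →
    ∀ (q : ℕ), q.Prime → ¬ q ∣ Nat.card A → q ∣ Nat.card (centralizer (A : Set G)) →
    ∀ Q₁ ∈ maxInvSubgroups ⊤ A {q}, ∀ Q₂ ∈ maxInvSubgroups ⊤ A {q},
      ∃ k ∈ piCoreOf (primesNotDvd (Nat.card A)) (centralizer (A : Set G)),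
        Q₂ = Q₁.map (MulAut.conj k).toMonoidHom

/-- S1395 without the hypothesis `hG`. -/
def St1395 (G : Type u) [Group G] : Prop :=
  ∀ (A : Subgroup G), TransitivityHypothesis A → ∀ (q : ℕ), q.Prime → ¬ q ∣ Nat.card A →
    ∀ (P : Subgroup G), P ≠ ⊤ → (∀ r : ℕ, r.Prime → r ∣ Nat.card P → r ∣ Nat.card A) → A ≤ P →
    (A.subgroupOf P).IsSubnormal →
    (∀ Q₁ ∈ maxInvSubgroups ⊤ A {q}, ∀ Q₂ ∈ maxInvSubgroups ⊤ A {q},
      ∃ k ∈ piCoreOf (primesNotDvd (Nat.card A)) (centralizer (A : Set G)),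
        Q₂ = Q₁.map (MulAut.conj k).toMonoidHom) →
    piCoreOf (primesNotDvd (Nat.card A)) (centralizer (A : Set G)) ⊓ centralizer (P : Set G) =
        piCoreOf (primesNotDvd (Nat.card A)) (centralizer (P : Set G)) ∧
      (∀ Q₁ ∈ maxInvSubgroups ⊤ P {q}, ∀ Q₂ ∈ maxInvSubgroups ⊤ P {q},
        ∃ k ∈ piCoreOf (primesNotDvd (Nat.card A)) (centralizer (P : Set G)),
          Q₂ = Q₁.map (MulAut.conj k).toMonoidHom) ∧
      maxInvSubgroups ⊤ P {q} ⊆ maxInvSubgroups ⊤ A {q} ∧
      ∀ Q ∈ maxInvSubgroups ⊤ P {q},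
        P ⊓ ⁅normalizer (P : Set G), normalizer (P : Set G)⁆ ≤
            ⁅normalizer (Q : Set G), normalizer (Q : Set G)⁆ ∧
          normalizer (P : Set G) =
            piCoreOf (primesNotDvd (Nat.card A)) (centralizer (P : Set G)) ⊔
              (normalizer (P : Set G) ⊓ normalizer (Q : Set G))

/-- S1396, first case, with S1410 built in: an abelian `p`-subgroup `A` which is the set of
elements of order dividing `p` of its centralizer satisfies the transitivity hypothesis. -/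
def StTH (G : Type u) [Group G] : Prop :=
  ∀ (p : ℕ) [Fact p.Prime], p ∣ Nat.card G → ∀ (A : Subgroup G), IsPGroup p A →
    IsMulCommutative A → (∀ x ∈ centralizer (A : Set G), x ^ p = 1 ↔ x ∈ A) →
    TransitivityHypothesis A

/-- `M_σ ≠ 1` for every maximal subgroup `M`. -/
def StSigNe (G : Type u) [Group G] : Prop :=
  ∀ M : Subgroup G, IsCoatom M → sigmaCore M ≠ ⊥

/-- The core of B&G 12.4, step `p ∈ σ(M)`: if `M_α = 1` and the elementary abelian subgroup
`A ≤ M` of order `p ^ 2` centralizes `M_σ`, then `p ∈ σ(M)`. -/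
def StCentSig (G : Type u) [Group G] : Prop :=
  ∀ (M : Subgroup G), IsCoatom M → ∀ (p : ℕ) [Fact p.Prime] (A : Subgroup G),
    A ≤ M → IsElementaryAbelian p A → Nat.card A = p ^ 2 → alphaCore M = ⊥ →
    sigmaCore M ≤ centralizer (A : Set G) → p ∈ sigma M

/-- In a finite group, an element of `q`-power order lies in every normal subgroup of index
prime to `q`. -/
theorem mem_of_normal_of_pow_eq_one {X : Type*} [Group X] [Finite X] {q : ℕ} (hq : q.Prime)
    (N : Subgroup X) [N.Normal] (hN : ¬ q ∣ N.index) {x : X} {k : ℕ} (hxk : x ^ (q ^ k) = 1) :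
    x ∈ N := by
  have h1 : ((x : X) : X ⧸ N) ^ (q ^ k) = 1 := by
    rw [← QuotientGroup.mk_pow, hxk, QuotientGroup.mk_one]
  have h2 : orderOf ((x : X) : X ⧸ N) ∣ q ^ k := orderOf_dvd_of_pow_eq_one h1
  have h3 : orderOf ((x : X) : X ⧸ N) ∣ N.index := by
    rw [Subgroup.index_eq_card]
    exact orderOf_dvd_natCard _
  have hcop : Nat.Coprime (q ^ k) N.index :=
    Nat.Coprime.pow_left k ((Nat.Prime.coprime_iff_not_dvd hq).mpr hN)
  have h4 : orderOf ((x : X) : X ⧸ N) ∣ Nat.gcd (q ^ k) N.index := Nat.dvd_gcd h2 h3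
  rw [Nat.Coprime.gcd_eq_one hcop, Nat.dvd_one] at h4
  exact (QuotientGroup.eq_one_iff x).mp (orderOf_eq_one_iff.mp h4)

/-- A normal subgroup of index prime to `q` contains every `q`-subgroup. -/
theorem le_of_normal_of_isPGroup {X : Type*} [Group X] [Finite X] {q : ℕ} [Fact q.Prime]
    (N : Subgroup X) [N.Normal] (hN : ¬ q ∣ N.index) {R : Subgroup X} (hR : IsPGroup q R) :
    R ≤ N := by
  intro x hx
  obtain ⟨k, hk⟩ := hR ⟨x, hx⟩
  have hxk : x ^ (q ^ k) = 1 := by simpa using congrArg Subtype.val hk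
  exact mem_of_normal_of_pow_eq_one Fact.out N hN hxk

/-- A Sylow subgroup contained in a nilpotent normal subgroup is normal. -/
theorem sylow_normal_of_le_nilpotent {X : Type*} [Group X] [Finite X] {p : ℕ} [Fact p.Prime]
    (P : Sylow p X) (D : Subgroup X) [D.Normal] [Group.IsNilpotent D]
    (h : (P : Subgroup X) ≤ D) : (P : Subgroup X).Normal := by
  have hT : ((P.subtype h : Sylow p D) : Subgroup D).Normal := inferInstance
  haveI : ((P.subtype h : Sylow p D) : Subgroup D).Characteristic :=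
    Sylow.characteristic_of_normal _ hT
  have h1 : (((P.subtype h : Sylow p D) : Subgroup D).map D.subtype).Normal :=
    ConjAct.normal_of_characteristic_of_normal
  rwa [Sylow.coe_subtype, Subgroup.map_subgroupOf_eq_of_le h] at h1

variable {G : Type u} [Group G]

/-- If `M_α = 1` then `M'` is nilpotent. -/
theorem commutator_nilpotent [Finite G] (h1405 : St1405 G) {M : Subgroup G} (hM : IsCoatom M)
    (hα : alphaCore M = ⊥) : Group.IsNilpotent ↥(commutator ↥M) := by
  have h := (h1405 M hM).2.2.2.2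
  have hb : piCore (alpha M) ↥M = ⊥ := by
    have h1 : (piCore (alpha M) ↥M).map M.subtype = ⊥ := hα
    exact (Subgroup.map_eq_bot_iff_of_injective _ M.subtype_injective).mp h1
  have hinj : Function.Injective (QuotientGroup.mk' (piCore (alpha M) ↥M)) := by
    rw [← MonoidHom.ker_eq_bot_iff, QuotientGroup.ker_mk', hb]
  haveI := h
  exact Group.nilpotent_of_mulEquiv ((commutator ↥M).equivMapOfInjective _ hinj).symm

/-- An elementary abelian subgroup of order `p ^ 2` inside `K` shows that `K` has `p`-rank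
at least `2`. -/
theorem not_pRankLE_one_of_le {p : ℕ} (hp : p.Prime) {A K : Subgroup G} (hAK : A ≤ K)
    (hAel : IsElementaryAbelian p A) (hAcard : Nat.card A = p ^ 2) : ¬ PRankLE p 1 K := by
  intro h
  haveI := hAel.1
  have h1 := h (A.subgroupOf K) inferInstance (by
    rintro ⟨a, haK⟩ ha
    exact Subtype.ext (hAel.2 a ha))
  rw [Nat.card_congr (Subgroup.subgroupOfEquivOfLe hAK).toEquiv, hAcard, pow_one] at h1
  have := hp.one_lt
  nlinarith

theorem le_centralizer_self {p : ℕ} {A : Subgroup G} (hAel : IsElementaryAbelian p A) :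
    A ≤ centralizer (A : Set G) := by
  intro a ha
  rw [Subgroup.mem_centralizer_iff]
  intro b hb
  exact congrArg Subtype.val (hAel.1.is_comm.comm ⟨b, hb⟩ ⟨a, ha⟩)

theorem not_rankLE_one_inf_centralizer {p : ℕ} (hp : p.Prime) {A : Subgroup G}
    (hAel : IsElementaryAbelian p A) (hAcard : Nat.card A = p ^ 2) :
    ¬ RankLE 1 ↥(A ⊓ centralizer (A : Set G)) := fun h =>
  not_pRankLE_one_of_le hp (le_inf le_rfl (le_centralizer_self hAel)) hAel hAcard (h p hp)

/-- `α(M) ⊆ σ(M)`: a prime divisor of `|M|` outside `σ(M)` has `p`-rank at most `2` in `M`. -/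
theorem pRankLE_two_of_not_mem_sigma [Finite G] (h1350 : St1350 G) (h1405 : St1405 G)
    {M : Subgroup G} (hM : IsCoatom M) {t : ℕ} (ht : t.Prime) (htM : t ∣ Nat.card M)
    (hts : t ∉ sigma M) : PRankLE t 2 M := by
  by_contra hr
  obtain ⟨hHα, -, hασ, -, -⟩ := h1405 M hM
  have h1 : ¬ t ∣ (alphaCore M).relIndex M := hHα.2.2 t ht ⟨ht, hr⟩
  have h2 : Nat.card (alphaCore M) * (alphaCore M).relIndex M = Nat.card M := by
    have := Subgroup.relIndex_mul_relIndex ⊥ (alphaCore M) M bot_le hHα.1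
    rwa [Subgroup.relIndex_bot_left, Subgroup.relIndex_bot_left] at this
  rw [← h2] at htM
  have h3 : t ∣ Nat.card (alphaCore M) := (ht.dvd_mul.mp htM).resolve_right h1
  exact hts ((h1350 M hM).1.2.1 t ht (h3.trans (Subgroup.card_dvd_of_le hασ)))

/-- A maximal elementary abelian subgroup of order `p ^ 2` satisfies the transitivity
hypothesis. -/
theorem transHyp_of_maxel [Finite G] (hTH : StTH G) {p : ℕ} [Fact p.Prime] {A : Subgroup G}
    (hAel : IsElementaryAbelian p A) (hAcard : Nat.card A = p ^ 2)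
    (hmax : ∀ B : Subgroup G, IsElementaryAbelian p B → A ≤ B → B = A) :
    TransitivityHypothesis A := by
  have hpA : p ∣ Nat.card A := by rw [hAcard]; exact dvd_pow_self p two_ne_zero
  have hpG : p ∣ Nat.card G := hpA.trans (Subgroup.card_subgroup_dvd_card A)
  have hAp : IsPGroup p A := IsPGroup.of_card hAcard
  have homega : ∀ x ∈ centralizer (A : Set G), x ^ p = 1 ↔ x ∈ A := by
    intro x hx
    constructor
    · intro hxp
      have hcomm : ∀ b ∈ A, x * b = b * x := fun b hb => (hx b hb).symm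
      have h1 := Cfsg.Agent.H70.BG10.sup_zpowers_elementary hAel hcomm hxp
      have h2 := hmax _ h1 le_sup_left
      rw [← h2]
      exact le_sup_right (a := A) (mem_zpowers x)
    · intro hxA
      exact hAel.2 x hxA
  exact hTH p hpG A hAp hAel.1 homega

/-- A `q`-subgroup of index prime to `q` normalized by `A` is a maximal `A`-invariant
`q`-subgroup. -/
theorem mem_maxInvSubgroups_of_index [Finite G] {q : ℕ} [Fact q.Prime] {A Q : Subgroup G}
    (hQq : IsPGroup q Q) (hQidx : ¬ q ∣ Q.index) (hAQ : A ≤ normalizer (Q : Set G)) :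
    Q ∈ maxInvSubgroups ⊤ A {q} := by
  have hq : q.Prime := Fact.out
  refine ⟨⟨le_top, isPi_singleton_of_isPGroup hQq, hAQ⟩, ?_⟩
  intro R hR hQR
  have hRq : IsPGroup q R := isPGroup_of_isPi_singleton hR.2.1
  have h1 : Q.relIndex R ∣ Q.index := Subgroup.relIndex_dvd_index_of_le hQR
  have h2 : Q.relIndex R ∣ Nat.card R := Subgroup.relIndex_dvd_card Q R
  obtain ⟨n, hn⟩ := IsPGroup.iff_card.mp hRq
  rw [hn] at h2
  obtain ⟨j, -, hj⟩ := (Nat.dvd_prime_pow hq).mp h2
  have hj0 : j = 0 := by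
    by_contra hj0
    apply hQidx
    refine dvd_trans ?_ h1
    rw [hj]; exact dvd_pow_self q hj0
  rw [hj0, pow_zero] at hj
  exact le_antisymm (Subgroup.relIndex_eq_one.mp hj) hQR

/-- For `q ∈ σ(M)`, a `q`-subgroup of `M` of index prime to `q` in `G` has its normalizer
in `M`. -/
theorem normalizer_le_of_mem_sigma [Finite G] {M : Subgroup G} {q : ℕ} [Fact q.Prime]
    (hq : q ∈ sigma M) {Q : Subgroup G} (hQM : Q ≤ M) (hQq : IsPGroup q Q)
    (hQidx : ¬ q ∣ Q.index) : normalizer (Q : Set G) ≤ M := by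
  obtain ⟨-, -, P, hNP⟩ := hq
  have hQ'q : IsPGroup q (Q.subgroupOf M) := hQq.comap_subtype
  have hQ'idx : ¬ q ∣ (Q.subgroupOf M).index := fun h =>
    hQidx (h.trans (Subgroup.relIndex_dvd_index_of_le hQM))
  obtain ⟨m, hm⟩ := MulAction.exists_smul_eq M P (hQ'q.toSylow hQ'idx)
  have hchar : ∀ y : G, y ∈ (P : Subgroup M).map M.subtype ↔
      (m : G) * y * (m : G)⁻¹ ∈ Q := by
    intro y
    constructor
    · rintro ⟨z, hz, rfl⟩
      have h1 : m * z * m⁻¹ ∈ (m • P : Sylow q M) := by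
        rw [Cfsg.Agent.H72.mem_sylow_smul]
        have h0 : m⁻¹ * (m * z * m⁻¹) * m = z := by group
        rw [h0]; exact hz
      rw [hm, IsPGroup.mem_toSylow, Subgroup.mem_subgroupOf] at h1
      simpa using h1
    · intro hy
      have hyM : y ∈ M := by
        have h1 : (m : G) * y * (m : G)⁻¹ ∈ M := hQM hy
        have h2 := M.mul_mem (M.mul_mem (M.inv_mem m.2) h1) m.2
        have h0 : (m : G)⁻¹ * ((m : G) * y * (m : G)⁻¹) * (m : G) = y := by group
        rwa [h0] at h2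
      refine ⟨⟨y, hyM⟩, ?_, rfl⟩
      have h1 : m * ⟨y, hyM⟩ * m⁻¹ ∈ (m • P : Sylow q M) := by
        rw [hm, IsPGroup.mem_toSylow, Subgroup.mem_subgroupOf]
        simpa using hy
      rw [Cfsg.Agent.H72.mem_sylow_smul] at h1
      have h0 : m⁻¹ * (m * ⟨y, hyM⟩ * m⁻¹) * m = ⟨y, hyM⟩ := by group
      rwa [h0] at h1
  intro x hx
  have h1 : (m : G)⁻¹ * x * (m : G) ∈
      normalizer (((P : Subgroup M).map M.subtype : Subgroup G) : Set G) := by
    rw [Subgroup.mem_normalizer_iff]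
    intro y
    rw [hchar y, hchar]
    have h2 := (Subgroup.mem_normalizer_iff.mp hx) ((m : G) * y * (m : G)⁻¹)
    rw [h2]
    have h3 : (m : G) * ((m : G)⁻¹ * x * (m : G) * y * ((m : G)⁻¹ * x * (m : G))⁻¹) * (m : G)⁻¹ =
        x * ((m : G) * y * (m : G)⁻¹) * x⁻¹ := by group
    rw [h3]
  have h2 := hNP h1
  have h3 := M.mul_mem (M.mul_mem m.2 h2) (M.inv_mem m.2)
  have h0 : (m : G) * ((m : G)⁻¹ * x * (m : G)) * (m : G)⁻¹ = x := by group
  rwa [h0] at h3

/-- The common core of the applications of S1394, S1395 and S1411: a maximal `A`-invariant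
`q`-subgroup `Q` can be moved by an element `k ∈ C_G(A)` to a maximal `S`-invariant one, for a
Sylow `p`-subgroup `S ⊇ A`; then `S ≤ N_G(kQk⁻¹)'` and `N_G(S) ≤ C_G(S) N_G(kQk⁻¹)`. -/
theorem sylow_core [Finite G] (hG : IsMinSimpleOddOrder G) (h1411 : St1411 G)
    (h1394 : St1394 G) (h1395 : St1395 G) {p : ℕ} [Fact p.Prime] {A : Subgroup G}
    (hAp : IsPGroup p A) (hTHA : TransitivityHypothesis A)
    (hZ : ¬ RankLE 1 ↥(A ⊓ centralizer (A : Set G))) {q : ℕ} (hq : q.Prime)
    (hqA : ¬ q ∣ Nat.card A) (hqC : q ∣ Nat.card (centralizer (A : Set G)))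
    (S : Sylow p G) (hAS : A ≤ S) {Q : Subgroup G} (hQ : Q ∈ maxInvSubgroups ⊤ A {q}) :
    ∃ k ∈ centralizer (A : Set G),
      Q.map (MulAut.conj k).toMonoidHom ∈ maxInvSubgroups ⊤ (S : Subgroup G) {q} ∧
      (S : Subgroup G) ≤
        ⁅normalizer ((Q.map (MulAut.conj k).toMonoidHom : Subgroup G) : Set G),
          normalizer ((Q.map (MulAut.conj k).toMonoidHom : Subgroup G) : Set G)⁆ ∧
      normalizer ((S : Subgroup G) : Set G) ≤ centralizer ((S : Subgroup G) : Set G) ⊔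
        normalizer ((Q.map (MulAut.conj k).toMonoidHom : Subgroup G) : Set G) := by
  classical
  have hp : p.Prime := Fact.out
  have hAbot : A ≠ ⊥ := hTHA.1
  have hpA : p ∣ Nat.card A := by
    rcases hAp.card_eq_or_dvd with h | h
    · exact absurd (Subgroup.card_eq_one.mp h) hAbot
    · exact h
  have hqp : q ≠ p := fun h => hqA (h ▸ hpA)
  have htr := h1394 A hTHA hZ q hq hqA hqC
  have hStop : (S : Subgroup G) ≠ ⊤ := by
    intro h
    have h1 : q ∣ Nat.card G := hqC.trans (Subgroup.card_subgroup_dvd_card _)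
    have h2 : Nat.card (S : Subgroup G) = Nat.card G := by rw [h, Subgroup.card_top]
    obtain ⟨n, hn⟩ := IsPGroup.iff_card.mp S.isPGroup'
    rw [← h2, hn] at h1
    exact hqp ((Nat.prime_dvd_prime_iff_eq hq hp).mp (hq.dvd_of_dvd_pow h1))
  have hSπ : ∀ r : ℕ, r.Prime → r ∣ Nat.card (S : Subgroup G) → r ∣ Nat.card A := by
    intro r hr hd
    obtain ⟨n, hn⟩ := IsPGroup.iff_card.mp S.isPGroup'
    rw [hn] at hd
    have hrp : r = p := (Nat.prime_dvd_prime_iff_eq hr hp).mp (hr.dvd_of_dvd_pow hd)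
    rw [hrp]; exact hpA
  have hsn : (A.subgroupOf (S : Subgroup G)).IsSubnormal :=
    Cfsg.Agent.H72.isSubnormal_of_isPGroup p S.isPGroup' _
  obtain ⟨-, -, hc, hd⟩ := h1395 A hTHA q hq hqA S hStop hSπ hAS hsn htr
  have hbot : (⊥ : Subgroup G) ∈ invSubgroups ⊤ (S : Subgroup G) {q} := by
    refine ⟨le_top, isPi_bot _, ?_⟩
    intro x _
    rw [Subgroup.mem_normalizer_iff]
    intro h
    simp
  obtain ⟨Q', hQ', -⟩ := exists_le_maxInvSubgroups hbot
  obtain ⟨k, hk, hQ'eq⟩ := htr Q hQ Q' (hc hQ')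
  have hkC : k ∈ centralizer (A : Set G) := piCoreOf_le _ _ hk
  obtain ⟨hd1, hd2⟩ := hd Q' hQ'
  obtain ⟨V, hV, -⟩ := Cfsg.Agent.H71.BG10.exists_compl_sylow_normalizer S
  have hS' := (h1411 p S V hV).2
  refine ⟨k, hkC, hQ'eq ▸ hQ', ?_, ?_⟩
  · rw [← hQ'eq]
    exact (le_inf le_rfl hS').trans hd1
  · rw [← hQ'eq]
    exact hd2.le.trans (sup_le_sup (piCoreOf_le _ _) inf_le_right)

theorem centSig [Finite G] (hG : IsMinSimpleOddOrder G) (h1350 : St1350 G) (h1405 : St1405 G)
    (h1408 : St1408 G) (h1411 : St1411 G) (hTH : StTH G)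
    (h1394 : St1394 G) (h1395 : St1395 G) (hne : StSigNe G) : StCentSig G := by
  classical
  intro M hM p _ A hAM hAel hAcard hα hcent
  by_contra hps
  have hp : p.Prime := Fact.out
  have hpA : p ∣ Nat.card A := by rw [hAcard]; exact dvd_pow_self p two_ne_zero
  have hpM : p ∣ Nat.card M := hpA.trans (Subgroup.card_dvd_of_le hAM)
  have hpG : p ∣ Nat.card G := hpA.trans (Subgroup.card_subgroup_dvd_card A)
  have hAp : IsPGroup p A := IsPGroup.of_card hAcard
  have hr2 : PRankLE p 2 M := pRankLE_two_of_not_mem_sigma h1350 h1405 hM hp hpM hps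
  have hr1 : ¬ PRankLE p 1 M := not_pRankLE_one_of_le hp hAM hAel hAcard
  have hmax : ∀ B : Subgroup G, IsElementaryAbelian p B → A ≤ B → B = A :=
    (h1408 M hM p hps hr2 hr1).2 A hAM hAel hAcard
  have hTHA : TransitivityHypothesis A := transHyp_of_maxel hTH hAel hAcard hmax
  have hZ := not_rankLE_one_inf_centralizer hp hAel hAcard
  -- a prime `q ∈ σ(M)` and a Sylow `q`-subgroup `Q` of `M`
  obtain ⟨hHσM, hHσG, -⟩ := h1350 M hM
  have hcard1 : Nat.card (sigmaCore M) ≠ 1 := fun h => hne M hM (Subgroup.card_eq_one.mp h)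
  obtain ⟨q, hq, hqd⟩ := Nat.exists_prime_and_dvd hcard1
  haveI : Fact q.Prime := ⟨hq⟩
  have hqσ : q ∈ sigma M := hHσM.2.1 q hq hqd
  have hqp : q ≠ p := fun h => hps (h ▸ hqσ)
  obtain ⟨P⟩ : Nonempty (Sylow q ↥(sigmaCore M)) := inferInstance
  set Q : Subgroup G := (P : Subgroup ↥(sigmaCore M)).map (sigmaCore M).subtype with hQdef
  have hQσ : Q ≤ sigmaCore M := Subgroup.map_subtype_le _
  have hQM : Q ≤ M := hQσ.trans hHσM.1
  have hQC : Q ≤ centralizer (A : Set G) := hQσ.trans hcent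
  have hQq : IsPGroup q Q := P.isPGroup'.map _
  have hQidx : ¬ q ∣ Q.index := by
    rw [hQdef, Subgroup.index_map_subtype]
    intro h
    rcases (Nat.Prime.dvd_mul hq).mp h with h1 | h1
    · exact P.not_dvd_index h1
    · exact hHσG.2 q hq hqσ h1
  have hQbot : Q ≠ ⊥ := by
    intro h
    have h1 : (P : Subgroup ↥(sigmaCore M)) = ⊥ :=
      (Subgroup.map_eq_bot_iff_of_injective _ (sigmaCore M).subtype_injective).mp h
    exact P.ne_bot_of_dvd_card hqd h1
  have hqQ : q ∣ Nat.card Q := by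
    rcases hQq.card_eq_or_dvd with h | h
    · exact absurd (Subgroup.card_eq_one.mp h) hQbot
    · exact h
  have hqA : ¬ q ∣ Nat.card A := by
    rw [hAcard]
    intro h
    exact hqp ((Nat.prime_dvd_prime_iff_eq hq hp).mp (hq.dvd_of_dvd_pow h))
  have hqC : q ∣ Nat.card (centralizer (A : Set G)) := hqQ.trans (Subgroup.card_dvd_of_le hQC)
  have hAQ : A ≤ normalizer (Q : Set G) := by
    intro a ha
    have h1 : a ∈ centralizer (Q : Set G) := by
      rw [Subgroup.mem_centralizer_iff]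
      intro y hy
      exact ((Subgroup.mem_centralizer_iff.mp (hQC hy)) a ha).symm
    exact centralizer_le_normalizer' Q h1
  have hQmax : Q ∈ maxInvSubgroups ⊤ A {q} := mem_maxInvSubgroups_of_index hQq hQidx hAQ
  have hNQ : normalizer (Q : Set G) ≤ M := normalizer_le_of_mem_sigma hqσ hQM hQq hQidx
  have hnotp : ∀ T : Subgroup G, IsPGroup p T → T ≠ ⊤ := by
    intro T hT h
    have hQp : IsPGroup p Q := hT.to_le (h ▸ le_top)
    obtain ⟨n, hn⟩ := IsPGroup.iff_card.mp hQp
    rw [hn] at hqQ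
    exact hqp ((Nat.prime_dvd_prime_iff_eq hq hp).mp (hq.dvd_of_dvd_pow hqQ))
  -- a Sylow `p`-subgroup `S ⊇ A` of `G`
  obtain ⟨S, hAS⟩ := hAp.exists_le_sylow
  obtain ⟨k, -, -, hS1, -⟩ :=
    sylow_core hG h1411 h1394 h1395 hAp hTHA hZ hq hqA hqC S hAS hQmax
  have hNQ' : normalizer ((Q.map (MulAut.conj k).toMonoidHom : Subgroup G) : Set G) ≤
      M.map (MulAut.conj k).toMonoidHom := by
    rw [← Subgroup.map_equiv_normalizer_eq]
    exact Subgroup.map_mono hNQ
  have hS2 : (S : Subgroup G) ≤ (⁅M, M⁆).map (MulAut.conj k).toMonoidHom := by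
    rw [Subgroup.map_commutator]
    exact hS1.trans (Subgroup.commutator_mono hNQ' hNQ')
  -- conjugate `S` back into `M'`
  have hS0le : ((k⁻¹ • S : Sylow p G) : Subgroup G) ≤ ⁅M, M⁆ := by
    intro x hx
    have h1 : k⁻¹⁻¹ * x * k⁻¹ ∈ S := Cfsg.Agent.H72.mem_sylow_smul.mp hx
    have h2 := hS2 h1
    rw [mem_map_conj_iff] at h2
    have h3 : k⁻¹ * (k⁻¹⁻¹ * x * k⁻¹) * k = x := by group
    rwa [h3] at h2
  have hDM : ⁅M, M⁆ ≤ M := Subgroup.commutator_le.mpr (fun a ha b hb =>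
    M.mul_mem (M.mul_mem (M.mul_mem ha hb) (M.inv_mem ha)) (M.inv_mem hb))
  have hS0M : ((k⁻¹ • S : Sylow p G) : Subgroup G) ≤ M := hS0le.trans hDM
  have hP0le : (((k⁻¹ • S : Sylow p G).subtype hS0M : Sylow p M) : Subgroup M) ≤
      commutator ↥M := by
    intro y hy
    rw [Sylow.coe_subtype, Subgroup.mem_subgroupOf] at hy
    have h1 := hS0le hy
    rw [← Subgroup.map_subtype_commutator] at h1
    obtain ⟨z, hz, hzy⟩ := h1
    have h2 : z = y := Subtype.ext hzy
    rwa [← h2]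
  haveI : Group.IsNilpotent ↥(commutator ↥M) := commutator_nilpotent h1405 hM hα
  have hP0n : (((k⁻¹ • S : Sylow p G).subtype hS0M : Sylow p M) : Subgroup M).Normal :=
    sylow_normal_of_le_nilpotent _ (commutator ↥M) hP0le
  have hmap : (((k⁻¹ • S : Sylow p G).subtype hS0M : Sylow p M) : Subgroup M).map M.subtype =
      ((k⁻¹ • S : Sylow p G) : Subgroup G) := by
    rw [Sylow.coe_subtype, Subgroup.map_subgroupOf_eq_of_le hS0M]
  have hMN : M ≤ normalizer (((k⁻¹ • S : Sylow p G) : Subgroup G) : Set G) := by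
    rw [← hmap]
    exact Cfsg.Agent.H70.BG10.le_normalizer_map_subtype M _
  have hS0bot : ((k⁻¹ • S : Sylow p G) : Subgroup G) ≠ ⊥ := Sylow.ne_bot_of_dvd_card _ hpG
  have hS0top : ((k⁻¹ • S : Sylow p G) : Subgroup G) ≠ ⊤ := hnotp _ (Sylow.isPGroup' _)
  have hNtop := minSimple_normalizer_ne_top hG hS0bot hS0top
  have hNM : normalizer (((k⁻¹ • S : Sylow p G) : Subgroup G) : Set G) = M := by
    by_contra hne'
    exact hNtop (hM.2 _ (lt_of_le_of_ne hMN (Ne.symm hne')))
  exact hps ⟨hp, hpM, (k⁻¹ • S : Sylow p G).subtype hS0M, by rw [hmap, hNM]⟩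

end Cfsg.Agent.H37.BG12
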