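import Mathlib
import Cfsg.Agent.H29.BG117Defs
import Cfsg.Agent.H37.BG12CS
import Cfsg.Agent.H76.BG10x

set_option autoImplicit false

/-!
# Bender–Glauberman 11.7, STEP 5 (helper37, for helper29's team project BG117)

`A` elementary abelian of order `p ^ 2` with the transitivity hypothesis, `t ≠ p` a non-ideal
prime dividing `|C_G(A)|`; then `A` centralizes every `A`-invariant `t`-subgroup of `G`.
-/

namespace Cfsg.Agent.H37.BG117

open Cfsg Subgroup Cfsg.Agent.H58.BG10 Cfsg.Agent.H63.BG11 Cfsg.Agent.H29.BG117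
  Cfsg.Agent.Lib.Helper30 Cfsg.Agent.H37.BG12

universe u

variable {G : Type u} [Group G] [Finite G]

theorem centT (hG : IsMinSimpleOddOrder G) (h1405 : St1405 G) (h1410 : St1410 G)
    (h1411 : St1411 G) (h1394 : St1394 G) (h1395 : St1395 G) : StCentT G := by
  classical
  intro p _ A hAel hAcard hTHA t _ htp hnid htC T hT hAT
  have hp : p.Prime := Fact.out
  have ht : t.Prime := Fact.out
  by_cases hTbot : T = ⊥
  · rw [hTbot]; exact bot_le
  have hAp : IsPGroup p A := IsPGroup.of_card hAcard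
  have hZ := not_rankLE_one_inf_centralizer hp hAel hAcard
  have htA : ¬ t ∣ Nat.card A := by
    rw [hAcard]
    intro h
    exact htp ((Nat.prime_dvd_prime_iff_eq ht hp).mp (ht.dvd_of_dvd_pow h))
  -- a maximal `A`-invariant `t`-subgroup `T2 ≥ T`
  obtain ⟨T2, hT2, hTT2⟩ := exists_le_maxInvSubgroups (A := A) (R := T) (π := {t})
    ⟨le_top, isPi_singleton_of_isPGroup hT, hAT⟩
  have hT2t : IsPGroup t T2 := isPGroup_of_isPi_singleton hT2.1.2.1
  have hT2bot : T2 ≠ ⊥ := fun h => hTbot (le_bot_iff.mp (h ▸ hTT2))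
  have hT2top : T2 ≠ ⊤ := ne_top_of_isPGroup_of_not_dvd hTHA.1 htA hT2t
  have hNtop := minSimple_normalizer_ne_top hG hT2bot hT2top
  obtain ⟨H, hH, hNH⟩ := (eq_top_or_exists_le_coatom _).resolve_left hNtop
  obtain ⟨S, hAS⟩ := hAp.exists_le_sylow
  obtain ⟨k, hkC, -, hS1, -⟩ :=
    sylow_core hG h1411 h1394 h1395 hAp hTHA hZ ht htA htC S hAS hT2
  have hA1 : A ≤ ⁅normalizer (T2 : Set G), normalizer (T2 : Set G)⁆ := by
    intro a ha
    have h1 := hS1 (hAS ha)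
    rw [← Subgroup.map_equiv_normalizer_eq, ← Subgroup.map_commutator, mem_map_conj_iff] at h1
    have h2 : k⁻¹ * a * k = a := by
      have h3 := (Subgroup.mem_centralizer_iff.mp hkC) a ha
      rw [mul_assoc, h3, ← mul_assoc, inv_mul_cancel, one_mul]
    rwa [h2] at h1
  have hAH' : A ≤ ⁅H, H⁆ := hA1.trans (Subgroup.commutator_mono hNH hNH)
  have hTH : T ≤ H := hTT2.trans (Subgroup.le_normalizer.trans hNH)
  have htH : t ∣ Nat.card H := by
    have h1 : t ∣ Nat.card T := by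
      rcases hT.card_eq_or_dvd with h | h
      · exact absurd (Subgroup.card_eq_one.mp h) hTbot
      · exact h
    exact h1.trans (Subgroup.card_dvd_of_le hTH)
  -- the normal `t`-complement `N` of `H'`
  obtain ⟨⟨P, N, hNn, hNP⟩, -⟩ :=
    Cfsg.Agent.H76.BG10.bg108_p hG h1405 h1410 H hH t ht htH (fun h => hnid h.2)
  haveI := hNn
  have hN1 : ¬ t ∣ Nat.card N := by
    rintro ⟨c, hc⟩
    have h1 : Nat.card N * Nat.card (P : Subgroup ↥(commutator ↥H)) =
        Nat.card ↥(commutator ↥H) := hNP.card_mul_card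
    rw [P.card_eq_multiplicity, hc] at h1
    have h2 := Nat.pow_succ_factorization_not_dvd
      (Nat.card_pos (α := ↥(commutator ↥H))).ne' ht
    apply h2
    generalize (Nat.card ↥(commutator ↥H)).factorization t = v at h1 ⊢
    exact ⟨c, by rw [← h1, pow_succ]; ring⟩
  have hN2 : ¬ p ∣ N.index := by
    have h1 : N.index = Nat.card (P : Subgroup ↥(commutator ↥H)) := hNP.symm.index_eq_card
    rw [h1, P.card_eq_multiplicity]
    intro h
    exact htp ((Nat.prime_dvd_prime_iff_eq hp ht).mp (hp.dvd_of_dvd_pow h)).symm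
  intro x hx
  rw [Subgroup.mem_centralizer_iff]
  intro a ha
  have haD : a ∈ ⁅H, H⁆ := hAH' ha
  rw [← Subgroup.map_subtype_commutator] at haD
  obtain ⟨a', ha', rfl⟩ := haD
  have hxH : x ∈ H := hTH hx
  have hap : (a' : G) ^ p = 1 := hAel.2 _ ha
  have hap' : a' ^ p = 1 := Subtype.ext (by simpa using hap)
  have haN : (⟨a', ha'⟩ : ↥(commutator ↥H)) ∈ N := by
    apply mem_of_normal_of_pow_eq_one hp N hN2 (k := 1)
    rw [pow_one]
    apply Subtype.ext
    exact hap'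
  have hb' : (⟨x, hxH⟩ : ↥H) * a' * (⟨x, hxH⟩ : ↥H)⁻¹ ∈ commutator ↥H :=
    (inferInstance : (commutator ↥H).Normal).conj_mem a' ha' _
  have hbN : (⟨_, hb'⟩ : ↥(commutator ↥H)) ∈ N := by
    apply mem_of_normal_of_pow_eq_one hp N hN2 (k := 1)
    rw [pow_one]
    apply Subtype.ext
    show ((⟨x, hxH⟩ : ↥H) * a' * (⟨x, hxH⟩ : ↥H)⁻¹) ^ p = 1
    rw [conj_pow, hap', mul_one, mul_inv_cancel]
  have hcT : x * (a' : G) * x⁻¹ * (a' : G)⁻¹ ∈ T := by
    have h1 : (a' : G) * x⁻¹ * (a' : G)⁻¹ ∈ T :=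
      (Subgroup.mem_normalizer_iff.mp (hAT ha) x⁻¹).mp (T.inv_mem hx)
    have h2 := T.mul_mem hx h1
    have h3 : x * ((a' : G) * x⁻¹ * (a' : G)⁻¹) = x * (a' : G) * x⁻¹ * (a' : G)⁻¹ := by group
    rwa [h3] at h2
  obtain ⟨j, hj⟩ := hT ⟨_, hcT⟩
  have hcj : (x * (a' : G) * x⁻¹ * (a' : G)⁻¹) ^ (t ^ j) = 1 := by
    simpa using congrArg Subtype.val hj
  have hcDN : (⟨_, hb'⟩ : ↥(commutator ↥H)) * (⟨a', ha'⟩ : ↥(commutator ↥H))⁻¹ ∈ N :=
    N.mul_mem hbN (N.inv_mem haN)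
  have hcDpow : ((⟨_, hb'⟩ : ↥(commutator ↥H)) * (⟨a', ha'⟩ : ↥(commutator ↥H))⁻¹) ^ (t ^ j)
      = 1 := by
    apply Subtype.ext
    apply Subtype.ext
    show (x * (a' : G) * x⁻¹ * (a' : G)⁻¹) ^ (t ^ j) = 1
    exact hcj
  have ho1 := orderOf_dvd_of_pow_eq_one hcDpow
  have ho2 : orderOf ((⟨_, hb'⟩ : ↥(commutator ↥H)) * (⟨a', ha'⟩ : ↥(commutator ↥H))⁻¹) ∣
      Nat.card N := by
    have h1 := orderOf_dvd_natCard (⟨_, hcDN⟩ : N)
    rwa [Subgroup.orderOf_mk] at h1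
  have hcop : Nat.Coprime (t ^ j) (Nat.card N) :=
    Nat.Coprime.pow_left j ((Nat.Prime.coprime_iff_not_dvd ht).mpr hN1)
  have ho3 := Nat.dvd_gcd ho1 ho2
  rw [Nat.Coprime.gcd_eq_one hcop, Nat.dvd_one, orderOf_eq_one_iff] at ho3
  have hc2 : x * (a' : G) * x⁻¹ * (a' : G)⁻¹ = 1 := by
    have h1 := congrArg (fun z : ↥(commutator ↥H) => ((z : ↥H) : G)) ho3
    exact h1
  have h4 : x * (a' : G) = (a' : G) * x := by
    have h5 := congrArg (fun z => z * (a' : G) * x) hc2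
    simp only [one_mul] at h5
    rw [← h5]; group
  exact h4.symm

example (hG : IsMinSimpleOddOrder G) (h1405 : St1405 G) (h1410 : St1410 G)
    (h1411 : St1411 G) (h1394 : St1394 G) (h1395 : St1395 G) :
    Cfsg.Agent.H29.BG117.StCentT G :=
  centT hG h1405 h1410 h1411 h1394 h1395

end Cfsg.Agent.H37.BG117
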