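import Mathlib
import Cfsg.Agent.H37.BG12CS
import Cfsg.Agent.H37.Trans2c
import Cfsg.Agent.S1395
import Cfsg.Agent.S1396

set_option autoImplicit false

/-!
# The transitivity statements S1394, S1395, S1396 as the `Prop`s of `H37.BG12CS` (helper37)

`Cfsg.Agent.S1394` cannot be imported together with `Cfsg.Agent.S1396` (a duplicate
declaration in their import closures); `H37.Trans2c` holds a copy of the proof of S1394
which can.
-/

namespace Cfsg.Agent.H37.BG12

open Cfsg Subgroup Cfsg.Agent.H58.BG10

universe u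

variable {G : Type u} [Group G] [Finite G]

theorem st1394 (hG : IsMinSimpleOddOrder G) : St1394 G :=
  fun _ hA hZ _ hq hqA hqC => Cfsg.Agent.H37.T2c.trans_of_rank_two hG hA hZ hq hqA hqC

theorem st1395 (hG : IsMinSimpleOddOrder G) : St1395 G :=
  fun A hA q hq hqA P hP hPπ hAP hsn htr =>
    Cfsg.Agent.S1395.result hG A hA q hq hqA P hP hPπ hAP hsn htr

theorem stTH (hG : IsMinSimpleOddOrder G) (h1410 : St1410 G) : StTH G :=
  fun p _ hpG A hAp hAc h =>
    Cfsg.Agent.S1396.result hG p hpG A hAp hAc (Or.inl ⟨h, fun H hH => h1410 p H hH⟩)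

end Cfsg.Agent.H37.BG12
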