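import Mathlib
import Cfsg.Agent.H29.BG117Defs
import Cfsg.Agent.H37.BG12CS
import Cfsg.Agent.Lib.Helper30.CoprimeIface

set_option autoImplicit false

/-!
# Bender–Glauberman 11.7, CLAIM D (helper37, for helper29's team project BG117)

`M` maximal, `t ∉ σ(M)`, `Z ≤ M` elementary abelian of order `t ^ 2` with `C_G(Z) ≤ M`;
then `C_{M_σ}(Z) = 1`.
-/

namespace Cfsg.Agent.H37.BG117

open Cfsg Subgroup Cfsg.Agent.H58.BG10 Cfsg.Agent.H63.BG11 Cfsg.Agent.H29.BG117
  Cfsg.Agent.Lib.Helper30 Cfsg.Agent.H37.BG12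

universe u

variable {G : Type u} [Group G] [Finite G]

theorem claimD (hG : IsMinSimpleOddOrder G) (h1350 : St1350 G) (h1405 : St1405 G)
    (h1408 : St1408 G) (h1411 : St1411 G) (hTH : StTH G) (h1394 : St1394 G)
    (h1395 : St1395 G) : StClaimD G := by
  classical
  intro M hM t _ hts Z hZM hZel hZcard hCM
  by_contra hne
  have ht : t.Prime := Fact.out
  have htZ : t ∣ Nat.card Z := by rw [hZcard]; exact dvd_pow_self t two_ne_zero
  have htM : t ∣ Nat.card M := htZ.trans (Subgroup.card_dvd_of_le hZM)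
  have hZp : IsPGroup t Z := IsPGroup.of_card hZcard
  have hr2 : PRankLE t 2 M := pRankLE_two_of_not_mem_sigma h1350 h1405 hM ht htM hts
  have hr1 : ¬ PRankLE t 1 M := not_pRankLE_one_of_le ht hZM hZel hZcard
  have hmax := (h1408 M hM t hts hr2 hr1).2 Z hZM hZel hZcard
  have hTHZ : TransitivityHypothesis Z := transHyp_of_maxel hTH hZel hZcard hmax
  have hZ' := not_rankLE_one_inf_centralizer ht hZel hZcard
  obtain ⟨hHσM, hHσG, -⟩ := h1350 M hM
  -- a prime divisor `q` of `|C_{M_σ}(Z)|`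
  have hcard1 : Nat.card ↥(sigmaCore M ⊓ centralizer (Z : Set G)) ≠ 1 :=
    fun h => hne (Subgroup.card_eq_one.mp h)
  obtain ⟨q, hq, hqd⟩ := Nat.exists_prime_and_dvd hcard1
  haveI : Fact q.Prime := ⟨hq⟩
  have hqσc : q ∣ Nat.card (sigmaCore M) := hqd.trans (Subgroup.card_dvd_of_le inf_le_left)
  have hqC : q ∣ Nat.card (centralizer (Z : Set G)) :=
    hqd.trans (Subgroup.card_dvd_of_le inf_le_right)
  have hqσ : q ∈ sigma M := hHσM.2.1 q hq hqσc
  have hqt : q ≠ t := fun h => hts (h ▸ hqσ)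
  have hqZ : ¬ q ∣ Nat.card Z := by
    rw [hZcard]
    intro h
    exact hqt ((Nat.prime_dvd_prime_iff_eq hq ht).mp (hq.dvd_of_dvd_pow h))
  -- a `Z`-invariant Sylow `q`-subgroup of `M_σ`
  have hZN : Z ≤ normalizer ((sigmaCore M : Subgroup G) : Set G) :=
    hZM.trans (Cfsg.Agent.H70.BG10.le_normalizer_map_subtype M (piCore (sigma M) ↥M))
  have htσ : ¬ t ∣ Nat.card (sigmaCore M) := fun h => hts (hHσM.2.1 t ht h)
  have hcop : (Nat.card Z).Coprime (Nat.card (sigmaCore M)) := by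
    rw [hZcard]
    exact Nat.Coprime.pow_left 2 ((Nat.Prime.coprime_iff_not_dvd ht).mpr htσ)
  have hsolv : Group.IsSolvable Z := by
    haveI := hZp.isNilpotent
    infer_instance
  obtain ⟨P, hZP⟩ := coprime_exists_invariant_sylow Z (sigmaCore M) hZN hcop (Or.inl hsolv) q
  set Q : Subgroup G := (P : Subgroup ↥(sigmaCore M)).map (sigmaCore M).subtype with hQdef
  have hQσ : Q ≤ sigmaCore M := Subgroup.map_subtype_le _
  have hQM : Q ≤ M := hQσ.trans hHσM.1
  have hQq : IsPGroup q Q := P.isPGroup'.map _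
  have hQidx : ¬ q ∣ Q.index := by
    rw [hQdef, Subgroup.index_map_subtype]
    intro h
    rcases (Nat.Prime.dvd_mul hq).mp h with h1 | h1
    · exact P.not_dvd_index h1
    · exact hHσG.2 q hq hqσ h1
  have hQmax : Q ∈ maxInvSubgroups ⊤ Z {q} := mem_maxInvSubgroups_of_index hQq hQidx hZP
  have hNQ : normalizer (Q : Set G) ≤ M := normalizer_le_of_mem_sigma hqσ hQM hQq hQidx
  -- a Sylow `t`-subgroup `S ⊇ Z` of `G`
  obtain ⟨S, hZS⟩ := hZp.exists_le_sylow
  obtain ⟨k, hkC, hQ'S, -, hNS⟩ :=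
    sylow_core hG h1411 h1394 h1395 hZp hTHZ hZ' hq hqZ hqC S hZS hQmax
  have hkM : k ∈ M := hCM hkC
  have hNQ' : normalizer ((Q.map (MulAut.conj k).toMonoidHom : Subgroup G) : Set G) ≤ M := by
    rw [← Subgroup.map_equiv_normalizer_eq]
    rintro _ ⟨y, hy, rfl⟩
    have hyM : y ∈ M := hNQ hy
    show k * y * k⁻¹ ∈ M
    exact M.mul_mem (M.mul_mem hkM hyM) (M.inv_mem hkM)
  have hSM : (S : Subgroup G) ≤ M := hQ'S.1.2.2.trans hNQ'
  have hCS : centralizer ((S : Subgroup G) : Set G) ≤ M :=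
    (Subgroup.centralizer_le hZS).trans hCM
  have hNSM : normalizer ((S : Subgroup G) : Set G) ≤ M := hNS.trans (sup_le hCS hNQ')
  refine hts ⟨ht, htM, S.subtype hSM, ?_⟩
  rw [Sylow.coe_subtype, Subgroup.map_subgroupOf_eq_of_le hSM]
  exact hNSM

example (hG : IsMinSimpleOddOrder G) (h1350 : St1350 G) (h1405 : St1405 G)
    (h1408 : St1408 G) (h1411 : St1411 G) (hTH : StTH G) (h1394 : St1394 G)
    (h1395 : St1395 G) : Cfsg.Agent.H29.BG117.StClaimD G :=
  claimD hG h1350 h1405 h1408 h1411 hTH h1394 h1395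

end Cfsg.Agent.H37.BG117
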