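import Mathlib
import Cfsg.Agent.H57.BG1218Defs
import Cfsg.Agent.H37.BG12CS

set_option autoImplicit false

/-!
# Bender–Glauberman 12.18, piece NILCONJ (helper37, for helper57's team project S1427)

If `H_σ` is nilpotent and `σ(M) ∩ σ(H) ≠ ∅` then `H` is conjugate to `M`.
-/

namespace Cfsg.Agent.H37.BG1218

open Cfsg Subgroup Cfsg.Agent.H58.BG10 Cfsg.Agent.H57.BG1218 Cfsg.Agent.Lib.Helper30
  Cfsg.Agent.H37.BG12

universe u

variable {G : Type u} [Group G] [Finite G]

/-- Two `q`-subgroups of index prime to `q` are conjugate. -/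
theorem exists_conj_of_sylow {q : ℕ} [Fact q.Prime] {T₁ T₂ : Subgroup G}
    (h1 : IsPGroup q T₁) (h1i : ¬ q ∣ T₁.index) (h2 : IsPGroup q T₂) (h2i : ¬ q ∣ T₂.index) :
    ∃ g : G, ∀ y : G, y ∈ T₁ ↔ g * y * g⁻¹ ∈ T₂ := by
  obtain ⟨g, hg⟩ := MulAction.exists_smul_eq G (h1.toSylow h1i) (h2.toSylow h2i)
  refine ⟨g, fun y => ?_⟩
  have h3 : g * y * g⁻¹ ∈ (g • h1.toSylow h1i : Sylow q G) ↔ y ∈ T₁ := by
    rw [Cfsg.Agent.H72.mem_sylow_smul]
    have h0 : g⁻¹ * (g * y * g⁻¹) * g = y := by group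
    rw [h0, IsPGroup.mem_toSylow]
  rw [← h3, hg, IsPGroup.mem_toSylow]

/-- The image in `G` of a Sylow `q`-subgroup of `M`, `q ∈ σ(M)`, has index prime to `q`. -/
theorem not_dvd_index_map_sylow (h50 : St1350 G) {M : Subgroup G} (hM : IsCoatom M) {q : ℕ}
    [Fact q.Prime] (hqM : q ∈ sigma M) (P : Sylow q M) :
    ¬ q ∣ ((P : Subgroup M).map M.subtype).index := by
  have hq : q.Prime := Fact.out
  obtain ⟨hHσM, hMσG, -⟩ := h50 M hM
  rw [Subgroup.index_map_subtype]
  intro h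
  rcases (Nat.Prime.dvd_mul hq).mp h with h1 | h1
  · exact P.not_dvd_index h1
  · exact hMσG.2 q hq hqM (h1.trans (Subgroup.index_dvd_of_le hHσM.1))

theorem nilConj (hG : IsMinSimpleOddOrder G) (h50 : St1350 G) : StNilConj G := by
  intro M H hM hH hnil q _ hqM hqH
  have hq : q.Prime := Fact.out
  obtain ⟨hHσH, -, -⟩ := h50 H hH
  obtain ⟨-, -, PM, hNPM⟩ := id hqM
  obtain ⟨-, -, PH, -⟩ := id hqH
  have hTMq : IsPGroup q ((PM : Subgroup M).map M.subtype) := PM.isPGroup'.map _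
  have hTq : IsPGroup q ((PH : Subgroup H).map H.subtype) := PH.isPGroup'.map _
  have hTMi := not_dvd_index_map_sylow h50 hM hqM PM
  have hTi := not_dvd_index_map_sylow h50 hH hqH PH
  have hidx : ¬ q ∣ (piCore (sigma H) ↥H).index := by
    have h1 := hHσH.2.2 q hq hqH
    have h2 : (sigmaCore H).relIndex H = (piCore (sigma H) ↥H).index := by
      unfold Subgroup.relIndex sigmaCore
      rw [Subgroup.subgroupOf, Subgroup.comap_map_eq_self_of_injective H.subtype_injective]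
    rwa [h2] at h1
  have hPle : (PH : Subgroup H) ≤ piCore (sigma H) ↥H :=
    le_of_normal_of_isPGroup _ hidx PH.isPGroup'
  have hnil' : Group.IsNilpotent ↥((piCore (sigma H) ↥H).map H.subtype) := hnil
  haveI : Group.IsNilpotent ↥(piCore (sigma H) ↥H) :=
    Group.nilpotent_of_mulEquiv
      ((piCore (sigma H) ↥H).equivMapOfInjective H.subtype H.subtype_injective).symm
  have hPn : (PH : Subgroup H).Normal := sylow_normal_of_le_nilpotent PH _ hPle
  have hHN : H ≤ normalizer (((PH : Subgroup H).map H.subtype : Subgroup G) : Set G) :=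
    Cfsg.Agent.H70.BG10.le_normalizer_map_subtype H _
  obtain ⟨g, hg⟩ := exists_conj_of_sylow hTMq hTMi hTq hTi
  refine ⟨g, ?_⟩
  have hle : H ≤ M.map (MulAut.conj g).toMonoidHom := by
    intro h hh
    rw [mem_map_conj_iff]
    apply hNPM
    rw [Subgroup.mem_normalizer_iff]
    intro y
    rw [hg y, hg]
    have h2 := (Subgroup.mem_normalizer_iff.mp (hHN hh)) (g * y * g⁻¹)
    rw [h2]
    have h3 : g * (g⁻¹ * h * g * y * (g⁻¹ * h * g)⁻¹) * g⁻¹ = h * (g * y * g⁻¹) * h⁻¹ := by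
      group
    rw [h3]
  have hne : M.map (MulAut.conj g).toMonoidHom ≠ ⊤ := by
    intro h
    apply hM.1
    rw [eq_top_iff]
    intro x _
    have h1 : g * x * g⁻¹ ∈ M.map (MulAut.conj g).toMonoidHom := h ▸ Subgroup.mem_top _
    rw [mem_map_conj_iff] at h1
    have h0 : g⁻¹ * (g * x * g⁻¹) * g = x := by group
    rwa [h0] at h1
  by_contra hneq
  exact hne (hH.2 _ (lt_of_le_of_ne hle hneq))

example (hG : IsMinSimpleOddOrder G) (h50 : St1350 G) : Cfsg.Agent.H57.BG1218.StNilConj G :=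
  nilConj hG h50

end Cfsg.Agent.H37.BG1218
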