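import Mathlib
import Cfsg.Agent.H57.BG1218Defs
import Cfsg.Agent.H37.BG12CS
import Cfsg.Agent.S1456
import Cfsg.Agent.H27.Layer

set_option autoImplicit false
set_option linter.style.haveILetI false

/-!
# Bender–Glauberman 12.18, piece SYLN (helper37, for helper57's team project S1427)

B&G 12.8: `p ∈ τ₂(H)`, `A ≤ H` elementary abelian of order `p²`, `P ≥ A` a commutative Sylow
`p`-subgroup of `G`: `N_G(A) ≤ N_G(P)`.
-/

namespace Cfsg.Agent.H37.BG1218

open Cfsg Subgroup Cfsg.Agent.H58.BG10 Cfsg.Agent.H57.BG1218 Cfsg.Agent.Lib.Helper30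
  Cfsg.Agent.H37.BG12

universe u

variable {G : Type u} [Group G] [Finite G]

/-- A subgroup of exponent `r` is an `r`-group. -/
theorem isPGroup_of_forall_pow_eq_one {X : Type*} [Group X] {r : ℕ} {B : Subgroup X}
    (h : ∀ b ∈ B, b ^ r = 1) : IsPGroup r B := by
  rintro ⟨b, hb⟩
  refine ⟨1, ?_⟩
  apply Subtype.ext
  simpa using h b hb

theorem sylN (hG : IsMinSimpleOddOrder G) (h50 : St1350 G) (h1405 : St1405 G) (h1411 : St1411 G)
    (h16 : St1416 G) (h17 : St1417 G) : StSylN G := by
  intro H hH p _ hp2 A hAH hAel hAcard P hAP hPc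
  have hp : p.Prime := Fact.out
  haveI := hAel.1
  haveI := hPc
  -- `P ≤ C(A) ≤ H`
  have hCAH : centralizer (A : Set G) ≤ H := (h16 H hH p A ⟨hAH, hAel, hAcard⟩).1
  have hPCA : (P : Subgroup G) ≤ centralizer (A : Set G) := by
    intro x hx
    rw [Subgroup.mem_centralizer_iff]
    intro a ha
    exact congrArg Subtype.val (hPc.is_comm.comm ⟨a, hAP ha⟩ ⟨x, hx⟩)
  have hPH : (P : Subgroup G) ≤ H := hPCA.trans hCAH
  obtain ⟨-, h17b, -, h17d, -, -⟩ := h17 H hH p hp2 A ⟨hAH, hAel, hAcard⟩
  have hmapP : ((P.subtype hPH : Sylow p H) : Subgroup H).map H.subtype = (P : Subgroup G) := by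
    rw [Sylow.coe_subtype, Subgroup.map_subgroupOf_eq_of_le hPH]
  have hΩ : ∀ x ∈ (P : Subgroup G), x ^ p = 1 ↔ x ∈ A := by
    have h1 := ((h17b (P.subtype hPH)).2 (by rw [hmapP]; exact hAP)).1
    rw [hmapP] at h1
    exact h1
  have hA_iff : ∀ x : G, x ∈ A ↔ x ∈ (P : Subgroup G) ∧ x ^ p = 1 := by
    intro x
    constructor
    · intro hx
      exact ⟨hAP hx, (hΩ x (hAP hx)).mpr hx⟩
    · rintro ⟨hx, hxp⟩
      exact (hΩ x hx).mp hxp
  -- `N(P) ≤ N(A)`
  have hNPN : normalizer ((P : Subgroup G) : Set G) ≤ normalizer (A : Set G) := by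
    intro n hn
    rw [Subgroup.mem_normalizer_iff] at hn ⊢
    intro y
    rw [hA_iff, hA_iff, ← hn y, conj_pow]
    constructor
    · rintro ⟨h1, h2⟩
      exact ⟨h1, by rw [h2]; group⟩
    · rintro ⟨h1, h2⟩
      refine ⟨h1, ?_⟩
      have h3 : y ^ p = n⁻¹ * (n * y ^ p * n⁻¹) * n := by group
      rw [h3, h2]; group
  -- `N := N(A)` is a proper, hence solvable, subgroup
  have hAbot : A ≠ ⊥ := by
    intro h
    rw [h, Subgroup.card_bot] at hAcard
    have := hp.one_lt
    have h2 : 1 < p ^ 2 := Nat.one_lt_pow (by norm_num) this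
    omega
  have hAtop : A ≠ ⊤ := by
    intro h
    apply hH.1
    rw [eq_top_iff, ← h]
    exact hAH
  have hNne : normalizer (A : Set G) ≠ ⊤ := minSimple_normalizer_ne_top hG hAbot hAtop
  haveI : Group.IsSolvable ↥(normalizer (A : Set G)) := minSimple_solvable_of_ne_top hG hNne
  have hodd : Odd (Nat.card ↥(normalizer (A : Set G))) :=
    Odd.of_dvd_nat hG.1 (Subgroup.card_subgroup_dvd_card _)
  have hAN : A ≤ normalizer (A : Set G) := Subgroup.le_normalizer
  have hPN : (P : Subgroup G) ≤ normalizer (A : Set G) :=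
    hPCA.trans (Subgroup.centralizer_le_normalizer _)
  -- the hypotheses of B&G 4.18 (S1456) in `N`
  have hEn : (A.subgroupOf (normalizer (A : Set G))).Normal := Subgroup.normal_in_normalizer
  have hEnil : Group.IsNilpotent ↥(A.subgroupOf (normalizer (A : Set G))) :=
    ⟨1, Subgroup.upperCentralSeries_one_eq_top_iff.mpr inferInstance⟩
  have hEF : A.subgroupOf (normalizer (A : Set G)) ≤ fittingSubgroup ↥(normalizer (A : Set G)) :=
    le_sSup ⟨hEn, hEnil⟩
  have hEe : IsElementaryAbelian p (A.subgroupOf (normalizer (A : Set G))) := by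
    refine ⟨inferInstance, ?_⟩
    rintro ⟨a, haN⟩ ha
    exact Subtype.ext (hAel.2 a ha)
  obtain ⟨hHσH, -, -⟩ := h50 H hH
  have hr : RankLE 2 ↥(fittingSubgroup ↥(normalizer (A : Set G)) ⊓
      centralizer ((A.subgroupOf (normalizer (A : Set G)) :
        Subgroup ↥(normalizer (A : Set G))) : Set ↥(normalizer (A : Set G)))) := by
    intro r hr B hBc hBr
    haveI : Fact r.Prime := ⟨hr⟩
    haveI := hBc
    have hcard : Nat.card ↥((B.map (Subgroup.subtype _)).map
        (normalizer (A : Set G)).subtype) = Nat.card B := by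
      rw [Subgroup.card_map_of_injective (Subgroup.subtype_injective _),
        Subgroup.card_map_of_injective (Subgroup.subtype_injective _)]
    rw [← hcard]
    have hBGc : IsMulCommutative ↥((B.map (Subgroup.subtype _)).map
        (normalizer (A : Set G)).subtype) := inferInstance
    have hBGr : ∀ x ∈ (B.map (Subgroup.subtype _)).map (normalizer (A : Set G)).subtype,
        x ^ r = 1 := by
      rintro _ ⟨_, ⟨b, hb, rfl⟩, rfl⟩
      have h1 := hBr b hb
      rw [← map_pow, ← map_pow, h1, map_one, map_one]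
    have hBGCA : (B.map (Subgroup.subtype _)).map (normalizer (A : Set G)).subtype ≤
        centralizer (A : Set G) := by
      rintro _ ⟨_, ⟨b, hb, rfl⟩, rfl⟩
      rw [Subgroup.mem_centralizer_iff]
      intro a ha
      have h1 : (b : ↥(normalizer (A : Set G))) ∈ centralizer
          ((A.subgroupOf (normalizer (A : Set G)) :
            Subgroup ↥(normalizer (A : Set G))) : Set ↥(normalizer (A : Set G))) := b.2.2
      rw [Subgroup.mem_centralizer_iff] at h1
      have h2 := h1 ⟨a, hAN ha⟩ (Subgroup.mem_subgroupOf.mpr ha)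
      exact congrArg Subtype.val h2
    have hBGH := hBGCA.trans hCAH
    have hBGp : IsPGroup r ↥((B.map (Subgroup.subtype _)).map
        (normalizer (A : Set G)).subtype) := isPGroup_of_forall_pow_eq_one hBGr
    by_cases hrs : r ∈ sigma H
    · have hidx : ¬ r ∣ (piCore (sigma H) ↥H).index := by
        have h1 := hHσH.2.2 r hr hrs
        have h2 : (sigmaCore H).relIndex H = (piCore (sigma H) ↥H).index := by
          unfold Subgroup.relIndex sigmaCore
          rw [Subgroup.subgroupOf, Subgroup.comap_map_eq_self_of_injective H.subtype_injective]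
        rwa [h2] at h1
      have hle : ((B.map (Subgroup.subtype _)).map (normalizer (A : Set G)).subtype).subgroupOf H
          ≤ piCore (sigma H) ↥H :=
        le_of_normal_of_isPGroup _ hidx (hBGp.comap_subtype)
      have hle2 : (B.map (Subgroup.subtype _)).map (normalizer (A : Set G)).subtype ≤
          sigmaCore H := by
        intro x hx
        exact ⟨⟨x, hBGH hx⟩, hle (Subgroup.mem_subgroupOf.mpr hx), rfl⟩
      have hbot : (B.map (Subgroup.subtype _)).map (normalizer (A : Set G)).subtype = ⊥ := by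
        rw [eq_bot_iff, ← h17d]
        exact le_inf hle2 hBGCA
      rw [hbot, Subgroup.card_bot]
      exact Nat.one_le_pow _ _ hr.pos
    · by_cases hbot : (B.map (Subgroup.subtype _)).map (normalizer (A : Set G)).subtype = ⊥
      · rw [hbot, Subgroup.card_bot]
        exact Nat.one_le_pow _ _ hr.pos
      · have hrH : r ∣ Nat.card H := by
          obtain ⟨n, hn⟩ := hBGp.exists_card_eq
          have h1 : n ≠ 0 := by
            rintro rfl
            rw [pow_zero] at hn
            exact hbot (Subgroup.card_eq_one.mp hn)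
          have h2 : r ∣ Nat.card ↥((B.map (Subgroup.subtype _)).map
              (normalizer (A : Set G)).subtype) := by
            rw [hn]; exact dvd_pow_self r h1
          exact h2.trans (Subgroup.card_dvd_of_le hBGH)
        have h3 := pRankLE_two_of_not_mem_sigma h50 h1405 hH hr hrH hrs
          (((B.map (Subgroup.subtype _)).map (normalizer (A : Set G)).subtype).subgroupOf H)
          inferInstance (by
            rintro ⟨a, haH⟩ ha
            exact Subtype.ext (hBGr a ha))
        rwa [Nat.card_congr (Subgroup.subgroupOfEquivOfLe hBGH).toEquiv] at h3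
  have h456 := Cfsg.Agent.S1456.result hodd p (A.subgroupOf (normalizer (A : Set G))) hEF hEe hr
  -- `P ≤ N'`
  obtain ⟨V, hV, -⟩ := Cfsg.Agent.H71.BG10.exists_compl_sylow_normalizer P
  have hPcomm : (P : Subgroup G) ≤ ⁅normalizer (A : Set G), normalizer (A : Set G)⁆ :=
    ((h1411 p P V hV).2).trans (Subgroup.commutator_mono hNPN hNPN)
  have hPF : ((P.subtype hPN : Sylow p ↥(normalizer (A : Set G))) :
      Subgroup ↥(normalizer (A : Set G))) ≤ fittingSubgroup ↥(normalizer (A : Set G)) := by
    intro z hz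
    rw [Sylow.coe_subtype, Subgroup.mem_subgroupOf] at hz
    have h1 := hPcomm hz
    rw [← Subgroup.map_subtype_commutator] at h1
    obtain ⟨y, hy, hyz⟩ := h1
    have h2 : y = z := Subtype.ext hyz
    rw [← h2]
    exact h456 hy
  haveI : Group.IsNilpotent ↥(fittingSubgroup ↥(normalizer (A : Set G))) :=
    Cfsg.Agent.H27.fitting_nilpotent
  haveI hPn : ((P.subtype hPN : Sylow p ↥(normalizer (A : Set G))) :
      Subgroup ↥(normalizer (A : Set G))).Normal :=
    sylow_normal_of_le_nilpotent _ _ hPF
  have h5 := Cfsg.Agent.H70.BG10.le_normalizer_map_subtype (normalizer (A : Set G))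
    ((P.subtype hPN : Sylow p ↥(normalizer (A : Set G))) : Subgroup ↥(normalizer (A : Set G)))
  rwa [Sylow.coe_subtype, Subgroup.map_subgroupOf_eq_of_le hPN] at h5

example (hG : IsMinSimpleOddOrder G) (h50 : St1350 G) (h1405 : St1405 G) (h1411 : St1411 G)
    (h16 : St1416 G) (h17 : St1417 G) : Cfsg.Agent.H57.BG1218.StSylN G :=
  sylN hG h50 h1405 h1411 h16 h17

end Cfsg.Agent.H37.BG1218
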