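import Mathlib
import Cfsg.Agent.Lib.Helper30.BG134Defs
import Cfsg.Agent.H13.Coprime
import Cfsg.Agent.H63.Sig
import Cfsg.Agent.H92.BG12Uniq
import Cfsg.Agent.H92.BG123
import Cfsg.Agent.H47.BG1216E1
import Cfsg.Agent.H58.BG127Tau
import Cfsg.Agent.H1.Coprime
import Cfsg.Agent.H76.BG10x
import Cfsg.Agent.H57.BG126

set_option autoImplicit false
set_option linter.style.haveILetI false

/-!
# Bender–Glauberman Theorem 13.4 (S1428), team project BG134: shared utilities (helper37)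
-/

namespace Cfsg.Agent.H37.BG134

open Cfsg Subgroup Cfsg.Agent.H58.BG10 Cfsg.Agent.H57.BG12 Cfsg.Agent.H47.BG12
  Cfsg.Agent.H63.Sig Cfsg.Agent.Lib.Helper30.BG134
open scoped Pointwise commutatorElement

universe u

variable {G : Type u} [Group G]

/-- (NIL), elementwise: two elements of `H'` of coprime orders commute modulo `H_α`. -/
theorem nil_comm_mem [Finite G] (h05 : St1405 G) {H : Subgroup G} (hH : IsCoatom H) {x z : G}
    (hx : x ∈ ⁅H, H⁆) (hz : z ∈ ⁅H, H⁆) (hcop : (orderOf x).Coprime (orderOf z)) :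
    ⁅x, z⁆ ∈ alphaCore H := by
  rw [← Subgroup.map_subtype_commutator] at hx hz
  obtain ⟨x', hx', rfl⟩ := hx
  obtain ⟨z', hz', rfl⟩ := hz
  have hD := (h05 H hH).2.2.2.2
  have hcop' : (orderOf (QuotientGroup.mk' (piCore (alpha H) ↥H) x')).Coprime
      (orderOf (QuotientGroup.mk' (piCore (alpha H) ↥H) z')) := by
    have h1 : orderOf (QuotientGroup.mk' (piCore (alpha H) ↥H) x') ∣ orderOf (H.subtype x') := by
      rw [Subgroup.coe_subtype, Subgroup.orderOf_coe]
      exact orderOf_map_dvd _ x'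
    have h2 : orderOf (QuotientGroup.mk' (piCore (alpha H) ↥H) z') ∣ orderOf (H.subtype z') := by
      rw [Subgroup.coe_subtype, Subgroup.orderOf_coe]
      exact orderOf_map_dvd _ z'
    exact (hcop.coprime_dvd_left h1).coprime_dvd_right h2
  have hc := Cfsg.Agent.H13.coprime_commute_of_mem _ hD
    (Subgroup.mem_map_of_mem (QuotientGroup.mk' (piCore (alpha H) ↥H)) hx')
    (Subgroup.mem_map_of_mem (QuotientGroup.mk' (piCore (alpha H) ↥H)) hz') hcop'
  have h3 : ⁅x', z'⁆ ∈ piCore (alpha H) ↥H := by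
    rw [← QuotientGroup.eq_one_iff, ← QuotientGroup.mk'_apply, map_commutatorElement,
      commutatorElement_eq_one_iff_commute]
    exact hc
  rw [← map_commutatorElement]
  exact Subgroup.mem_map_of_mem _ h3

/-- (NIL): subgroups of `H'` of coprime orders commute modulo `H_α`. -/
theorem nil_comm [Finite G] (h05 : St1405 G) {H : Subgroup G} (hH : IsCoatom H)
    {X Z : Subgroup G} (hX : X ≤ ⁅H, H⁆) (hZ : Z ≤ ⁅H, H⁆)
    (hcop : (Nat.card X).Coprime (Nat.card Z)) : ⁅X, Z⁆ ≤ alphaCore H := by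
  rw [Subgroup.commutator_le]
  intro x hx z hz
  exact nil_comm_mem h05 hH (hX hx) (hZ hz)
    ((hcop.coprime_dvd_left (Subgroup.orderOf_dvd_natCard X hx)).coprime_dvd_right
      (Subgroup.orderOf_dvd_natCard Z hz))

/-- `[Y, P] ≤ N` when `Y` normalizes `N` and `P ≤ N`. -/
theorem commutator_le_of_normalizes {Y P N : Subgroup G} (hY : Y ≤ normalizer (N : Set G))
    (hP : P ≤ N) : ⁅Y, P⁆ ≤ N := by
  rw [Subgroup.commutator_le]
  intro y hy x hx
  rw [commutatorElement_def]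
  exact N.mul_mem ((Subgroup.mem_normalizer_iff.mp (hY hy) x).mp (hP hx)) (N.inv_mem (hP hx))

/-- A subgroup which is a `p`-group and whose order is prime to `p` is trivial. -/
theorem eq_bot_of_dvd_of_coprime [Finite G] {W : Subgroup G} {a b : ℕ}
    (h1 : Nat.card W ∣ a) (h2 : Nat.card W ∣ b) (hab : a.Coprime b) : W = ⊥ := by
  rw [← Subgroup.card_eq_one]
  exact Nat.eq_one_of_dvd_coprimes hab h1 h2

/-- A nontrivial subgroup has a prime divisor. -/
theorem exists_prime_dvd_card [Finite G] {W : Subgroup G} (hW : W ≠ ⊥) :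
    ∃ s : ℕ, s.Prime ∧ s ∣ Nat.card W :=
  Nat.exists_prime_and_dvd (fun h => hW (Subgroup.card_eq_one.mp h))

/-- A subgroup of prime order `p` is a `p`-group. -/
theorem isPGroup_of_card {p : ℕ} {P : Subgroup G} (hPc : Nat.card P = p) : IsPGroup p P :=
  IsPGroup.of_card (n := 1) (by rw [hPc, pow_one])

/-- The primes dividing the order of a subgroup of `M_σ` lie in `σ(M)`. -/
theorem mem_sigma_of_dvd [Finite G] (h50 : St1350 G) {M : Subgroup G} (hM : IsCoatom M)
    {Y : Subgroup G} (hY : Y ≤ sigmaCore M) {s : ℕ} (hs : s.Prime) (hsd : s ∣ Nat.card Y) :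
    s ∈ sigma M :=
  (h50 M hM).1.2.1 s hs (hsd.trans (Subgroup.card_dvd_of_le hY))

/-- The primes dividing the order of a subgroup of `M_α` lie in `α(M)`. -/
theorem mem_alpha_of_dvd [Finite G] (h05 : St1405 G) {M : Subgroup G} (hM : IsCoatom M)
    {Y : Subgroup G} (hY : Y ≤ alphaCore M) {s : ℕ} (hs : s.Prime) (hsd : s ∣ Nat.card Y) :
    s ∈ alpha M :=
  (h05 M hM).1.2.1 s hs (hsd.trans (Subgroup.card_dvd_of_le hY))

/-- Any `σ(H)'`-subgroup of `H` lies in some complement of `H_σ`. -/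
theorem exists_compl_ge [Finite G] (h50 : St1350 G) (hSj : StSigConj G) {H : Subgroup G}
    (hH : IsCoatom H) {Z : Subgroup G} (hZH : Z ≤ H)
    (hZ : ∀ s : ℕ, s.Prime → s ∣ Nat.card Z → s ∉ sigma H) :
    ∃ E : Subgroup G, IsComplIn E (sigmaCore H) H ∧ Z ≤ E := by
  obtain ⟨E0, hE0⟩ := exists_complIn_sigmaCore h50 hH
  obtain ⟨g, hgH, hg⟩ := hSj H hH E0 hE0 Z hZH hZ
  refine ⟨MulAut.conj g⁻¹ • E0, complIn_cj hE0 (inv_mem hgH), le_cj_inv ?_⟩
  rwa [map_conj_eq_smul] at hg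

/-- In a complement `E` of `H_σ`, for `p ∈ τ₂(H)`: there is an elementary abelian `A ≤ E` of order
`p²`, normal in `E`, containing every subgroup of order `p` of `E`. -/
theorem exists_tau2_sq [Finite G] (h18 : St1418 G) (hSj : StSigConj G) {H : Subgroup G}
    (hH : IsCoatom H) {E : Subgroup G} (hE : IsComplIn E (sigmaCore H) H) {p : ℕ}
    (hp : p ∈ tau2 H) :
    ∃ A : Subgroup G, A ≤ E ∧ IsElementaryAbelian p A ∧ Nat.card A = p ^ 2 ∧
      E ≤ normalizer (A : Set G) ∧ ∀ X : Subgroup G, X ≤ E → Nat.card X = p → X ≤ A := by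
  obtain ⟨hpp, hpH, hr2, hr1⟩ := hp
  haveI : Fact p.Prime := ⟨hpp⟩
  obtain ⟨A0, hA0H, hA0el, hA0c⟩ := Cfsg.Agent.H58.BG12.exists_elementary_sq hpp hr2 hr1
  obtain ⟨k, hkH, hk⟩ := hSj H hH E hE A0 hA0H (by
    intro s hs hsd
    rw [hA0c] at hsd
    rw [(Nat.prime_dvd_prime_iff_eq hs hpp).mp (hs.dvd_of_dvd_pow hsd)]
    exact hpH)
  have hA1el : IsElementaryAbelian p (A0.map (MulAut.conj k).toMonoidHom) :=
    Cfsg.Agent.H58.BG12.elementary_map_conj hA0el k
  have hA1c : Nat.card (A0.map (MulAut.conj k).toMonoidHom) = p ^ 2 := by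
    rw [map_conj_eq_smul, card_cj, hA0c]
  obtain ⟨⟨hEN, hXA⟩, -, -⟩ := h18 H hH E hE p ⟨hpp, hpH, hr2, hr1⟩ _ ⟨hk, hA1el, hA1c⟩
  exact ⟨_, hk, hA1el, hA1c, hEN, hXA⟩

end Cfsg.Agent.H37.BG134
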