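import Mathlib
import Cfsg.Agent.H37.BenderMax

set_option autoImplicit false
set_option linter.unusedSectionVars false

/-!
# Bender's theorem for primitive pairs (helper37, for S3752)

`bender_pair` : a primitive pair `(M, N)` of subgroups of a finite group with `F*(M) ≤ N` and
`F*(N) ≤ M` has `F*(M)`, `F*(N)` both `p`-groups for one prime `p`.
-/

namespace Cfsg.Agent.H37.Bender

open Cfsg Subgroup Cfsg.Agent.H54

universe u

variable {G : Type u} [Group G]

/-- The `r'`-elements of `C_K(O_r(K))`. -/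
def psiSet (r : ℕ) (K : Subgroup G) : Set G :=
  {x : G | x ∈ K ∧ x ∈ centralizer ((Cfsg.pCoreOf r K : Subgroup G) : Set G) ∧
    (orderOf x).Coprime r}

theorem le_normalizer_closure_psiSet (r : ℕ) [Fact r.Prime] (K : Subgroup G) :
    K ≤ normalizer ((Subgroup.closure (psiSet r K) : Subgroup G) : Set G) := by
  apply le_normalizer_closure
  intro g hg y hy
  refine ⟨mul_mem (mul_mem hg hy.1) (inv_mem hg), conj_mem_of_le_normalizer
      ((le_normalizer_pCoreOf K).trans (normalizer_le_normalizer_centralizer _)) hg hy.2.1, ?_⟩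
  have e1 : orderOf (g * y * g⁻¹) = orderOf y := (MulAut.conj g).orderOf_eq y
  rw [e1]; exact hy.2.2

section finite

variable [Finite G]

/-- The `Ψ`-argument for a primitive pair. -/
theorem eq_of_psi_pair {r : ℕ} [hr : Fact r.Prime] {M N : Subgroup G}
    (hPM : ∀ A : Subgroup G, A ≠ ⊥ → A ≤ M ⊓ N → M ≤ normalizer (A : Set G) →
      N ⊓ normalizer (A : Set G) ≤ M)
    (hPN : ∀ A : Subgroup G, A ≠ ⊥ → A ≤ M ⊓ N → N ≤ normalizer (A : Set G) →
      M ⊓ normalizer (A : Set G) ≤ N)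
    (hMr : Cfsg.pCoreOf r M ≠ ⊥) (hNr : Cfsg.pCoreOf r N ≠ ⊥)
    (hMrN : Cfsg.pCoreOf r M ≤ N) (hNrM : Cfsg.pCoreOf r N ≤ M)
    (hMN : ∀ x ∈ N, (∀ v ∈ Cfsg.pCoreOf r N, x * v = v * x) → (orderOf x).Coprime r →
      ∀ a ∈ Cfsg.pCoreOf r M, x * a = a * x)
    (hNM : ∀ x ∈ M, (∀ v ∈ Cfsg.pCoreOf r M, x * v = v * x) → (orderOf x).Coprime r →
      ∀ a ∈ Cfsg.pCoreOf r N, x * a = a * x)
    (hex : ∃ x ∈ M, x ≠ 1 ∧ (∀ v ∈ Cfsg.pCoreOf r M, x * v = v * x) ∧ (orderOf x).Coprime r) :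
    M = N := by
  have hset : psiSet r M = psiSet r N := by
    ext x
    constructor
    · rintro ⟨hxM, hx, hxo⟩
      have hcen : x ∈ centralizer ((Cfsg.pCoreOf r N : Subgroup G) : Set G) :=
        mem_centralizer_of_comm (hNM x hxM (comm_of_mem_centralizer hx) hxo)
      refine ⟨?_, hcen, hxo⟩
      exact hPN _ hNr (le_inf hNrM (pCoreOf_le N)) (le_normalizer_pCoreOf N)
        ⟨hxM, Subgroup.centralizer_le_normalizer _ hcen⟩
    · rintro ⟨hxN, hx, hxo⟩
      have hcen : x ∈ centralizer ((Cfsg.pCoreOf r M : Subgroup G) : Set G) :=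
        mem_centralizer_of_comm (hMN x hxN (comm_of_mem_centralizer hx) hxo)
      refine ⟨?_, hcen, hxo⟩
      exact hPM _ hMr (le_inf (pCoreOf_le M) hMrN) (le_normalizer_pCoreOf M)
        ⟨hxN, Subgroup.centralizer_le_normalizer _ hcen⟩
  obtain ⟨x, hxM, hx1, hxc, hxo⟩ := hex
  have hxS : x ∈ psiSet r M := ⟨hxM, mem_centralizer_of_comm hxc, hxo⟩
  have hΨne : Subgroup.closure (psiSet r M) ≠ ⊥ := by
    intro hbot
    have hxcl : x ∈ Subgroup.closure (psiSet r M) := Subgroup.subset_closure hxS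
    rw [hbot, Subgroup.mem_bot] at hxcl
    exact hx1 hxcl
  have hΨM : Subgroup.closure (psiSet r M) ≤ M := by
    rw [Subgroup.closure_le]; intro y hy; exact hy.1
  have hΨN : Subgroup.closure (psiSet r M) ≤ N := by
    rw [hset, Subgroup.closure_le]; intro y hy; exact hy.1
  have hnM := le_normalizer_closure_psiSet r M
  have hnN := le_normalizer_closure_psiSet r N
  rw [← hset] at hnN
  apply le_antisymm
  · intro m hm
    exact hPN _ hΨne (le_inf hΨM hΨN) hnN ⟨hm, hnM hm⟩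
  · intro n hn
    exact hPM _ hΨne (le_inf hΨM hΨN) hnM ⟨hn, hnN hn⟩

theorem genFitting_eq_fitting_of_EOf {A : Subgroup G} (hEA : EOf A = ⊥) :
    generalizedFittingSubgroup ↥A = fittingSubgroup ↥A := by
  have hl : layer ↥A = ⊥ :=
    (Subgroup.map_eq_bot_iff_of_injective _ (Subgroup.subtype_injective _)).mp hEA
  unfold generalizedFittingSubgroup
  rw [hl, bot_sup_eq]

/-- A finite group with trivial layer and trivial Fitting subgroup is trivial. -/
theorem eq_bot_of_FOf_eq_bot {A : Subgroup G} (hEA : EOf A = ⊥) (hFA : FOf A = ⊥) : A = ⊥ := by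
  have hFs : generalizedFittingSubgroup ↥A = ⊥ := by
    rw [genFitting_eq_fitting_of_EOf hEA]
    exact (Subgroup.map_eq_bot_iff_of_injective _ (Subgroup.subtype_injective _)).mp hFA
  rw [eq_bot_iff]
  intro a ha
  have hmem : (⟨a, ha⟩ : A) ∈ generalizedFittingSubgroup ↥A := by
    apply Cfsg.Agent.H27.centralizer_genFitting_le
    rw [hFs, Subgroup.mem_centralizer_iff]
    intro g hg
    rw [SetLike.mem_coe, Subgroup.mem_bot] at hg
    rw [hg, one_mul, mul_one]
  rw [hFs, Subgroup.mem_bot] at hmem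
  exact congrArg Subtype.val hmem

/-- With trivial layers and mutual containment of the cores, a prime dividing `|F(M)|` divides
`|F(N)|`. -/
theorem dvd_of_dvd_pair {M N : Subgroup G} (hEN : EOf N = ⊥)
    (hMN : ∀ q : ℕ, q.Prime → Cfsg.pCoreOf q M ≤ N)
    (hNM : ∀ q : ℕ, q.Prime → Cfsg.pCoreOf q N ≤ M) {q : ℕ} [hq : Fact q.Prime]
    (h : q ∣ Nat.card (fittingSubgroup ↥M)) : q ∣ Nat.card (fittingSubgroup ↥N) := by
  by_contra hn
  have hNq : Cfsg.pCoreOf q N = ⊥ := pCoreOf_eq_bot_of_not_dvd hn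
  have hle : Cfsg.pCoreOf q M ≤ FOf N := by
    intro a ha
    have hall : ∀ s : ℕ, s.Prime → ∀ b ∈ Cfsg.pCoreOf s N, a * b = b * a := by
      intro s hs b hb
      have : Fact s.Prime := ⟨hs⟩
      by_cases hsq : s = q
      · subst hsq
        rw [hNq, Subgroup.mem_bot] at hb
        rw [hb, mul_one, one_mul]
      · exact comm_of_normalize_of_disjoint ((hMN q hq.out).trans (le_normalizer_pCoreOf N))
          ((hNM s hs).trans (le_normalizer_pCoreOf M))
          (IsPGroup.disjoint_of_ne q s (Ne.symm hsq) _ _ (isPGroup_pCoreOf M)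
            (isPGroup_pCoreOf N)).eq_bot a ha b hb
    apply mem_FOf_of_centralizes (hMN q hq.out ha)
    · intro e he
      rw [hEN, Subgroup.mem_bot] at he
      rw [he, one_mul, mul_one]
    · intro f hf
      obtain ⟨u, hu, c, hc, rfl⟩ := exists_decomp q N hf
      have h1 : a * u = u * a := hall q hq.out u hu
      have h2 : a * c = c * a := comm_compOf (fun s hs _ b hb => hall s hs b hb) c hc
      rw [mul_assoc, ← h2, ← mul_assoc, ← h1, mul_assoc]
  have hMq : Cfsg.pCoreOf q M ≠ ⊥ := pCoreOf_ne_bot_of_dvd h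
  obtain ⟨k, hk⟩ := IsPGroup.iff_card.mp (isPGroup_pCoreOf (p := q) M)
  have hdvd : Nat.card (Cfsg.pCoreOf q M) ∣ Nat.card (fittingSubgroup ↥N) := by
    rw [← card_FOf]; exact Subgroup.card_dvd_of_le hle
  rcases Nat.eq_zero_or_pos k with h0 | h0
  · apply hMq
    apply Subgroup.eq_bot_of_card_eq
    rw [hk, h0, pow_zero]
  · exact hn ((dvd_pow_self q h0.ne').trans (hk ▸ hdvd))

/-- **Bender's theorem for primitive pairs.** -/
theorem bender_pair {M N : Subgroup G} (hne : M ≠ N)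
    (hP : ∀ A : Subgroup G, A ≠ ⊥ → A ≤ M ⊓ N →
      (M ≤ normalizer (A : Set G) → N ⊓ normalizer (A : Set G) = M ⊓ N) ∧
      (N ≤ normalizer (A : Set G) → M ⊓ normalizer (A : Set G) = M ⊓ N))
    (h1 : FsOf M ≤ N) (h2 : FsOf N ≤ M) :
    ∃ p : ℕ, p.Prime ∧ IsPGroup p ↥(generalizedFittingSubgroup ↥M) ∧
      IsPGroup p ↥(generalizedFittingSubgroup ↥N) := by
  have hPM : ∀ A : Subgroup G, A ≠ ⊥ → A ≤ M ⊓ N → M ≤ normalizer (A : Set G) →
      N ⊓ normalizer (A : Set G) ≤ M :=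
    fun A hA hle hn => ((hP A hA hle).1 hn).le.trans inf_le_left
  have hPN : ∀ A : Subgroup G, A ≠ ⊥ → A ≤ M ⊓ N → N ≤ normalizer (A : Set G) →
      M ⊓ normalizer (A : Set G) ≤ N :=
    fun A hA hle hn => ((hP A hA hle).2 hn).le.trans inf_le_right
  have hE : EOf M = EOf N := le_antisymm (EOf_le_EOf h1 h2) (EOf_le_EOf h2 h1)
  have hEM : EOf M = ⊥ := by
    by_contra hE0
    apply hne
    have hEN' : EOf M ≤ N := by rw [hE]; exact EOf_le N
    have hle : EOf M ≤ M ⊓ N := le_inf (EOf_le M) hEN'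
    have hnM : M ≤ normalizer ((EOf M : Subgroup G) : Set G) := le_normalizer_EOf M
    have hnN : N ≤ normalizer ((EOf M : Subgroup G) : Set G) := by
      rw [hE]; exact le_normalizer_EOf N
    apply le_antisymm
    · intro m hm; exact hPN _ hE0 hle hnN ⟨hm, hnM hm⟩
    · intro n hn; exact hPM _ hE0 hle hnM ⟨hn, hnN hn⟩
  have hEN : EOf N = ⊥ := by rw [← hE]; exact hEM
  have eM := genFitting_eq_fitting_of_EOf hEM
  have eN := genFitting_eq_fitting_of_EOf hEN
  have hFsM : FsOf M = FOf M := by unfold FsOf FOf; rw [eM]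
  have hFsN : FsOf N = FOf N := by unfold FsOf FOf; rw [eN]
  have hFM0 : FOf M ≠ ⊥ := by
    intro h0
    apply hne
    have hM0 : M = ⊥ := eq_bot_of_FOf_eq_bot hEM h0
    have hN0 : N = ⊥ := by
      apply eq_bot_of_FOf_eq_bot hEN
      rw [eq_bot_iff, ← hM0, ← hFsN]
      exact h2
    rw [hM0, hN0]
  have hcoreMN : ∀ q : ℕ, q.Prime → Cfsg.pCoreOf q M ≤ N := by
    intro q hq
    have : Fact q.Prime := ⟨hq⟩
    exact ((pCoreOf_le_FOf q M).trans (FOf_le_FsOf M)).trans h1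
  have hcoreNM : ∀ q : ℕ, q.Prime → Cfsg.pCoreOf q N ≤ M := by
    intro q hq
    have : Fact q.Prime := ⟨hq⟩
    exact ((pCoreOf_le_FOf q N).trans (FOf_le_FsOf N)).trans h2
  by_cases h2p : ∃ q₁ q₂ : ℕ, q₁.Prime ∧ q₂.Prime ∧ q₁ ≠ q₂ ∧
      q₁ ∣ Nat.card (fittingSubgroup ↥M) ∧ q₂ ∣ Nat.card (fittingSubgroup ↥M)
  · exfalso
    obtain ⟨q₁, q₂, hq₁, hq₂, hne12, hd₁, hd₂⟩ := h2p
    have : Fact q₁.Prime := ⟨hq₁⟩
    have : Fact q₂.Prime := ⟨hq₂⟩
    apply hne
    have hd₁' : q₁ ∣ Nat.card (fittingSubgroup ↥N) := dvd_of_dvd_pair hEN hcoreMN hcoreNM hd₁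
    have hpM₂ : Cfsg.pCoreOf q₂ M ≠ ⊥ := pCoreOf_ne_bot_of_dvd hd₂
    obtain ⟨x, hx, hx1⟩ : ∃ x ∈ Cfsg.pCoreOf q₂ M, x ≠ 1 := by
      by_contra hcon
      apply hpM₂
      rw [eq_bot_iff]
      intro x hx
      by_contra hx1
      exact hcon ⟨x, hx, fun h => hx1 (by rw [h]; exact (⊥ : Subgroup G).one_mem)⟩
    have hENM : EOf N ≤ M := by rw [hEN]; exact bot_le
    have hEMN : EOf M ≤ N := by rw [hEM]; exact bot_le
    apply eq_of_psi_pair (r := q₁) hPM hPN (pCoreOf_ne_bot_of_dvd hd₁)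
      (pCoreOf_ne_bot_of_dvd hd₁') (hcoreMN q₁ hq₁) (hcoreNM q₁ hq₁)
      (fun _ hx hxc hxo => cores_dir hENM hcoreNM hcoreMN hx hxc hxo)
      (fun _ hx hxc hxo => cores_dir hEMN hcoreMN hcoreNM hx hxc hxo)
    refine ⟨x, pCoreOf_le M hx, hx1, fun v hv => (pCoreOf_comm hne12 M v hv x hx).symm, ?_⟩
    obtain ⟨k, hk⟩ := (isPGroup_pCoreOf (p := q₂) M) ⟨x, hx⟩
    have hk' : x ^ q₂ ^ k = 1 := by simpa using congrArg Subtype.val hk
    exact Nat.Coprime.coprime_dvd_left (orderOf_dvd_of_pow_eq_one hk')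
      (Nat.Coprime.pow_left k ((Nat.coprime_primes hq₂ hq₁).mpr (Ne.symm hne12)))
  · have hcard1 : Nat.card (fittingSubgroup ↥M) ≠ 1 := by
      intro h1'
      rw [← card_FOf] at h1'
      exact hFM0 (Subgroup.eq_bot_of_card_eq _ h1')
    obtain ⟨p, hp, hpd⟩ := Nat.exists_prime_and_dvd hcard1
    have : Fact p.Prime := ⟨hp⟩
    have huniq : ∀ d : ℕ, d.Prime → d ∣ Nat.card (fittingSubgroup ↥M) → d = p := by
      intro d hd hdd
      by_contra hne'
      exact h2p ⟨d, p, hd, hp, hne', hdd, hpd⟩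
    have hFM : IsPGroup p (fittingSubgroup ↥M) := by
      apply IsPGroup.of_card (n := (Nat.card (fittingSubgroup ↥M)).primeFactorsList.length)
      exact Nat.eq_prime_pow_of_unique_prime_dvd Nat.card_pos.ne'
        (fun {d} hd hdd => huniq d hd hdd)
    have hFN : IsPGroup p (fittingSubgroup ↥N) := by
      apply IsPGroup.of_card (n := (Nat.card (fittingSubgroup ↥N)).primeFactorsList.length)
      apply Nat.eq_prime_pow_of_unique_prime_dvd Nat.card_pos.ne'
      intro d hd hdd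
      have : Fact d.Prime := ⟨hd⟩
      exact huniq d hd (dvd_of_dvd_pair hEM hcoreNM hcoreMN hdd)
    refine ⟨p, hp, ?_, ?_⟩
    · rw [eM]; exact hFM
    · rw [eN]; exact hFN

/-- If `F*(X)` is a `p`-group then `X` has characteristic `p`. -/
theorem charp_of_isPGroup_genFitting {X : Type u} [Group X] [Finite X] {p : ℕ}
    (h : IsPGroup p ↥(generalizedFittingSubgroup X)) :
    Subgroup.centralizer (Cfsg.pCore p X : Set X) ≤ Cfsg.pCore p X := by
  have hle : generalizedFittingSubgroup X ≤ Cfsg.pCore p X := le_pCore inferInstance h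
  exact (Subgroup.centralizer_le (SetLike.coe_subset_coe.mpr hle)).trans
    (Cfsg.Agent.H27.centralizer_genFitting_le.trans hle)

end finite

end Cfsg.Agent.H37.Bender
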