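import Mathlib
import Cfsg.Agent.H42.JtDefs

set_option autoImplicit false

/-! The kernel-dimension sequence of an endomorphism (team piece JT-A for S5996 / S5995). -/

namespace Cfsg.Agent.H37.JtA

open Cfsg.Agent.H42.Jt

variable {F : Type*} [Field F] {V : Type*} [AddCommGroup V] [Module F V] [FiniteDimensional F V]

theorem finrank_comap_eq (f : V →ₗ[F] V) (W : Submodule F V) :
    Module.finrank F (W.comap f) =
      Module.finrank F (LinearMap.ker f) + Module.finrank F (LinearMap.range f ⊓ W : Submodule F V) := by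
  have h1 := LinearMap.finrank_range_add_finrank_ker (f.domRestrict (W.comap f))
  rw [LinearMap.range_domRestrict, Submodule.map_comap_eq, LinearMap.ker_domRestrict] at h1
  have hle : LinearMap.ker f ≤ W.comap f := by
    intro x hx
    rw [Submodule.mem_comap, LinearMap.mem_ker.1 hx]
    exact W.zero_mem
  have h2 : Module.finrank F ((LinearMap.ker f).comap (W.comap f).subtype) =
      Module.finrank F (LinearMap.ker f) :=
    (Submodule.comapSubtypeEquivOfLe hle).finrank_eq
  omega

theorem kd_succ (N : Module.End F V) (e : ℕ) :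
    kd N (e + 1) = kd N e +
      Module.finrank F (LinearMap.range (N ^ e) ⊓ LinearMap.ker N : Submodule F V) := by
  unfold kd
  have h1 : LinearMap.ker (N ^ (e + 1)) = (LinearMap.ker N).comap (N ^ e) := by
    rw [pow_succ', Module.End.mul_eq_comp, LinearMap.ker_comp]
  rw [h1, finrank_comap_eq]

theorem kd_mono (N : Module.End F V) (e : ℕ) : kd N e ≤ kd N (e + 1) := by
  rw [kd_succ]; omega

theorem kd_concave (N : Module.End F V) (e : ℕ) : kd N e + kd N (e + 2) ≤ 2 * kd N (e + 1) := by
  have h1 := kd_succ N e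
  have h2 := kd_succ N (e + 1)
  have h3 : Module.finrank F (LinearMap.range (N ^ (e + 1)) ⊓ LinearMap.ker N : Submodule F V) ≤
      Module.finrank F (LinearMap.range (N ^ e) ⊓ LinearMap.ker N : Submodule F V) := by
    apply Submodule.finrank_mono
    apply inf_le_inf_right
    rw [pow_succ, Module.End.mul_eq_comp]
    exact LinearMap.range_comp_le_range _ _
  have h4 : e + 1 + 1 = e + 2 := rfl
  rw [h4] at h2
  omega

theorem kd_zero (N : Module.End F V) : kd N 0 = 0 := by
  unfold kd
  rw [pow_zero]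
  have : LinearMap.ker (1 : Module.End F V) = ⊥ := LinearMap.ker_id
  rw [this, finrank_bot]

theorem kd_of_pow_eq_zero (N : Module.End F V) (s : ℕ) (hN : N ^ s = 0) :
    kd N s = Module.finrank F V := by
  unfold kd
  rw [hN, LinearMap.ker_zero, finrank_top]

theorem sum_jb_aux (N : Module.End F V) (t : ℕ) :
    ∑ e ∈ Finset.range t, (e + 1) * jb N (e + 1) + t * kd N (t + 1) = (t + 1) * kd N t := by
  induction t with
  | zero => simp [kd_zero]
  | succ t ih =>
    rw [Finset.sum_range_succ]
    have hc := kd_concave N t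
    have hj : jb N (t + 1) + kd N t + kd N (t + 2) = 2 * kd N (t + 1) := by
      unfold jb
      have h5 : t + 1 - 1 = t := by omega
      have h6 : t + 1 + 1 = t + 2 := rfl
      rw [h5, h6]
      omega
    have h7 : (t + 1) * jb N (t + 1) + (t + 1) * kd N t + (t + 1) * kd N (t + 2)
        = (t + 1) * (2 * kd N (t + 1)) := by
      rw [← hj]; ring
    have h6 : t + 1 + 1 = t + 2 := rfl
    rw [h6]
    nlinarith [h7, ih]

theorem sum_jb (N : Module.End F V) (s : ℕ) (hN : N ^ s = 0) : ∑ e ∈ Finset.range s, (e + 1) * jb N (e + 1) = Module.finrank F V := by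
  have h1 := sum_jb_aux N s
  have h2 := kd_of_pow_eq_zero N s hN
  have h3 : kd N (s + 1) = Module.finrank F V := by
    apply kd_of_pow_eq_zero
    rw [pow_succ, hN, zero_mul]
  rw [h2, h3] at h1
  linarith

theorem kd_restrict (N : Module.End F V) (W : Submodule F V) (hW : ∀ v ∈ W, N v ∈ W) (e : ℕ) :
    kd (N.restrict hW) e = Module.finrank F (W ⊓ LinearMap.ker (N ^ e) : Submodule F V) := by
  unfold kd
  rw [Module.End.pow_restrict e hW, LinearMap.ker_restrict, ← Submodule.map_comap_subtype,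
    Submodule.finrank_map_subtype_eq]

theorem kd_isCompl (N : Module.End F V) (W W' : Submodule F V) (hc : IsCompl W W') (hW : ∀ v ∈ W, N v ∈ W) (hW' : ∀ v ∈ W', N v ∈ W') (e : ℕ) : kd N e = kd (N.restrict hW) e + kd (N.restrict hW') e := by
  rw [kd_restrict, kd_restrict]
  have hsup : (W ⊓ LinearMap.ker (N ^ e)) ⊔ (W' ⊓ LinearMap.ker (N ^ e)) = LinearMap.ker (N ^ e) := by
    apply le_antisymm
    · exact sup_le inf_le_right inf_le_right
    · intro v hv
      have hv' : (N ^ e) v = 0 := LinearMap.mem_ker.1 hv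
      have htop : v ∈ W ⊔ W' := by rw [hc.sup_eq_top]; exact Submodule.mem_top
      obtain ⟨w, hw, w', hw', rfl⟩ := Submodule.mem_sup.1 htop
      have h1 : (N ^ e) w ∈ W := Module.End.pow_apply_mem_of_forall_mem e hW w hw
      have h2 : (N ^ e) w' ∈ W' := Module.End.pow_apply_mem_of_forall_mem e hW' w' hw'
      rw [map_add] at hv'
      have h3 : (N ^ e) w = - (N ^ e) w' := eq_neg_of_add_eq_zero_left hv'
      have h4 : (N ^ e) w ∈ W ⊓ W' := ⟨h1, by rw [h3]; exact W'.neg_mem h2⟩
      rw [hc.inf_eq_bot, Submodule.mem_bot] at h4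
      have h5 : (N ^ e) w' = 0 := by rw [h4, zero_add] at hv'; exact hv'
      exact Submodule.add_mem_sup ⟨hw, LinearMap.mem_ker.2 h4⟩ ⟨hw', LinearMap.mem_ker.2 h5⟩
  have hinf : (W ⊓ LinearMap.ker (N ^ e)) ⊓ (W' ⊓ LinearMap.ker (N ^ e)) = ⊥ := by
    apply le_antisymm _ bot_le
    rw [← hc.inf_eq_bot]
    exact inf_le_inf inf_le_left inf_le_left
  have h := Submodule.finrank_sup_add_finrank_inf_eq (W ⊓ LinearMap.ker (N ^ e))
    (W' ⊓ LinearMap.ker (N ^ e))
  rw [hsup, hinf, finrank_bot] at h
  unfold kd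
  omega

end Cfsg.Agent.H37.JtA

section
open Cfsg.Agent.H42.Jt
variable {F : Type*} [Field F] {V : Type*} [AddCommGroup V] [Module F V] [FiniteDimensional F V]

example (N : Module.End F V) (e : ℕ) : kd N e ≤ kd N (e + 1) :=
  Cfsg.Agent.H37.JtA.kd_mono N e
example (N : Module.End F V) (e : ℕ) : kd N e + kd N (e + 2) ≤ 2 * kd N (e + 1) :=
  Cfsg.Agent.H37.JtA.kd_concave N e
example (N : Module.End F V) (s : ℕ) (hN : N ^ s = 0) : ∑ e ∈ Finset.range s, (e + 1) * jb N (e + 1) = Module.finrank F V :=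
  Cfsg.Agent.H37.JtA.sum_jb N s hN
example (N : Module.End F V) (W W' : Submodule F V) (hc : IsCompl W W') (hW : ∀ v ∈ W, N v ∈ W) (hW' : ∀ v ∈ W', N v ∈ W') (e : ℕ) : kd N e = kd (N.restrict hW) e + kd (N.restrict hW') e :=
  Cfsg.Agent.H37.JtA.kd_isCompl N W W' hc hW hW' e
end
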