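import Mathlib

set_option autoImplicit false

/-! Combinatorics of pairing the parts of a partition (team piece JT-K for S5996 / S5995). -/

namespace Cfsg.Agent.H37.JtK

theorem erase2 (μ : Multiset ℕ) (a b : ℕ) (ha : a ∈ μ) (hb : b ∈ μ.erase a) :
    μ = {a, b} + (μ.erase a).erase b ∧ μ.sum = a + b + ((μ.erase a).erase b).sum ∧
    Multiset.card ((μ.erase a).erase b) < Multiset.card μ ∧
    (∀ e ∈ (μ.erase a).erase b, e ∈ μ) := by
  have e1 : μ = {a, b} + (μ.erase a).erase b := by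
    have h1 : ({a, b} : Multiset ℕ) + (μ.erase a).erase b
        = a ::ₘ b ::ₘ (μ.erase a).erase b := by
      rw [Multiset.insert_eq_cons, Multiset.cons_add, Multiset.singleton_add]
    rw [h1, Multiset.cons_erase hb, Multiset.cons_erase ha]
  refine ⟨e1, ?_, ?_, ?_⟩
  · conv_lhs => rw [e1]
    rw [Multiset.sum_add, Multiset.insert_eq_cons, Multiset.sum_cons, Multiset.sum_singleton]
  · exact lt_trans (Multiset.card_erase_lt_of_mem hb) (Multiset.card_erase_lt_of_mem ha)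
  · intro e he
    exact Multiset.mem_of_mem_erase (Multiset.mem_of_mem_erase he)

theorem count_erase2_of_ne (μ : Multiset ℕ) (a b e : ℕ) (h1 : e ≠ a) (h2 : e ≠ b) :
    ((μ.erase a).erase b).count e = μ.count e := by
  rw [Multiset.count_erase_of_ne h2, Multiset.count_erase_of_ne h1]

theorem count_erase2_self (μ : Multiset ℕ) (e : ℕ) :
    ((μ.erase e).erase e).count e = μ.count e - 2 := by
  rw [Multiset.count_erase_self, Multiset.count_erase_self]; omega

theorem comb_plus (P : ℕ → Multiset ℕ → Prop) (h0 : P 0 0) (hadd : ∀ s₁ s₂ μ₁ μ₂, P s₁ μ₁ → P s₂ μ₂ → P (s₁ + s₂) (μ₁ + μ₂)) (hpair : ∀ e, P e {e, e}) (hodd : ∀ t₁ t₂, P (t₁ + t₂ + 1) {2 * t₁ + 1, 2 * t₂ + 1}) (μ : Multiset ℕ) (d : ℕ) (hpos : ∀ e ∈ μ, 0 < e) (hev : ∀ e : ℕ, Even e → Even (μ.count e)) (hsum : μ.sum = 2 * d) : P d μ := by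
  obtain ⟨n, hn⟩ : ∃ n, Multiset.card μ = n := ⟨_, rfl⟩
  induction n using Nat.strong_induction_on generalizing μ d with
  | _ n ih =>
  by_cases hμ : μ = 0
  · subst hμ
    have hd : d = 0 := by rw [Multiset.sum_zero] at hsum; omega
    subst hd
    exact h0
  by_cases hex : ∃ e ∈ μ, Even e
  · obtain ⟨e, heμ, hee⟩ := hex
    have hc : 2 ≤ μ.count e := by
      have h1 := hev e hee
      have h2 : 0 < μ.count e := Multiset.count_pos.2 heμ
      obtain ⟨k, hk⟩ := h1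
      omega
    have hb : e ∈ μ.erase e := by
      rw [← Multiset.count_pos, Multiset.count_erase_self]; omega
    obtain ⟨e1, e2, e3, e4⟩ := erase2 μ e e heμ hb
    have key : P (d - e) ((μ.erase e).erase e) := by
      apply ih (Multiset.card ((μ.erase e).erase e)) (by omega) ((μ.erase e).erase e) (d - e)
        (fun x hx => hpos x (e4 x hx)) ?_ (by omega) rfl
      intro x hx
      by_cases hxe : x = e
      · subst hxe
        rw [count_erase2_self]
        obtain ⟨k, hk⟩ := hev x hx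
        exact ⟨k - 1, by omega⟩
      · rw [count_erase2_of_ne μ e e x hxe hxe]
        exact hev x hx
    have h4 := hadd e (d - e) {e, e} ((μ.erase e).erase e) (hpair e) key
    rw [← e1] at h4
    have h3 : e + (d - e) = d := by omega
    rwa [h3] at h4
  · obtain ⟨a, ha⟩ := Multiset.exists_mem_of_ne_zero hμ
    have hao : ¬ Even a := fun h => hex ⟨a, ha, h⟩
    obtain ⟨t₁, ht₁⟩ := Nat.not_even_iff_odd.1 hao
    have hne : μ.erase a ≠ 0 := by
      intro h0'
      have h5 : μ = {a} := by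
        rw [← Multiset.cons_erase ha, h0']; rfl
      rw [h5, Multiset.sum_singleton] at hsum
      omega
    obtain ⟨b, hb⟩ := Multiset.exists_mem_of_ne_zero hne
    have hbμ : b ∈ μ := Multiset.mem_of_mem_erase hb
    have hbo : ¬ Even b := fun h => hex ⟨b, hbμ, h⟩
    obtain ⟨t₂, ht₂⟩ := Nat.not_even_iff_odd.1 hbo
    obtain ⟨e1, e2, e3, e4⟩ := erase2 μ a b ha hb
    have key : P (d - t₁ - t₂ - 1) ((μ.erase a).erase b) := by
      apply ih (Multiset.card ((μ.erase a).erase b)) (by omega) ((μ.erase a).erase b) _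
        (fun x hx => hpos x (e4 x hx)) ?_ (by omega) rfl
      intro x hx
      have hxa : x ≠ a := by rintro rfl; exact hao hx
      have hxb : x ≠ b := by rintro rfl; exact hbo hx
      rw [count_erase2_of_ne μ a b x hxa hxb]
      exact hev x hx
    have h4 := hadd _ _ _ ((μ.erase a).erase b) (hodd t₁ t₂) key
    rw [← ht₁, ← ht₂, ← e1] at h4
    have h3 : t₁ + t₂ + 1 + (d - t₁ - t₂ - 1) = d := by omega
    rwa [h3] at h4

theorem comb_odd (P Po : ℕ → Multiset ℕ → Prop) (h0 : P 0 0) (hadd : ∀ s₁ s₂ μ₁ μ₂, P s₁ μ₁ → P s₂ μ₂ → P (s₁ + s₂) (μ₁ + μ₂)) (hpair : ∀ e, P e {e, e}) (hodd : ∀ t₁ t₂, P (t₁ + t₂ + 1) {2 * t₁ + 1, 2 * t₂ + 1}) (hsingle : ∀ t, Po t {2 * t + 1}) (hadd' : ∀ s₁ s₂ μ₁ μ₂, P s₁ μ₁ → Po s₂ μ₂ → Po (s₁ + s₂) (μ₁ + μ₂)) (μ : Multiset ℕ) (d : ℕ) (hpos : ∀ e ∈ μ, 0 < e) (hev : ∀ e : ℕ, Even e → Even (μ.count e)) (hsum : μ.sum = 2 * d + 1) : Po d μ := by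
  obtain ⟨n, hn⟩ : ∃ n, Multiset.card μ = n := ⟨_, rfl⟩
  induction n using Nat.strong_induction_on generalizing μ d with
  | _ n ih =>
  by_cases hμ : μ = 0
  · subst hμ
    rw [Multiset.sum_zero] at hsum; omega
  by_cases hex : ∃ e ∈ μ, Even e
  · obtain ⟨e, heμ, hee⟩ := hex
    have hc : 2 ≤ μ.count e := by
      have h1 := hev e hee
      have h2 : 0 < μ.count e := Multiset.count_pos.2 heμ
      obtain ⟨k, hk⟩ := h1
      omega
    have hb : e ∈ μ.erase e := by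
      rw [← Multiset.count_pos, Multiset.count_erase_self]; omega
    obtain ⟨e1, e2, e3, e4⟩ := erase2 μ e e heμ hb
    have key : Po (d - e) ((μ.erase e).erase e) := by
      apply ih (Multiset.card ((μ.erase e).erase e)) (by omega) ((μ.erase e).erase e) (d - e)
        (fun x hx => hpos x (e4 x hx)) ?_ (by omega) rfl
      intro x hx
      by_cases hxe : x = e
      · subst hxe
        rw [count_erase2_self]
        obtain ⟨k, hk⟩ := hev x hx
        exact ⟨k - 1, by omega⟩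
      · rw [count_erase2_of_ne μ e e x hxe hxe]
        exact hev x hx
    have h4 := hadd' e (d - e) {e, e} ((μ.erase e).erase e) (hpair e) key
    rw [← e1] at h4
    have h3 : e + (d - e) = d := by omega
    rwa [h3] at h4
  · obtain ⟨a, ha⟩ := Multiset.exists_mem_of_ne_zero hμ
    have hao : ¬ Even a := fun h => hex ⟨a, ha, h⟩
    obtain ⟨t₁, ht₁⟩ := Nat.not_even_iff_odd.1 hao
    by_cases hne : μ.erase a = 0
    · have h5 : μ = {a} := by
        rw [← Multiset.cons_erase ha, hne]; rfl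
      rw [h5, Multiset.sum_singleton] at hsum
      have h6 : d = t₁ := by omega
      rw [h5, h6, ht₁]
      exact hsingle t₁
    obtain ⟨b, hb⟩ := Multiset.exists_mem_of_ne_zero hne
    have hbμ : b ∈ μ := Multiset.mem_of_mem_erase hb
    have hbo : ¬ Even b := fun h => hex ⟨b, hbμ, h⟩
    obtain ⟨t₂, ht₂⟩ := Nat.not_even_iff_odd.1 hbo
    obtain ⟨e1, e2, e3, e4⟩ := erase2 μ a b ha hb
    have key : Po (d - t₁ - t₂ - 1) ((μ.erase a).erase b) := by
      apply ih (Multiset.card ((μ.erase a).erase b)) (by omega) ((μ.erase a).erase b) _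
        (fun x hx => hpos x (e4 x hx)) ?_ (by omega) rfl
      intro x hx
      have hxa : x ≠ a := by rintro rfl; exact hao hx
      have hxb : x ≠ b := by rintro rfl; exact hbo hx
      rw [count_erase2_of_ne μ a b x hxa hxb]
      exact hev x hx
    have h4 := hadd' _ _ _ ((μ.erase a).erase b) (hodd t₁ t₂) key
    rw [← ht₁, ← ht₂, ← e1] at h4
    have h3 : t₁ + t₂ + 1 + (d - t₁ - t₂ - 1) = d := by omega
    rwa [h3] at h4

theorem min_count (μ : Multiset ℕ) (e : ℕ) (he : 0 < e) : 2 * (μ.map (fun s => min e s)).sum = μ.count e + (μ.map (fun s => min (e - 1) s)).sum + (μ.map (fun s => min (e + 1) s)).sum := by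
  induction μ using Multiset.induction with
  | empty => simp
  | cons a s ih =>
    simp only [Multiset.map_cons, Multiset.sum_cons, Multiset.count_cons]
    split_ifs with h <;> omega

end Cfsg.Agent.H37.JtK

example (P : ℕ → Multiset ℕ → Prop) (h0 : P 0 0) (hadd : ∀ s₁ s₂ μ₁ μ₂, P s₁ μ₁ → P s₂ μ₂ → P (s₁ + s₂) (μ₁ + μ₂)) (hpair : ∀ e, P e {e, e}) (hodd : ∀ t₁ t₂, P (t₁ + t₂ + 1) {2 * t₁ + 1, 2 * t₂ + 1}) (μ : Multiset ℕ) (d : ℕ) (hpos : ∀ e ∈ μ, 0 < e) (hev : ∀ e : ℕ, Even e → Even (μ.count e)) (hsum : μ.sum = 2 * d) : P d μ :=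
  Cfsg.Agent.H37.JtK.comb_plus P h0 hadd hpair hodd μ d hpos hev hsum

example (P Po : ℕ → Multiset ℕ → Prop) (h0 : P 0 0) (hadd : ∀ s₁ s₂ μ₁ μ₂, P s₁ μ₁ → P s₂ μ₂ → P (s₁ + s₂) (μ₁ + μ₂)) (hpair : ∀ e, P e {e, e}) (hodd : ∀ t₁ t₂, P (t₁ + t₂ + 1) {2 * t₁ + 1, 2 * t₂ + 1}) (hsingle : ∀ t, Po t {2 * t + 1}) (hadd' : ∀ s₁ s₂ μ₁ μ₂, P s₁ μ₁ → Po s₂ μ₂ → Po (s₁ + s₂) (μ₁ + μ₂)) (μ : Multiset ℕ) (d : ℕ) (hpos : ∀ e ∈ μ, 0 < e) (hev : ∀ e : ℕ, Even e → Even (μ.count e)) (hsum : μ.sum = 2 * d + 1) : Po d μ :=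
  Cfsg.Agent.H37.JtK.comb_odd P Po h0 hadd hpair hodd hsingle hadd' μ d hpos hev hsum

example (μ : Multiset ℕ) (e : ℕ) (he : 0 < e) : 2 * (μ.map (fun s => min e s)).sum = μ.count e + (μ.map (fun s => min (e - 1) s)).sum + (μ.map (fun s => min (e + 1) s)).sum :=
  Cfsg.Agent.H37.JtK.min_count μ e he
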