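import Mathlib
import Cfsg.Agent.H37.JtK

set_option autoImplicit false

/-! Combinatorics for the minus-type variant (team piece JT-MIN2 for S5994). -/

namespace Cfsg.Agent.H37.JtK

theorem even_sum_of_all_even (ν : Multiset ℕ) (h : ∀ e ∈ ν, Even e) : Even ν.sum := by
  induction ν using Multiset.induction with
  | empty => simp
  | cons a s ih =>
    rw [Multiset.sum_cons]
    exact (h a (Multiset.mem_cons_self a s)).add
      (ih (fun e he => h e (Multiset.mem_cons_of_mem he)))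

theorem comb_minus (P Pm : ℕ → Multiset ℕ → Prop) (h0 : P 0 0)
    (hadd : ∀ s₁ s₂ μ₁ μ₂, P s₁ μ₁ → P s₂ μ₂ → P (s₁ + s₂) (μ₁ + μ₂))
    (hpair : ∀ e, P e {e, e}) (hodd : ∀ t₁ t₂, P (t₁ + t₂ + 1) {2 * t₁ + 1, 2 * t₂ + 1})
    (hmpair : ∀ t₁ t₂, Pm (t₁ + t₂) {2 * t₁ + 1, 2 * t₂ + 1})
    (hmadd : ∀ s₁ s₂ μ₁ μ₂, P s₁ μ₁ → Pm s₂ μ₂ → Pm (s₁ + s₂) (μ₁ + μ₂))
    (μ : Multiset ℕ) (s : ℕ) (hpos : ∀ e ∈ μ, 0 < e)
    (hev : ∀ e : ℕ, Even e → Even (μ.count e)) (hsum : μ.sum = 2 * (s + 1))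
    (hoddpart : ∃ e ∈ μ, Odd e) : Pm s μ := by
  obtain ⟨a, ha, hao⟩ := hoddpart
  obtain ⟨t₁, ht₁⟩ := hao
  have hsa : a + (μ.erase a).sum = μ.sum := Multiset.sum_erase ha
  have hb : ∃ b ∈ μ.erase a, Odd b := by
    by_contra hcon
    have hall : ∀ e ∈ μ.erase a, Even e := fun e he => by
      by_contra h
      exact hcon ⟨e, he, Nat.not_even_iff_odd.1 h⟩
    obtain ⟨k, hk⟩ := even_sum_of_all_even _ hall
    omega
  obtain ⟨b, hb, hbo⟩ := hb
  obtain ⟨t₂, ht₂⟩ := hbo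
  obtain ⟨e1, e2, e3, e4⟩ := erase2 μ a b ha hb
  have key : P (s - t₁ - t₂) ((μ.erase a).erase b) := by
    apply comb_plus P h0 hadd hpair hodd _ _ (fun x hx => hpos x (e4 x hx)) ?_ (by omega)
    intro x hx
    have hxa : x ≠ a := by rintro rfl; obtain ⟨r, hr⟩ := hx; omega
    have hxb : x ≠ b := by rintro rfl; obtain ⟨r, hr⟩ := hx; omega
    rw [count_erase2_of_ne μ a b x hxa hxb]
    exact hev x hx
  have h4 := hmadd _ _ _ _ key (hmpair t₁ t₂)
  rw [← ht₁, ← ht₂, add_comm ((μ.erase a).erase b), ← e1] at h4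
  have h3 : s - t₁ - t₂ + (t₁ + t₂) = s := by omega
  rwa [h3] at h4

theorem sub_of_all_even (p m n : ℕ) (hp : Odd p) (hn : 0 < n) (hme : Even m)
    (main : ∀ μ : Multiset ℕ, (∀ e ∈ μ, 0 < e ∧ e ≤ p) →
      (∀ e : ℕ, Even e → Even (μ.count e)) → μ.sum = n → (∃ e ∈ μ, Odd e) →
      ∃ ν : Multiset ℕ, ν ≤ μ ∧ ν.sum = m ∧ ∀ e : ℕ, Even e → Even (ν.count e))
    (μ : Multiset ℕ) (hμ : ∀ e ∈ μ, 0 < e ∧ e ≤ p)
    (hev : ∀ e : ℕ, Even e → Even (μ.count e)) (hsum : μ.sum = n) :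
    ∃ ν : Multiset ℕ, ν ≤ μ ∧ ν.sum = m ∧ ∀ e : ℕ, Even e → Even (ν.count e) := by
  by_cases hodd : ∃ e ∈ μ, Odd e
  · exact main μ hμ hev hsum hodd
  have hall : ∀ x ∈ μ, Even x := fun x hx => by
    by_contra h
    exact hodd ⟨x, hx, Nat.not_even_iff_odd.1 h⟩
  have hμ0 : μ ≠ 0 := by
    rintro rfl
    rw [Multiset.sum_zero] at hsum
    omega
  obtain ⟨e, he⟩ := Multiset.exists_mem_of_ne_zero hμ0
  have hee : Even e := hall e he
  obtain ⟨hepos, hep⟩ := hμ e he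
  obtain ⟨r, hr⟩ := hee
  obtain ⟨j, hj⟩ := hp
  have he2 : 2 ≤ e := by omega
  have he1p : e + 1 ≤ p := by omega
  have hc : 2 ≤ μ.count e := by
    obtain ⟨k, hk⟩ := hev e ⟨r, hr⟩
    have h2 : 0 < μ.count e := Multiset.count_pos.2 he
    omega
  have hb : e ∈ μ.erase e := by
    rw [← Multiset.count_pos, Multiset.count_erase_self]; omega
  obtain ⟨e1, e2, e3, e4⟩ := erase2 μ e e he hb
  obtain ⟨μ₀, hμ₀⟩ : ∃ μ₀, μ₀ = (μ.erase e).erase e := ⟨_, rfl⟩
  rw [← hμ₀] at e1 e2 e3 e4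
  have hodd1 : ¬ Even (e + 1) := by rintro ⟨k, hk⟩; omega
  have hodd2 : ¬ Even (e - 1) := by rintro ⟨k, hk⟩; omega
  have hne12 : e + 1 ≠ e - 1 := by omega
  have h1μ₀ : e + 1 ∉ μ₀ := fun h => hodd1 (hall _ (e4 _ h))
  have h2μ₀ : e - 1 ∉ μ₀ := fun h => hodd2 (hall _ (e4 _ h))
  have hmem2 : ∀ x, x ∈ ({e + 1, e - 1} : Multiset ℕ) ↔ x = e + 1 ∨ x = e - 1 := by
    intro x
    rw [Multiset.insert_eq_cons, Multiset.mem_cons, Multiset.mem_singleton]
  have hz2 : ∀ x, x ≠ e + 1 → x ≠ e - 1 → ({e + 1, e - 1} : Multiset ℕ).count x = 0 := by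
    intro x hx1 hx2
    rw [Multiset.count_eq_zero, hmem2]
    rintro (h | h)
    · exact hx1 h
    · exact hx2 h
  have hA : ∀ x ∈ μ₀ + {e + 1, e - 1}, 0 < x ∧ x ≤ p := by
    intro x hx
    rw [Multiset.mem_add] at hx
    rcases hx with hx | hx
    · exact hμ x (e4 x hx)
    · rw [hmem2] at hx
      rcases hx with rfl | rfl <;> omega
  have hB : ∀ x : ℕ, Even x → Even ((μ₀ + {e + 1, e - 1}).count x) := by
    intro x hx
    have hx1 : x ≠ e + 1 := by rintro rfl; exact hodd1 hx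
    have hx2 : x ≠ e - 1 := by rintro rfl; exact hodd2 hx
    rw [Multiset.count_add, hz2 x hx1 hx2, add_zero, hμ₀]
    by_cases hxe : x = e
    · rw [hxe, count_erase2_self]
      obtain ⟨k, hk⟩ := hev e ⟨r, hr⟩
      exact ⟨k - 1, by omega⟩
    · rw [count_erase2_of_ne μ e e x hxe hxe]
      exact hev x hx
  have hC : (μ₀ + {e + 1, e - 1}).sum = n := by
    rw [Multiset.sum_add, Multiset.insert_eq_cons, Multiset.sum_cons, Multiset.sum_singleton]
    omega
  have hD : ∃ x ∈ μ₀ + {e + 1, e - 1}, Odd x := by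
    refine ⟨e + 1, ?_, Nat.not_even_iff_odd.1 hodd1⟩
    rw [Multiset.mem_add, hmem2]
    exact Or.inr (Or.inl rfl)
  obtain ⟨ν', hle, hs', hev'⟩ := main _ hA hB hC hD
  have hcnt1 : ν'.count (e + 1) ≤ 1 := by
    have h5 := Multiset.count_le_of_le (e + 1) hle
    rw [Multiset.count_add, Multiset.count_eq_zero_of_notMem h1μ₀] at h5
    have h6 : ({e + 1, e - 1} : Multiset ℕ).count (e + 1) = 1 := by
      rw [Multiset.insert_eq_cons, Multiset.count_cons_self, Multiset.count_singleton,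
        if_neg hne12]
    omega
  have hcnt2 : ν'.count (e - 1) ≤ 1 := by
    have h5 := Multiset.count_le_of_le (e - 1) hle
    rw [Multiset.count_add, Multiset.count_eq_zero_of_notMem h2μ₀] at h5
    have h6 : ({e + 1, e - 1} : Multiset ℕ).count (e - 1) = 1 := by
      rw [Multiset.insert_eq_cons, Multiset.count_cons_of_ne hne12.symm,
        Multiset.count_singleton_self]
    omega
  -- parity contradiction when exactly one of the two odd parts occurs
  have hpar : ∀ y, (y = e + 1 ∨ y = e - 1) → y ∈ ν' →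
      (∀ y', (y' = e + 1 ∨ y' = e - 1) → y' ≠ y → y' ∉ ν') → False := by
    intro y hy hyν hother
    have hsplit : y + (ν'.erase y).sum = ν'.sum := Multiset.sum_erase hyν
    have hycnt : ν'.count y ≤ 1 := by
      rcases hy with rfl | rfl
      · exact hcnt1
      · exact hcnt2
    have hallev : ∀ x ∈ ν'.erase y, Even x := by
      intro x hx
      have hxν : x ∈ ν' := Multiset.mem_of_mem_erase hx
      have hxμ' : x ∈ μ₀ + {e + 1, e - 1} := Multiset.mem_of_le hle hxν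
      rw [Multiset.mem_add, hmem2] at hxμ'
      rcases hxμ' with h | h
      · exact hall x (e4 x h)
      · exfalso
        by_cases hxy : x = y
        · have h7 := Multiset.count_pos.2 hx
          rw [hxy, Multiset.count_erase_self] at h7
          omega
        · exact hother x h hxy hxν
    obtain ⟨k, hk⟩ := even_sum_of_all_even _ hallev
    obtain ⟨k', hk'⟩ := hme
    rcases hy with rfl | rfl <;> omega
  by_cases h1 : e + 1 ∈ ν'
  · by_cases h2 : e - 1 ∈ ν'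
    · have h2' : e - 1 ∈ ν'.erase (e + 1) := (Multiset.mem_erase_of_ne hne12.symm).2 h2
      obtain ⟨f1, f2, f3, f4⟩ := erase2 ν' (e + 1) (e - 1) h1 h2'
      obtain ⟨ν'', hν''⟩ : ∃ ν'', ν'' = (ν'.erase (e + 1)).erase (e - 1) := ⟨_, rfl⟩
      rw [← hν''] at f1 f2 f3 f4
      have hle'' : ν'' ≤ μ₀ := by
        rw [f1, add_comm] at hle
        exact Multiset.le_of_add_le_add_right hle
      refine ⟨ν'' + {e, e}, ?_, ?_, ?_⟩
      · rw [e1, add_comm ({e, e} : Multiset ℕ)]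
        exact Multiset.add_le_add_right hle''
      · rw [Multiset.sum_add, Multiset.insert_eq_cons, Multiset.sum_cons, Multiset.sum_singleton]
        omega
      · intro x hx
        have hx1 : x ≠ e + 1 := by rintro rfl; exact hodd1 hx
        have hx2 : x ≠ e - 1 := by rintro rfl; exact hodd2 hx
        rw [Multiset.count_add, hν'', count_erase2_of_ne ν' (e + 1) (e - 1) x hx1 hx2]
        have h6 := hev' x hx
        by_cases hxe : x = e
        · have h7 : ({e, e} : Multiset ℕ).count x = 2 := by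
            rw [hxe, Multiset.insert_eq_cons, Multiset.count_cons_self,
              Multiset.count_singleton_self]
          rw [h7]
          exact h6.add (by decide)
        · have h7 : ({e, e} : Multiset ℕ).count x = 0 := by
            rw [Multiset.count_eq_zero, Multiset.insert_eq_cons, Multiset.mem_cons,
              Multiset.mem_singleton]
            rintro (h | h) <;> exact hxe h
          rw [h7, add_zero]
          exact h6
    · exfalso
      refine hpar (e + 1) (Or.inl rfl) h1 ?_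
      intro y' hy' hne
      rcases hy' with rfl | rfl
      · exact absurd rfl hne
      · exact h2
  · by_cases h2 : e - 1 ∈ ν'
    · exfalso
      refine hpar (e - 1) (Or.inr rfl) h2 ?_
      intro y' hy' hne
      rcases hy' with rfl | rfl
      · exact h1
      · exact absurd rfl hne
    · refine ⟨ν', ?_, hs', hev'⟩
      have h8 : ν' ≤ μ₀ := by
        rw [Multiset.le_iff_count]
        intro x
        have h9 := Multiset.count_le_of_le x hle
        rw [Multiset.count_add] at h9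
        by_cases hx1 : x = e + 1
        · rw [hx1, Multiset.count_eq_zero_of_notMem h1]; exact Nat.zero_le _
        by_cases hx2 : x = e - 1
        · rw [hx2, Multiset.count_eq_zero_of_notMem h2]; exact Nat.zero_le _
        rw [hz2 x hx1 hx2] at h9
        omega
      exact le_trans h8 (by rw [e1]; exact Multiset.le_add_left _ _)

end Cfsg.Agent.H37.JtK

example (P Pm : ℕ → Multiset ℕ → Prop) (h0 : P 0 0)
    (hadd : ∀ s₁ s₂ μ₁ μ₂, P s₁ μ₁ → P s₂ μ₂ → P (s₁ + s₂) (μ₁ + μ₂))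
    (hpair : ∀ e, P e {e, e}) (hodd : ∀ t₁ t₂, P (t₁ + t₂ + 1) {2 * t₁ + 1, 2 * t₂ + 1})
    (hmpair : ∀ t₁ t₂, Pm (t₁ + t₂) {2 * t₁ + 1, 2 * t₂ + 1})
    (hmadd : ∀ s₁ s₂ μ₁ μ₂, P s₁ μ₁ → Pm s₂ μ₂ → Pm (s₁ + s₂) (μ₁ + μ₂))
    (μ : Multiset ℕ) (s : ℕ) (hpos : ∀ e ∈ μ, 0 < e)
    (hev : ∀ e : ℕ, Even e → Even (μ.count e)) (hsum : μ.sum = 2 * (s + 1))
    (hoddpart : ∃ e ∈ μ, Odd e) : Pm s μ :=
  Cfsg.Agent.H37.JtK.comb_minus P Pm h0 hadd hpair hodd hmpair hmadd μ s hpos hev hsum hoddpart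

example (p m n : ℕ) (hp : Odd p) (hn : 0 < n) (hme : Even m)
    (main : ∀ μ : Multiset ℕ, (∀ e ∈ μ, 0 < e ∧ e ≤ p) →
      (∀ e : ℕ, Even e → Even (μ.count e)) → μ.sum = n → (∃ e ∈ μ, Odd e) →
      ∃ ν : Multiset ℕ, ν ≤ μ ∧ ν.sum = m ∧ ∀ e : ℕ, Even e → Even (ν.count e))
    (μ : Multiset ℕ) (hμ : ∀ e ∈ μ, 0 < e ∧ e ≤ p)
    (hev : ∀ e : ℕ, Even e → Even (μ.count e)) (hsum : μ.sum = n) :
    ∃ ν : Multiset ℕ, ν ≤ μ ∧ ν.sum = m ∧ ∀ e : ℕ, Even e → Even (ν.count e) :=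
  Cfsg.Agent.H37.JtK.sub_of_all_even p m n hp hn hme main μ hμ hev hsum
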