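import Cfsg.Agent.H94.JxPFacts
import Cfsg.Agent.H97.JyPFacts

/-!
# S2953 (kill sub-project JX): the P-side input of the KB glue (helper37)

From `Base S M T K L`, with `D = O₂(K ⊔ T)`: the product of two elements of `T` outside `D`
lies in `D`; an element of `T` outside `D` inverts `K` modulo `D`; and `K` has an element
`k` with `k ^ 3 = 1` outside `M`.
-/

set_option autoImplicit false
open Cfsg

universe u

namespace Cfsg.Agent.H37.Jx

open Cfsg.Agent.H64.Jz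

/-- **P-SIDE** (the statement `StPSide` of the KB glue, written out). -/
theorem pside : ∀ {G : Type u} [Group G] [Finite G] (S : Sylow 2 G) (M T K L : Subgroup G),
    Cfsg.Agent.H64.Jz.Base S M T K L →
    (∀ a ∈ T, ∀ b ∈ T, a ∉ pCoreOf 2 (K ⊔ T) → b ∉ pCoreOf 2 (K ⊔ T) →
        a * b ∈ pCoreOf 2 (K ⊔ T)) ∧
    (∀ x ∈ T, x ∉ pCoreOf 2 (K ⊔ T) → ∀ g ∈ K, x * g * x⁻¹ * g ∈ pCoreOf 2 (K ⊔ T)) ∧
    ∃ k ∈ K, k ^ 3 = 1 ∧ k ∉ M := by
  intro G _ _ S M T K L hB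
  obtain ⟨hDT, -, hPN, -, -, hX, -⟩ := Cfsg.Agent.H94.Jx.pfacts S M T K L hB
  obtain ⟨hZN, hO, hM, hMJ, hT, hTS, hK, hLmax, hKJL⟩ := hB
  obtain ⟨hchar, hsolv, hZ⟩ := hZN
  have hT2 : IsPGroup 2 ↥T := hT.1.1
  have hTM : T ≤ M := hT.1.2.2.1
  have hKM : ¬ K ≤ M := hK.2.1
  obtain ⟨hgen, -, hrel3, -, -, -⟩ := hK.1.1
  have hTP : T ≤ K ⊔ T := le_sup_right
  have hKP : K ≤ K ⊔ T := le_sup_left
  have hKn : (K.subgroupOf (K ⊔ T)).Normal :=
    Cfsg.Agent.S2952.result hchar hsolv hZ hO S M hM hMJ T hT K hK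
  have hPK : K ⊔ T ≤ Subgroup.normalizer (K : Set G) :=
    (Subgroup.normal_subgroupOf_iff_le_normalizer hKP).mp hKn
  have hTK : T ≤ Subgroup.normalizer (K : Set G) := hTP.trans hPK
  have hOK : pCoreOf 2 K ≤ K := Subgroup.map_subtype_le _
  have hOnK : K ≤ Subgroup.normalizer (pCoreOf 2 K : Set G) :=
    Cfsg.Agent.H31.X.H54.le_normalizer_pCoreOf K
  have hOnT : T ≤ Subgroup.normalizer (pCoreOf 2 K : Set G) :=
    hTK.trans (Cfsg.Agent.H31.X.H54.normalizer_le_normalizer_pCoreOf K)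
  have hOD : pCoreOf 2 K ≤ pCoreOf 2 (K ⊔ T) :=
    Cfsg.Agent.H31.X.H54.le_pCoreOf (hOK.trans hKP) (sup_le hOnK hOnT)
      (Cfsg.Agent.H31.X.H54.isPGroup_pCoreOf K)
  have hOT : pCoreOf 2 K ≤ T := hOD.trans hDT
  obtain ⟨D', k, hD'T, hOD', hKD', hTD', hprod', hinv', -, -, hkK, hkO, hk3, -, hNd⟩ :=
    Cfsg.Agent.H97.Jy.pfacts K T (pCoreOf 2 K) hT2 hTK hOK hOT hrel3 hOnK hOnT hgen
  -- an element of `T` with trivial cube is trivial
  have hk1 : k ∉ T := by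
    intro hkT
    have hdvd : orderOf k ∣ 3 := orderOf_dvd_of_pow_eq_one hk3
    have hodd : Odd (orderOf k) := by
      rcases (Nat.dvd_prime Nat.prime_three).mp hdvd with h | h
      · rw [h]; exact odd_one
      · rw [h]; exact ⟨1, by norm_num⟩
    have h1 : k = 1 := Cfsg.Agent.H97.Jy.eq_one_of_odd_of_two hT2 hkT hodd
    exact hkO (h1 ▸ one_mem _)
  have hD'D : D' ≤ pCoreOf 2 (K ⊔ T) :=
    Cfsg.Agent.H31.X.H54.le_pCoreOf (hD'T.trans hTP) (sup_le hKD' hTD') (hT2.to_le hD'T)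
  have hDD' : pCoreOf 2 (K ⊔ T) ≤ D' := by
    rcases hNd (pCoreOf 2 (K ⊔ T)) (Subgroup.map_subtype_le _) hPN with h | h
    · exact h
    · exact absurd (hDT (h hkK)) hk1
  have hEq : D' = pCoreOf 2 (K ⊔ T) := le_antisymm hD'D hDD'
  rw [← hEq]
  refine ⟨hprod', fun x hx hxD g hg => hOD' (hinv' x hx hxD g hg), k, hkK, hk3, ?_⟩
  intro hkM
  exact hk1 (hX M hTM hKM ⟨hKP hkK, hkM⟩)

end Cfsg.Agent.H37.Jx

#print axioms Cfsg.Agent.H37.Jx.pside
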