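import Mathlib
import Cfsg.Agent.H64.JzDefs
import Cfsg.Agent.H58.Q46.Final
import Cfsg.Agent.S2950
import Cfsg.Agent.H26.JzAEq
import Cfsg.Agent.Helper55.UqBase
import Cfsg.Agent.H14.Thompson
import Cfsg.Agent.H63.SnIfV
import Cfsg.Agent.H59.SoConj
import Cfsg.Agent.H37.SqCnt

/-!
# JZ-SC (piece of S2951 / S2952, helper64's project)

`T = S` and a second `J(S)`-component `K'` not inside `L`: clause 1 or clause 2 holds.
-/

set_option autoImplicit false
open Cfsg

namespace Cfsg.Agent.H37.Jz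

open Cfsg.Agent.H64.Jz
open scoped commutatorElement

universe u

section aux

variable {G : Type u} [Group G]

/-- The centralizer of an element normalizes the cyclic group it generates. -/
theorem centralizer_singleton_le_normalizer_zpowers (y : G) :
    Subgroup.centralizer ({y} : Set G) ≤ Subgroup.normalizer (Subgroup.zpowers y : Set G) := by
  intro g hg
  have hgy : Commute g y := (Subgroup.mem_centralizer_iff.mp hg y (Set.mem_singleton y)).symm
  have hc : ∀ h ∈ Subgroup.zpowers y, g * h * g⁻¹ = h := by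
    intro h hh
    obtain ⟨k, rfl⟩ := Subgroup.mem_zpowers_iff.mp hh
    rw [(hgy.zpow_right k).eq, mul_inv_cancel_right]
  have hc' : ∀ h ∈ Subgroup.zpowers y, g⁻¹ * h * g = h := by
    intro h hh
    have h1 := hc h hh
    calc g⁻¹ * h * g = g⁻¹ * (g * h * g⁻¹) * g := by rw [h1]
      _ = h := by group
  rw [Subgroup.mem_normalizer_iff]
  intro h
  constructor
  · intro hh
    have h1 := hc h hh
    show g * h * g⁻¹ ∈ Subgroup.zpowers y
    rw [h1]
    exact hh
  · intro hh
    have h3 : g⁻¹ * (g * h * g⁻¹) * g = h := by group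
    have h4 := hc' _ hh
    show h ∈ Subgroup.zpowers y
    rw [← h3, h4]
    exact hh

/-- The join of two subgroups commuting elementwise has at most the product of the orders. -/
theorem card_sup_le_mul [Finite G] (P Q : Subgroup G)
    (hc : ∀ p ∈ P, ∀ q ∈ Q, p * q = q * p) :
    Nat.card ↥(P ⊔ Q) ≤ Nat.card ↥P * Nat.card ↥Q := by
  rw [← Nat.card_prod]
  apply Nat.card_le_card_of_surjective (fun p : ↥P × ↥Q =>
    (⟨(p.1 : G) * (p.2 : G), Subgroup.mul_mem _ (le_sup_left (a := P) (b := Q) p.1.2)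
      (le_sup_right (a := P) (b := Q) p.2.2)⟩ : ↥(P ⊔ Q)))
  rintro ⟨x, hx⟩
  obtain ⟨p, hp, q, hq, rfl⟩ := Cfsg.Agent.H37.Sq.mem_sup_of_commute P Q hc hx
  exact ⟨(⟨p, hp⟩, ⟨q, hq⟩), rfl⟩

/-- A finite subset of a subgroup with as many elements as the subgroup is the whole subgroup. -/
theorem mem_finset_of_card [Finite G] (H : Subgroup G) (F : Finset G)
    (hF : ∀ x ∈ F, x ∈ H) (hc : Nat.card ↥H ≤ F.card) {v : G} (hv : v ∈ H) : v ∈ F := by
  have h1 : (↑F : Set G) ⊆ (H : Set G) := fun x hx => hF x (Finset.mem_coe.mp hx)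
  have h2 : (H : Set G).ncard ≤ (↑F : Set G).ncard := by
    rw [Set.ncard_coe_finset, ← Nat.card_coe_set_eq]
    exact hc
  have h3 := Set.eq_of_subset_of_ncard_le h1 h2 (Set.toFinite _)
  have h4 : v ∈ (↑F : Set G) := by
    rw [h3]
    exact hv
  exact Finset.mem_coe.mp h4

/-- A nontrivial finite 2-subgroup has a nontrivial element in `Ω₁(Z(S))`. -/
theorem exists_mem_omegaCenterOf [Finite G] (S : Subgroup G) (hS2 : IsPGroup 2 ↥S) (hS1 : S ≠ ⊥) :
    ∃ z ∈ omegaCenterOf S, z ≠ 1 := by
  have hnt : Nontrivial ↥S := (Subgroup.nontrivial_iff_ne_bot S).mpr hS1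
  have hcnt : Nontrivial ↥(Subgroup.center ↥S) := hS2.center_nontrivial
  have hcP : IsPGroup 2 ↥(Subgroup.center ↥S) := hS2.to_subgroup _
  obtain ⟨n, hn⟩ := IsPGroup.iff_card.mp hcP
  have hn0 : n ≠ 0 := by
    intro h0
    rw [h0, pow_zero] at hn
    have h1 : 1 < Nat.card ↥(Subgroup.center ↥S) := Finite.one_lt_card
    omega
  have hdvd : 2 ∣ Nat.card ↥(Subgroup.center ↥S) := by
    rw [hn]
    exact dvd_pow_self 2 hn0
  obtain ⟨c, hc⟩ := exists_prime_orderOf_dvd_card' 2 hdvd
  have hc2 : c ^ 2 = 1 := by rw [← hc]; exact pow_orderOf_eq_one c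
  have hc1 : c ≠ 1 := by
    intro h
    rw [h, orderOf_one] at hc
    omega
  refine ⟨((c : ↥S) : G), ?_, ?_⟩
  · apply Cfsg.Agent.H63.Sn.omegaCenterOf_mem S (c : ↥S).2
    · rw [Subgroup.mem_centralizer_iff]
      intro h hh
      have h1 := Subgroup.mem_center_iff.mp c.2 ⟨h, hh⟩
      exact congrArg Subtype.val h1
    · have h1 : (((c ^ 2 : ↥(Subgroup.center ↥S)) : ↥S) : G) = 1 := by rw [hc2]; rfl
      exact_mod_cast h1
  · intro h
    apply hc1
    apply Subtype.ext
    apply Subtype.ext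
    exact h

end aux

/-- JZ-SC (helper64's S2951 / S2952 project). -/
theorem sc : StSC.{u} := by
  classical
  intro G _ _ S M T K L hB hTS hK'
  subst hTS
  obtain ⟨K', hK'J, hK'L⟩ := hK'
  obtain ⟨hZN, hO, hM, hMJ, hS, hSS, hK, hLmax, hKL⟩ := hB
  obtain ⟨hK0, hKM, hKO⟩ := hK
  have hKJ : IsJComponent (S : Subgroup G) K := hK0.1
  have hS2 : IsPGroup 2 ↥(S : Subgroup G) := S.isPGroup'
  have hS1 : (S : Subgroup G) ≠ ⊥ := hS.1.2.1
  -- uniqueness of `L` and `S ≤ L`
  obtain ⟨L₀, hL₀max, hKL₀, hU, -, hSyl₀⟩ := Cfsg.Agent.S2950.result hZN.1 hZN.2.1 hZN.2.2 hO S M hM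
    hMJ (S : Subgroup G) hS K ⟨hK0, hKM, hKO⟩
  have hLL₀ : L = L₀ := hU L hLmax hKL
  have hSL : (S : Subgroup G) ≤ L := by rw [hLL₀]; exact hSyl₀.1
  -- the two splittings of `Z₀`
  have h46 := Cfsg.Agent.H58.Q46.s2946 hZN.1 hZN.2.1 hZN.2.2 (S : Subgroup G) hS2 hS1 K hKJ _ rfl
  have h46' := Cfsg.Agent.H58.Q46.s2946 hZN.1 hZN.2.1 hZN.2.2 (S : Subgroup G) hS2 hS1 K' hK'J _ rfl
  unfold Concl
  obtain ⟨J, hJdef⟩ : ∃ J : Subgroup G, J = thompsonSubgroupOf 2 (S : Subgroup G) := ⟨_, rfl⟩
  rw [← hJdef] at h46 h46' hU ⊢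
  have hJS : J ≤ (S : Subgroup G) := by rw [hJdef]; exact Cfsg.Agent.H14.thompsonSubgroupOf_le 2 _
  obtain ⟨hW2, hsplit⟩ := h46
  obtain ⟨hW2', hsplit'⟩ := h46'
  obtain ⟨Z1, hZ1def⟩ : ∃ Z1 : Subgroup G, Z1 = omegaCenterOf J ⊓
      ((K ⊔ J) ⊓ Subgroup.centralizer ((K : Set G) ⊔ (J : Set G))) := ⟨_, rfl⟩
  obtain ⟨Z1', hZ1'def⟩ : ∃ Z1' : Subgroup G, Z1' = omegaCenterOf J ⊓
      ((K' ⊔ J) ⊓ Subgroup.centralizer ((K' : Set G) ⊔ (J : Set G))) := ⟨_, rfl⟩
  rw [← hZ1def] at hsplit
  rw [← hZ1'def] at hsplit'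
  have hZ1le0 : Z1 ≤ omegaCenterOf J := by rw [hZ1def]; exact inf_le_left
  have hZ1'le0 : Z1' ≤ omegaCenterOf J := by rw [hZ1'def]; exact inf_le_left
  have hZ1cen : ∀ y ∈ Z1, y ∈ Subgroup.centralizer ((K : Set G) ⊔ (J : Set G)) := by
    intro y hy
    rw [hZ1def] at hy
    exact (Subgroup.mem_inf.mp (Subgroup.mem_inf.mp hy).2).2
  have hZ1'cen : ∀ y ∈ Z1', y ∈ Subgroup.centralizer ((K' : Set G) ⊔ (J : Set G)) := by
    intro y hy
    rw [hZ1'def] at hy
    exact (Subgroup.mem_inf.mp (Subgroup.mem_inf.mp hy).2).2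
  -- (U): centralizers of nontrivial elements of `Z₁` lie in `L`
  have hUL : ∀ y ∈ Z1, y ≠ 1 → Subgroup.centralizer ({y} : Set G) ≤ L := by
    intro y hy hy1
    have hy2 : y ^ 2 = 1 := (Cfsg.Agent.H63.Sn.mem_omegaCenterOf J (hZ1le0 hy)).2.2
    have hycen := hZ1cen y hy
    have hord : orderOf y = 2 := orderOf_eq_prime hy2 hy1
    have hP : IsPGroup 2 ↥(Subgroup.zpowers y) := by
      apply IsPGroup.of_card (n := 1)
      rw [Nat.card_zpowers, hord, pow_one]
    have hne : Subgroup.zpowers y ≠ ⊥ := by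
      rw [Ne, Subgroup.zpowers_eq_bot]
      exact hy1
    have h2loc : IsTwoLocal (Subgroup.normalizer (Subgroup.zpowers y : Set G)) :=
      ⟨_, hP, hne, rfl⟩
    obtain ⟨L2, hL2max, hNL2⟩ := Cfsg.Agent.Helper55.Uq.exists_maximalTwoLocal h2loc
    have hKJc : K ⊔ J ≤ Subgroup.centralizer ({y} : Set G) := by
      apply sup_le
      · intro h hh
        rw [Subgroup.mem_centralizer_iff]
        intro x hx
        rw [Set.mem_singleton_iff] at hx
        rw [hx]
        exact (Subgroup.mem_centralizer_iff.mp hycen h (Or.inl hh)).symm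
      · intro h hh
        rw [Subgroup.mem_centralizer_iff]
        intro x hx
        rw [Set.mem_singleton_iff] at hx
        rw [hx]
        exact (Subgroup.mem_centralizer_iff.mp hycen h (Or.inr hh)).symm
    have hcn := centralizer_singleton_le_normalizer_zpowers y
    have h5 : L2 = L₀ := hU L2 hL2max ((hKJc.trans hcn).trans hNL2)
    rw [hLL₀, ← h5]
    exact hcn.trans hNL2
  -- `Z₁ ∩ Z₁' = 1`
  have hdisj : Z1 ⊓ Z1' = ⊥ := by
    rw [Subgroup.eq_bot_iff_forall]
    intro y hy
    by_contra hy1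
    obtain ⟨hyZ1, hyZ1'⟩ := Subgroup.mem_inf.mp hy
    have hycen' := hZ1'cen y hyZ1'
    apply hK'L
    intro k hk
    apply hUL y hyZ1 hy1
    rw [Subgroup.mem_centralizer_iff]
    intro x hx
    rw [Set.mem_singleton_iff] at hx
    rw [hx]
    exact (Subgroup.mem_centralizer_iff.mp hycen' k (Or.inl hk)).symm
  -- `Z₀` is commutative
  have hZ0comm : ∀ a ∈ omegaCenterOf J, ∀ b ∈ omegaCenterOf J, a * b = b * a := by
    intro a ha b hb
    have h1 := Cfsg.Agent.H63.Sn.mem_omegaCenterOf J ha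
    have h2 := Cfsg.Agent.H63.Sn.mem_omegaCenterOf J hb
    exact Subgroup.mem_centralizer_iff.mp h2.2.1 a h1.1
  -- cardinalities
  have hc1 : Nat.card ↥(omegaCenterOf J) ≤ Nat.card ↥Z1' * 2 := by
    have h1 := card_sup_le_mul Z1' (omegaCenterOf J ⊓ wOf K')
      (fun p hp q hq => hZ0comm p (hZ1'le0 hp) q (Subgroup.mem_inf.mp hq).1)
    rw [hsplit', hW2'] at h1
    exact h1
  have hc3 : Nat.card ↥(omegaCenterOf J) ≤ Nat.card ↥Z1 * 2 := by
    have h1 := card_sup_le_mul Z1 (omegaCenterOf J ⊓ wOf K)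
      (fun p hp q hq => hZ0comm p (hZ1le0 hp) q (Subgroup.mem_inf.mp hq).1)
    rw [hsplit, hW2] at h1
    exact h1
  have hc2 : Nat.card ↥Z1 * Nat.card ↥Z1' ≤ Nat.card ↥(omegaCenterOf J) := by
    have h1 := Cfsg.Agent.H37.Sq.card_mul_le_card_sup Z1 Z1' hdisj
    have h2 : Z1 ⊔ Z1' ≤ omegaCenterOf J := sup_le hZ1le0 hZ1'le0
    exact h1.trans (Subgroup.card_le_of_le h2)
  have hZ1'pos : 0 < Nat.card ↥Z1' := Nat.card_pos
  have hZ1pos : 0 < Nat.card ↥Z1 := Nat.card_pos
  have hZ1le : Nat.card ↥Z1 ≤ 2 := by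
    have h1 : Nat.card ↥Z1 * Nat.card ↥Z1' ≤ 2 * Nat.card ↥Z1' := by
      rw [Nat.mul_comm 2]
      exact hc2.trans hc1
    exact Nat.le_of_mul_le_mul_right h1 hZ1'pos
  have hZ0le : Nat.card ↥(omegaCenterOf J) ≤ 4 := by omega
  have hWdvd : 2 ∣ Nat.card ↥(omegaCenterOf J) := by
    rw [← hW2]
    exact Subgroup.card_dvd_of_le inf_le_left
  have hZ0pos : 0 < Nat.card ↥(omegaCenterOf J) := Nat.card_pos
  -- `Z ≤ Z₀`, `Z ≠ 1`
  have hZle : omegaCenterOf (S : Subgroup G) ≤ omegaCenterOf J := by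
    intro x hx
    obtain ⟨hxS, hxC, hx2⟩ := Cfsg.Agent.H63.Sn.mem_omegaCenterOf _ hx
    obtain ⟨A, hA⟩ := Cfsg.Agent.Helper55.ThJ.gens_nonempty (S : Subgroup G)
    have hxA : x ∈ A := Cfsg.Agent.H26.Jz.mem_gen_of_commute hA hxS
      (fun a ha => Subgroup.mem_centralizer_iff.mp hxC a (hA.1 ha)) hx2
    have hxJ : x ∈ J := by
      rw [hJdef]
      exact Cfsg.Agent.Helper55.ThJ.gen_le_J hA hxA
    apply Cfsg.Agent.H63.Sn.omegaCenterOf_mem J hxJ _ hx2
    rw [Subgroup.mem_centralizer_iff]
    intro h hh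
    exact Subgroup.mem_centralizer_iff.mp hxC h (hJS hh)
  obtain ⟨z, hzZ, hz1⟩ := exists_mem_omegaCenterOf (S : Subgroup G) hS2 hS1
  have hZcardge : 2 ≤ Nat.card ↥(omegaCenterOf (S : Subgroup G)) := by
    have h1 : omegaCenterOf (S : Subgroup G) ≠ ⊥ := by
      intro h
      rw [h, Subgroup.mem_bot] at hzZ
      exact hz1 hzZ
    exact (Subgroup.one_lt_card_iff_ne_bot _).mpr h1
  have hZcardle : Nat.card ↥(omegaCenterOf (S : Subgroup G)) ≤ Nat.card ↥(omegaCenterOf J) :=
    Subgroup.card_le_of_le hZle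
  have hcases : Nat.card ↥(omegaCenterOf J) = 2 ∨ Nat.card ↥(omegaCenterOf J) = 4 := by
    obtain ⟨c, hc⟩ := hWdvd
    omega
  rcases hcases with h2 | h4
  · -- clause 1
    left
    refine ⟨Subgroup.eq_of_le_of_card_ge hZle ?_, h2⟩
    omega
  · by_cases hEq : omegaCenterOf (S : Subgroup G) = omegaCenterOf J
    · right; left
      exact ⟨hEq, h4, rfl⟩
    · exfalso
      -- `|Z| = 2`
      have hZ2 : Nat.card ↥(omegaCenterOf (S : Subgroup G)) = 2 := by
        have hd : Nat.card ↥(omegaCenterOf (S : Subgroup G)) ∣ 4 := by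
          rw [← h4]
          exact Subgroup.card_dvd_of_le hZle
        have hne4 : Nat.card ↥(omegaCenterOf (S : Subgroup G)) ≠ 4 := by
          intro h
          apply hEq
          apply Subgroup.eq_of_le_of_card_ge hZle
          omega
        have hle4 : Nat.card ↥(omegaCenterOf (S : Subgroup G)) ≤ 4 := Nat.le_of_dvd (by norm_num) hd
        obtain ⟨c, hc⟩ := hd
        have hne3 : Nat.card ↥(omegaCenterOf (S : Subgroup G)) ≠ 3 := by
          intro h
          rw [h] at hc
          omega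
        omega
      have hZelts : ∀ v ∈ omegaCenterOf (S : Subgroup G), v = 1 ∨ v = z := by
        intro v hv
        have hmem := mem_finset_of_card (omegaCenterOf (S : Subgroup G)) {1, z}
          (by
            intro x hx
            rw [Finset.mem_insert, Finset.mem_singleton] at hx
            rcases hx with rfl | rfl
            · exact one_mem _
            · exact hzZ)
          (by
            rw [hZ2, Finset.card_insert_of_notMem (by
              rw [Finset.mem_singleton]
              exact fun h => hz1 h.symm), Finset.card_singleton]) hv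
        rw [Finset.mem_insert, Finset.mem_singleton] at hmem
        exact hmem
      -- (F3): no `J(S)`-component centralizes `Z`
      have hF3' : ∀ K'' : Subgroup G, IsJComponent (S : Subgroup G) K'' →
          z ∉ Subgroup.centralizer ((K'' : Set G) ⊔ (J : Set G)) := by
        intro K'' hK''J hzc
        have hK''Z : K'' ≤ Subgroup.centralizer (omegaCenterOf (S : Subgroup G) : Set G) := by
          intro k hk
          rw [Subgroup.mem_centralizer_iff]
          intro v hv
          rcases hZelts v hv with rfl | rfl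
          · rw [one_mul, mul_one]
          · exact (Subgroup.mem_centralizer_iff.mp hzc k (Or.inl hk)).symm
        have hK''N : K'' ≤ Subgroup.normalizer ((S : Subgroup G) : Set G) :=
          hK''Z.trans (hZN.2.2 S)
        have hK''S : K'' ≤ (S : Subgroup G) := by
          have h1 : ⁅K'', J⁆ = K'' := by rw [hJdef]; exact hK''J.2.1
          rw [← h1, Subgroup.commutator_le]
          intro k hk j hj
          have h2 : k * j * k⁻¹ ∈ (S : Subgroup G) :=
            (Subgroup.mem_normalizer_iff.mp (hK''N hk) j).mp (hJS hj)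
          have h3 : ⁅k, j⁆ = (k * j * k⁻¹) * j⁻¹ := by rw [commutatorElement_def]
          rw [h3]
          exact mul_mem h2 (inv_mem (hJS hj))
        have hK''P : IsPGroup 2 ↥K'' := hS2.to_le hK''S
        obtain ⟨n, hn⟩ := IsPGroup.iff_card.mp hK''P
        have h3 : (pCoreOf 2 K'').relIndex K'' = 3 := hK''J.2.2.1
        have h4 : (pCoreOf 2 K'').relIndex K'' ∣ Nat.card ↥K'' := Subgroup.relIndex_dvd_card _ _
        rw [h3, hn] at h4
        have h5 : 3 ∣ 2 := Nat.Prime.dvd_of_dvd_pow Nat.prime_three h4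
        omega
      have hzZ0 : z ∈ omegaCenterOf J := hZle hzZ
      have hzZ1 : z ∉ Z1 := fun h => hF3' K hKJ (hZ1cen z h)
      have hzZ1' : z ∉ Z1' := fun h => hF3' K' hK'J (hZ1'cen z h)
      -- nontrivial elements of `Z₁`, `Z₁'`
      have hZ1ne : Z1 ≠ ⊥ := by
        apply (Subgroup.one_lt_card_iff_ne_bot _).mp
        omega
      have hZ1'ne : Z1' ≠ ⊥ := by
        apply (Subgroup.one_lt_card_iff_ne_bot _).mp
        omega
      have hex1 : ∃ z1 ∈ Z1, z1 ≠ 1 := by
        by_contra hno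
        apply hZ1ne
        rw [Subgroup.eq_bot_iff_forall]
        intro x hx
        by_contra hx1
        exact hno ⟨x, hx, hx1⟩
      have hex1' : ∃ z1' ∈ Z1', z1' ≠ 1 := by
        by_contra hno
        apply hZ1'ne
        rw [Subgroup.eq_bot_iff_forall]
        intro x hx
        by_contra hx1
        exact hno ⟨x, hx, hx1⟩
      obtain ⟨z1, hz1Z1, hz11⟩ := hex1
      obtain ⟨z1', hz1'Z1', hz1'1⟩ := hex1'
      have hz1Z0 : z1 ∈ omegaCenterOf J := hZ1le0 hz1Z1
      have hz1'Z0 : z1' ∈ omegaCenterOf J := hZ1'le0 hz1'Z1'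
      have hzz1 : z ≠ z1 := fun h => hzZ1 (h ▸ hz1Z1)
      have hzz1' : z ≠ z1' := fun h => hzZ1' (h ▸ hz1'Z1')
      have hz1z1' : z1 ≠ z1' := by
        intro h
        have h5 : z1 ∈ Z1 ⊓ Z1' := Subgroup.mem_inf.mpr ⟨hz1Z1, h ▸ hz1'Z1'⟩
        rw [hdisj, Subgroup.mem_bot] at h5
        exact hz11 h5
      -- `Z₀ = {1, z, z₁, z₁'}`
      have hFcard : ({1, z, z1, z1'} : Finset G).card = 4 := by
        have hA : z1 ∉ ({z1'} : Finset G) := by
          rw [Finset.mem_singleton]
          exact hz1z1'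
        have hB : z ∉ ({z1, z1'} : Finset G) := by
          rw [Finset.mem_insert, Finset.mem_singleton]
          rintro (h | h)
          · exact hzz1 h
          · exact hzz1' h
        have hC : (1 : G) ∉ ({z, z1, z1'} : Finset G) := by
          rw [Finset.mem_insert, Finset.mem_insert, Finset.mem_singleton]
          rintro (h | h | h)
          · exact hz1 h.symm
          · exact hz11 h.symm
          · exact hz1'1 h.symm
        rw [Finset.card_insert_of_notMem hC, Finset.card_insert_of_notMem hB,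
          Finset.card_insert_of_notMem hA, Finset.card_singleton]
      have hZ0elts : ∀ v ∈ omegaCenterOf J, v = 1 ∨ v = z ∨ v = z1 ∨ v = z1' := by
        intro v hv
        have hmem := mem_finset_of_card (omegaCenterOf J) {1, z, z1, z1'}
          (by
            intro x hx
            rw [Finset.mem_insert, Finset.mem_insert, Finset.mem_insert, Finset.mem_singleton] at hx
            rcases hx with rfl | rfl | rfl | rfl
            · exact one_mem _
            · exact hzZ0
            · exact hz1Z0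
            · exact hz1'Z0)
          (by rw [h4, hFcard]) hv
        rw [Finset.mem_insert, Finset.mem_insert, Finset.mem_insert, Finset.mem_singleton] at hmem
        exact hmem
      -- `S` normalizes `Z₀` and centralizes `z`
      have hSnorm : ∀ s ∈ (S : Subgroup G), ∀ v ∈ omegaCenterOf J,
          s * v * s⁻¹ ∈ omegaCenterOf J := by
        intro s hs v hv
        have h1 : (S : Subgroup G).map (MulAut.conj s).toMonoidHom = (S : Subgroup G) :=
          Cfsg.Agent.H37.Sq.map_conj_eq_self _ s (Subgroup.le_normalizer hs)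
        have h2 : J.map (MulAut.conj s).toMonoidHom = J := by
          rw [hJdef, Cfsg.Agent.H14.thompsonSubgroupOf_conj 2 s, h1]
        have h3 : (omegaCenterOf J).map (MulAut.conj s).toMonoidHom = omegaCenterOf J := by
          rw [← Cfsg.Agent.H59.So.omegaCenterOf_map_conj, h2]
        rw [← h3]
        exact ⟨v, hv, rfl⟩
      have hSz : ∀ s ∈ (S : Subgroup G), s * z * s⁻¹ = z := by
        intro s hs
        have h1 := (Cfsg.Agent.H63.Sn.mem_omegaCenterOf _ hzZ).2.1
        have h2 : s * z = z * s := Subgroup.mem_centralizer_iff.mp h1 s hs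
        rw [h2, mul_inv_cancel_right]
      -- `S` moves some element of `Z₀`
      have hmove : ∃ s ∈ (S : Subgroup G), ∃ v ∈ omegaCenterOf J, s * v * s⁻¹ ≠ v := by
        by_contra hno
        apply hEq
        apply le_antisymm hZle
        intro v hv
        obtain ⟨hvJ, hvC, hv2⟩ := Cfsg.Agent.H63.Sn.mem_omegaCenterOf J hv
        apply Cfsg.Agent.H63.Sn.omegaCenterOf_mem _ (hJS hvJ) _ hv2
        rw [Subgroup.mem_centralizer_iff]
        intro s hs
        by_contra hsv
        apply hno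
        refine ⟨s, hs, v, hv, ?_⟩
        intro h
        apply hsv
        calc s * v = s * v * s⁻¹ * s := by group
          _ = v * s := by rw [h]
      obtain ⟨s, hs, v, hv, hsv⟩ := hmove
      have hgen : ∀ t ∈ (S : Subgroup G), ∀ a ∈ omegaCenterOf J, a ≠ 1 → a ≠ z →
          t * a * t⁻¹ = z1 ∨ t * a * t⁻¹ = z1' := by
        intro t ht a ha ha1 haz
        rcases hZ0elts _ (hSnorm t ht a ha) with h | h | h | h
        · exfalso
          apply ha1
          have h5 : a = t⁻¹ * (t * a * t⁻¹) * t := by group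
          rw [h5, h]
          group
        · exfalso
          apply haz
          have h5 : a = t⁻¹ * (t * a * t⁻¹) * t := by group
          have h6 : t⁻¹ * z * t = z := by
            have h7 := hSz t⁻¹ (inv_mem ht)
            rw [inv_inv] at h7
            exact h7
          rw [h5, h, h6]
        · exact Or.inl h
        · exact Or.inr h
      have hconj : ∃ t ∈ (S : Subgroup G), t * z1 * t⁻¹ = z1' := by
        rcases hZ0elts v hv with h | h | h | h
        · exfalso
          apply hsv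
          rw [h]
          group
        · exfalso
          apply hsv
          rw [h]
          exact hSz s hs
        · rw [h] at hsv
          rcases hgen s hs z1 hz1Z0 hz11 (Ne.symm hzz1) with h' | h'
          · exact absurd h' hsv
          · exact ⟨s, hs, h'⟩
        · rw [h] at hsv
          rcases hgen s hs z1' hz1'Z0 hz1'1 (Ne.symm hzz1') with h' | h'
          · refine ⟨s⁻¹, inv_mem hs, ?_⟩
            rw [← h']
            group
          · exact absurd h' hsv
      obtain ⟨t, ht, htz⟩ := hconj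
      apply hK'L
      intro k hk
      have hkc : k * z1' = z1' * k :=
        Subgroup.mem_centralizer_iff.mp (hZ1'cen z1' hz1'Z1') k (Or.inl hk)
      have hk' : t⁻¹ * k * t ∈ Subgroup.centralizer ({z1} : Set G) := by
        rw [Subgroup.mem_centralizer_iff]
        intro x hx
        rw [Set.mem_singleton_iff] at hx
        rw [hx]
        have h5 : z1 = t⁻¹ * z1' * t := by
          rw [← htz]
          group
        rw [h5]
        calc t⁻¹ * z1' * t * (t⁻¹ * k * t) = t⁻¹ * (z1' * k) * t := by group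
          _ = t⁻¹ * (k * z1') * t := by rw [hkc]
          _ = t⁻¹ * k * t * (t⁻¹ * z1' * t) := by group
      have hk'' := hUL z1 hz1Z1 hz11 hk'
      have htL : t ∈ L := hSL ht
      have h6 : k = t * (t⁻¹ * k * t) * t⁻¹ := by group
      rw [h6]
      exact mul_mem (mul_mem htL hk'') (inv_mem htL)

end Cfsg.Agent.H37.Jz

universe u in
example : Cfsg.Agent.H64.Jz.StSC.{u} := Cfsg.Agent.H37.Jz.sc.{u}

#print axioms Cfsg.Agent.H37.Jz.sc
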