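import Mathlib
import Cfsg.Agent.H64.JzDefs
import Cfsg.Agent.S2948
import Cfsg.Agent.S2949
import Cfsg.Agent.S2950
import Cfsg.Agent.H14.Thompson
import Cfsg.Agent.H25.SpBasic
import Cfsg.Agent.H12.SpConjG

/-!
# JZ-SETUP (piece of S2951 / S2952, helper64's project)

The residual situation (R) exists: if `T = S` and every 2-local subgroup over `J(S)` lies in `L`,
then `L` is a legal base, it has a maximal straddling 2-subgroup `T' < S`, an outside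
`J(T')`-component `K'` and a maximal 2-local `L'` over `K' J(T')`.
-/

set_option autoImplicit false
open Cfsg

namespace Cfsg.Agent.H37.Jz

open Cfsg.Agent.H64.Jz

universe u

/-- JZ-SETUP (helper64's S2951 / S2952 project). -/
theorem setup (hNSE : StNSE.{u}) (hMax : StMaxS.{u}) : StSetup.{u} := by
  intro G _ _ S M K L hB hX
  obtain ⟨hZN, hO, hM, hMJ, hS, hSS, hK, hLmax, hKL⟩ := id hB
  obtain ⟨hK0, hKM, hKO⟩ := hK
  have hKJ : IsJComponent (S : Subgroup G) K := hK0.1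
  have hbasic := Cfsg.Agent.H25.Sp66.basic Cfsg.Agent.H12.Sp.conjG (S : Subgroup G) K hKJ
  have hJne : thompsonSubgroupOf 2 (S : Subgroup G) ≠ ⊥ := hbasic.2.2.2.2.2
  have hJS : thompsonSubgroupOf 2 (S : Subgroup G) ≤ (S : Subgroup G) :=
    Cfsg.Agent.H14.thompsonSubgroupOf_le 2 _
  have hJ2 : IsPGroup 2 ↥(thompsonSubgroupOf 2 (S : Subgroup G)) := S.isPGroup'.to_le hJS
  -- `N_G(J(S)) ≤ L`
  have hNJL : Subgroup.normalizer (thompsonSubgroupOf 2 (S : Subgroup G) : Set G) ≤ L :=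
    hX _ ⟨_, hJ2, hJne, rfl⟩ Subgroup.le_normalizer
  -- `S` is a Sylow 2-subgroup of `L` (S2950)
  obtain ⟨L₀, hL₀max, hKL₀, hU, -, hSyl₀⟩ := Cfsg.Agent.S2950.result hZN.1 hZN.2.1 hZN.2.2 hO S M hM
    hMJ (S : Subgroup G) hS K ⟨hK0, hKM, hKO⟩
  have hLL₀ : L = L₀ := hU L hLmax hKL
  have hSyl : IsSylowTwoIn (S : Subgroup G) L := by rw [hLL₀]; exact hSyl₀
  have hSL : (S : Subgroup G) ≤ L := hSyl.1
  -- `L` is in the family of `S` (S2948)
  have hLM : ¬ L ≤ M := fun h => hKM ((le_sup_left.trans hKL).trans h)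
  have hLov : L ∈ jOvergroups (S : Subgroup G) :=
    (Cfsg.Agent.S2948.result hZN.1 hZN.2.1 hZN.2.2 hO S M hM hMJ (S : Subgroup G) hS L hLmax.1 hLM
      (S : Subgroup G) hSyl hJS).2.2.1
  -- a maximal straddling subgroup `T' ≤ S` for the base `L`
  have hne : (straddlingTwoSubgroups L).Nonempty := hNSE hZN hO S L hLmax.1 hNJL hLov
  obtain ⟨T', hT', hT'S⟩ := hMax S L hSL hne
  have hT'ne : T' ≠ (S : Subgroup G) := by
    intro h
    obtain ⟨-, -, -, X, hX2, hTX, hXL⟩ := hT'.1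
    exact hXL (hX X hX2 (hJS.trans (h ▸ hTX)))
  -- `K'` (S2949) and `L'` (S2950)
  obtain ⟨K', hK'⟩ := Cfsg.Agent.S2949.result hZN.1 hZN.2.1 hZN.2.2 hO S L hLmax.1 hNJL T' hT'
  obtain ⟨L', hL'max, hK'L', -, -, -⟩ := Cfsg.Agent.S2950.result hZN.1 hZN.2.1 hZN.2.2 hO S L
    hLmax.1 hNJL T' hT' K' hK'
  exact ⟨T', K', L', hB, hX, ⟨hZN, hO, hLmax.1, hNJL, hT', hT'S, hK', hL'max, hK'L'⟩, hT'ne⟩

end Cfsg.Agent.H37.Jz

universe u in
example (hNSE : Cfsg.Agent.H64.Jz.StNSE.{u}) (hMax : Cfsg.Agent.H64.Jz.StMaxS.{u}) :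
    Cfsg.Agent.H64.Jz.StSetup.{u} := Cfsg.Agent.H37.Jz.setup hNSE hMax

#print axioms Cfsg.Agent.H37.Jz.setup
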