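import Cfsg.Agent.H90.NSDefs
import Cfsg.Agent.H86.FusGroup
import Cfsg.Agent.H86.FusNormal
import Cfsg.Agent.H86.GrpLemmas
import Cfsg.Agent.H87.PCore

set_option autoImplicit false

/-!
# S5121-A1 (helper37, for helper90): strong closure elementwise, and `R = T ∩ O_p(G)` is normal.
-/

namespace Cfsg.Agent.H37.NS

open Cfsg Cfsg.FusionSystem Cfsg.Agent.H86 Cfsg.Agent.H90.NS

universe u

theorem a1 : Cfsg.Agent.H90.NS.A1Stmt.{u} := by
  intro G _ _ p _ S T E hyp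
  obtain ⟨-, hTS, hE⟩ := hyp
  obtain ⟨⟨-, -, hinv⟩, -⟩ := hE
  obtain ⟨-, hsc0, -⟩ := hinv
  have hsc : SC p S T := by
    intro g x hx hgx
    have hmor : Mor (groupFusionSystem (S : Subgroup G)) (Subgroup.zpowers x)
        (fun y => g * y * g⁻¹) := by
      refine mor_groupFusionSystem_iff.2 ⟨?_, ?_, g, fun _ _ => rfl⟩
      · rw [Subgroup.zpowers_le]
        exact hTS hx
      · intro y hy
        obtain ⟨k, rfl⟩ := Subgroup.mem_zpowers_iff.mp hy
        have h2 : g * x ^ k * g⁻¹ = (g * x * g⁻¹) ^ k := by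
          rw [conj_zpow]
        rw [h2]
        exact Subgroup.zpow_mem _ hgx k
    exact (stronglyClosed_iff.1 hsc0).2 (Subgroup.zpowers x) (fun y => g * y * g⁻¹)
      (by rw [Subgroup.zpowers_le]; exact hx) hmor x (Subgroup.mem_zpowers x)
  refine ⟨hsc, ⟨fun r hr g => ?_⟩⟩
  obtain ⟨hr1, hr2⟩ := Subgroup.mem_inf.mp hr
  have hQ : g * r * g⁻¹ ∈ pCore p G := (pCore_normal p G).conj_mem r hr2 g
  exact Subgroup.mem_inf.mpr ⟨hsc g r hr1 (Cfsg.Agent.H87.pCore_le_sylow S hQ), hQ⟩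

end Cfsg.Agent.H37.NS
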