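import Cfsg.Agent.H90.NSDefs
import Cfsg.Agent.H86.GrpLemmas
import Cfsg.Agent.H87.PCore
import Cfsg.Agent.H87.NormalSub
import Cfsg.Agent.H40.Resid

set_option autoImplicit false

/-!
# S5121-A14 (helper37, for helper90): uniqueness of the normal subgroup `H` realizing `E`.
-/

namespace Cfsg.Agent.H37.NS

open Cfsg Cfsg.FusionSystem Cfsg.Agent.H86 Cfsg.Agent.H90.NS

universe u

theorem a14 : Cfsg.Agent.H90.NS.A14Stmt.{u} := by
  intro G _ _ p _ S T E hyp hsc hRn hch hb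
  obtain ⟨hbset, hbn, hTb⟩ := hb
  rintro H' ⟨hTH', hH'n, ⟨R, hR⟩, hHom⟩
  have hp : p.Prime := Fact.out
  have hQn : (pCore p G).Normal := pCore_normal p G
  have hQp : IsPGroup p (pCore p G) := Cfsg.Agent.H87.pCore_isPGroup p
  have hRT : rSub p T ≤ T := inf_le_left
  -- maps of `E` are maps of `F_T(H')`
  have hmor : ∀ (P : Subgroup G) (f : G → G),
      Mor E P f ↔ Mor (fusionSystemOfSubgroup H' T hTH') P f := by
    intro P f
    unfold Mor
    rw [hHom P]
  -- (1) `H' ∩ Q ≤ R`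
  have h1 : H' ⊓ pCore p G ≤ rSub p T := by
    intro x hx
    obtain ⟨hx1, hx2⟩ := Subgroup.mem_inf.mp hx
    refine Subgroup.mem_inf.mpr ⟨?_, hx2⟩
    have hNn : (H' ⊓ pCore p G).Normal := Subgroup.normal_inf_normal H' (pCore p G)
    have hN : ((H' ⊓ pCore p G).subgroupOf H').Normal := inferInstance
    have hpg : IsPGroup p ((H' ⊓ pCore p G).subgroupOf H') :=
      (hQp.to_le inf_le_right).comap_subtype
    have hle : (H' ⊓ pCore p G).subgroupOf H' ≤ (R : Subgroup H') := hpg.le_sylow_of_normal R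
    have hxR : (⟨x, hx1⟩ : H') ∈ (R : Subgroup H') :=
      hle (by rw [Subgroup.mem_subgroupOf]; exact hx)
    rw [hR, Subgroup.mem_subgroupOf] at hxR
    exact hxR
  -- (2) `H' ⊆ B₁`
  have h2 : ∀ h ∈ H', h ∈ b1 p T E := by
    intro h hh
    refine ⟨fun q hq => ?_, ?_⟩
    · apply h1
      refine Subgroup.mem_inf.mpr ⟨?_, ?_⟩
      · have e : q⁻¹ * (h * q * h⁻¹) = (q⁻¹ * h * q⁻¹⁻¹) * h⁻¹ := by group
        rw [e]
        exact H'.mul_mem (hH'n.conj_mem h hh q⁻¹) (H'.inv_mem hh)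
      · exact (pCore p G).mul_mem ((pCore p G).inv_mem hq) (hQn.conj_mem q hq h)
    · rw [hmor]
      exact Cfsg.Agent.H87.mor_fusionSystemOfSubgroup_iff.2
        ⟨hRT, fun x hx => hRT (hRn.conj_mem x hx h), h, hh, fun _ _ => rfl⟩
  have hbmem : ∀ g, g ∈ bSub p T E ↔ g ∈ b1 p T E := by
    intro g
    rw [← hbset]
    rfl
  -- (3) `K ≤ H'`
  have h3 : kSub p T E ≤ H' := by
    unfold kSub
    rw [Subgroup.closure_le]
    rintro g ⟨hgb, hgo⟩
    obtain ⟨-, -, h, hh, hconj⟩ :=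
      Cfsg.Agent.H87.mor_fusionSystemOfSubgroup_iff.1 ((hmor _ _).1 hgb.2)
    have hu_b : h⁻¹ * g ∈ b1 p T E := by
      rw [← hbmem]
      exact (bSub p T E).mul_mem ((bSub p T E).inv_mem ((hbmem h).2 (h2 h hh))) ((hbmem g).2 hgb)
    have hu_c : ∀ r ∈ rSub p T, (h⁻¹ * g) * r * (h⁻¹ * g)⁻¹ = r := by
      intro r hr
      have h5 := hconj r hr
      calc (h⁻¹ * g) * r * (h⁻¹ * g)⁻¹ = h⁻¹ * (g * r * g⁻¹) * h := by group
        _ = h⁻¹ * (h * r * h⁻¹) * h := by rw [h5]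
        _ = r := by group
    have hu : h⁻¹ * g ∈ pCore p G := hch (h⁻¹ * g) hu_b.1 hu_c
    show g ∈ H'
    have e1 : (QuotientGroup.mk g : G ⧸ H') = QuotientGroup.mk (h⁻¹ * g) := by
      rw [QuotientGroup.mk_mul, QuotientGroup.mk_inv, (QuotientGroup.eq_one_iff h).mpr hh,
        inv_one, one_mul]
    have ho1 : orderOf (QuotientGroup.mk g : G ⧸ H') ∣ orderOf g :=
      orderOf_map_dvd (QuotientGroup.mk' H') g
    have ho2 : orderOf (QuotientGroup.mk (h⁻¹ * g) : G ⧸ H') ∣ orderOf (h⁻¹ * g) :=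
      orderOf_map_dvd (QuotientGroup.mk' H') _
    obtain ⟨k, hk⟩ := hQp ⟨h⁻¹ * g, hu⟩
    have ho3 : orderOf (h⁻¹ * g) ∣ p ^ k := by
      apply orderOf_dvd_of_pow_eq_one
      have := congrArg Subtype.val hk
      simpa using this
    rw [← e1] at ho2
    have hcop : Nat.gcd (orderOf g) (p ^ k) = 1 := Nat.Coprime.pow_right k hgo
    have ho4 : orderOf (QuotientGroup.mk g : G ⧸ H') = 1 :=
      Nat.dvd_one.mp (hcop ▸ Nat.dvd_gcd ho1 (ho2.trans ho3))
    exact (QuotientGroup.eq_one_iff g).mp (orderOf_eq_one_iff.mp ho4)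
  -- (4) `H' ≤ K T`
  have h4 : H' ≤ hSub p T E := by
    intro y hy
    obtain ⟨s, hs, m, hm, hym⟩ := Cfsg.Agent.H40.exists_mul_sylow_pResidual R (⟨y, hy⟩ : H')
    have hsT : (s : G) ∈ T := by
      have hs' : s ∈ (R : Subgroup H') := hs
      rw [hR, Subgroup.mem_subgroupOf] at hs'
      exact hs'
    have hle : (Cfsg.pResidual p H').map H'.subtype ≤ kSub p T E := by
      unfold Cfsg.pResidual kSub
      rw [MonoidHom.map_closure]
      apply Subgroup.closure_mono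
      rintro _ ⟨z, hz, rfl⟩
      refine ⟨h2 z z.2, ?_⟩
      show (orderOf (z : G)).Coprime p
      rw [Subgroup.orderOf_coe]
      exact hz
    have hmK : (m : G) ∈ kSub p T E := hle ⟨m, hm, rfl⟩
    have hy' : y = (s : G) * (m : G) := by
      have := congrArg Subtype.val hym
      simpa using this
    rw [hy']
    exact Subgroup.mul_mem _ (Subgroup.mem_sup_right hsT) (Subgroup.mem_sup_left hmK)
  exact le_antisymm h4 (sup_le h3 hTH')

end Cfsg.Agent.H37.NS
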