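import Mathlib
import Cfsg.Agent.H4.PaQb

set_option autoImplicit false

/-! Team piece S0496-PAQB: no simple group of some `p^a q^b` orders. -/

namespace Cfsg.Agent.H37.NS

theorem no_simple_of_paqb {G : Type*} [Group G] [Finite G] [IsSimpleGroup G] (p q a b : ℕ)
    (hp : p.Prime) (hq : q.Prime) (hcard : Nat.card G = p ^ a * q ^ b)
    (hnp : ¬ (Nat.card G).Prime) : False := by
  have hs := Cfsg.Agent.H4.isSolvable_of_card_eq_prime_pow_mul_prime_pow p q a b hp hq hcard
  have hc := IsSimpleGroup.comm_iff_isSolvable.2 hs
  letI : CommGroup G := { (inferInstance : Group G) with mul_comm := hc }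
  exact hnp (IsSimpleGroup.prime_card (α := G))

theorem no_simple_paqb {G : Type*} [Group G] [Finite G] [IsSimpleGroup G]
    (h : Nat.card G ∈ ([112, 144, 288, 400, 432, 576, 800, 864, 1053] : List ℕ)) :
    False := by
  simp only [List.mem_cons, List.mem_singleton, List.not_mem_nil, or_false] at h
  rcases h with h | h | h | h | h | h | h | h | h
  · exact no_simple_of_paqb 2 7 4 1 (by norm_num) (by norm_num) (h.trans (by norm_num))
      (by rw [h]; norm_num)
  · exact no_simple_of_paqb 2 3 4 2 (by norm_num) (by norm_num) (h.trans (by norm_num))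
      (by rw [h]; norm_num)
  · exact no_simple_of_paqb 2 3 5 2 (by norm_num) (by norm_num) (h.trans (by norm_num))
      (by rw [h]; norm_num)
  · exact no_simple_of_paqb 2 5 4 2 (by norm_num) (by norm_num) (h.trans (by norm_num))
      (by rw [h]; norm_num)
  · exact no_simple_of_paqb 2 3 4 3 (by norm_num) (by norm_num) (h.trans (by norm_num))
      (by rw [h]; norm_num)
  · exact no_simple_of_paqb 2 3 6 2 (by norm_num) (by norm_num) (h.trans (by norm_num))
      (by rw [h]; norm_num)
  · exact no_simple_of_paqb 2 5 5 2 (by norm_num) (by norm_num) (h.trans (by norm_num))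
      (by rw [h]; norm_num)
  · exact no_simple_of_paqb 2 3 5 3 (by norm_num) (by norm_num) (h.trans (by norm_num))
      (by rw [h]; norm_num)
  · exact no_simple_of_paqb 3 13 4 1 (by norm_num) (by norm_num) (h.trans (by norm_num))
      (by rw [h]; norm_num)

end Cfsg.Agent.H37.NS

open Cfsg in
example {G : Type*} [Group G] [Finite G] [IsSimpleGroup G]
    (h : Nat.card G ∈ ([112, 144, 288, 400, 432, 576, 800, 864, 1053] : List ℕ)) :
    False :=
  Cfsg.Agent.H37.NS.no_simple_paqb h
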