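import Cfsg.Agent.H46.OutGG2Defs

/-!
# OG-NOFLIP-G2 (piece for helper46's S2121 project): in `G₂` over a field of characteristic not 3 with at least
three elements, no automorphism swaps the root subgroups of the short fundamental root `a = α₀` (index 7) and the
long fundamental root `b = α₁` (index 6).

Invariant: with `⟦x, y⟧ = x⁻¹ y⁻¹ x y`, every `x_a(w)` commutes with every `⟦x_b(v), ⟦x_b(t), x_a(u)⟧⟧`
(this commutator lies in `X_{3a+2b}`), whereas `x_b(1)` does not commute with `⟦x_a(ζ), ⟦x_a(1), x_b(1)⟧⟧`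
when `3ζ(ζ+1) ≠ 0`.
-/

set_option autoImplicit false

namespace Cfsg.Agent.H37.OutG

open Cfsg.Lie Cfsg.Agent.H23 Cfsg.Agent.H23.Stb Cfsg.Agent.H46.OutE Cfsg.Agent.H46.OutG

universe u

/-- the commutator `x⁻¹ y⁻¹ x y` -/
def cmm {Γ : Type*} [Group Γ] (x y : Γ) : Γ := x⁻¹ * y⁻¹ * x * y

theorem cmm_of_comm {Γ : Type*} [Group Γ] {x y W : Γ} (h : x * y = y * x * W) : cmm x y = W := by
  unfold cmm
  have e : x⁻¹ * y⁻¹ * x * y = x⁻¹ * y⁻¹ * (x * y) := by group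
  rw [e, h]
  group

section

variable (F : Type u) [Field F]

/-- the root element `x_r(t)` of `G₂` -/
noncomputable def gX (r : ℕ) (t : F) : GL chevG2.Idx F := xU (packS_G2 F).hP.sem r t

/-- a word in root elements of `G₂` -/
noncomputable def gW (L : List (ℕ × F)) : GL chevG2.Idx F := wordU (packS_G2 F).hP.sem L

theorem gX_mul (r : ℕ) (t u : F) : gX F r t * gX F r u = gX F r (t + u) := xU_mul _ r t u

theorem gX_inv (r : ℕ) (t : F) : (gX F r t)⁻¹ = gX F r (-t) := xU_inv _ r t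

theorem gX_zero (r : ℕ) : gX F r 0 = 1 := xU_zero _ r

theorem gX_eq_one {r : ℕ} (hr : r < chevG2.nroots) {t : F} (h : gX F r t = 1) : t = 0 :=
  xU_eq_one_imp (packS_G2 F).hP.sem (packS_G2 F).hP.tab (packS_G2 F).hP.tab2 r hr t h

theorem gW_nil : gW F ([] : List (ℕ × F)) = 1 := rfl

theorem gW_cons (p : ℕ × F) (L : List (ℕ × F)) : gW F (p :: L) = gX F p.1 p.2 * gW F L :=
  wordU_cons _ p L

theorem gcomm (r s : ℕ) (hr : r < chevG2.nroots) (hs : s < chevG2.nroots) (hne : s ≠ r)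
    (hne' : s ≠ chevG2.neg r) (t u : F) :
    gX F s u * gX F r t = gX F r t * gX F s u * gW F (chevG2.commWord F r s t u) :=
  commG2 F r s hr hs hne hne' t u

/-! ### the commutator tables -/

theorem ct_6_8 : chevG2.commTerms 6 8 = [] := by decide
theorem ct_6_9 : chevG2.commTerms 6 9 = [] := by decide
theorem ct_6_11 : chevG2.commTerms 6 11 = [] := by decide
theorem ct_6_10 : chevG2.commTerms 6 10 = [(11, 1, 1, 1)] := by decide
theorem ct_8_11 : chevG2.commTerms 8 11 = [] := by decide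
theorem ct_9_11 : chevG2.commTerms 9 11 = [] := by decide
theorem ct_10_11 : chevG2.commTerms 10 11 = [] := by decide
theorem ct_7_10 : chevG2.commTerms 7 10 = [] := by decide
theorem ct_7_11 : chevG2.commTerms 7 11 = [] := by decide
theorem ct_7_9 : chevG2.commTerms 7 9 = [(10, 3, 1, 1)] := by decide
theorem ct_7_8 : chevG2.commTerms 7 8 = [(9, -2, 1, 1), (10, -3, 2, 1), (11, 3, 1, 2)] := by decide
theorem ct_7_6 : chevG2.commTerms 7 6 = [(8, -1, 1, 1), (9, 1, 2, 1), (10, 1, 3, 1), (11, 1, 3, 2)] := by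
  decide
theorem ct_6_7 : chevG2.commTerms 6 7 = [(8, 1, 1, 1), (9, 1, 1, 2), (10, -1, 1, 3), (11, -2, 2, 3)] := by
  decide

/-! ### letter relations -/

theorem comm_of_nil (r s : ℕ) (hr : r < chevG2.nroots) (hs : s < chevG2.nroots) (hne : s ≠ r)
    (hne' : s ≠ chevG2.neg r) (h : chevG2.commTerms r s = []) (t u : F) :
    gX F s u * gX F r t = gX F r t * gX F s u := by
  have h1 := gcomm F r s hr hs hne hne' t u
  have e : chevG2.commWord F r s t u = [] := by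
    simp only [ChevalleyDatum.commWord, h, List.map_nil]
  rw [e, gW_nil, mul_one] at h1
  exact h1

theorem B_Y1 (v s : F) : gX F 8 s * gX F 6 v = gX F 6 v * gX F 8 s :=
  comm_of_nil F 6 8 (by decide) (by decide) (by decide) (by decide) ct_6_8 v s

theorem B_Y2 (v s : F) : gX F 9 s * gX F 6 v = gX F 6 v * gX F 9 s :=
  comm_of_nil F 6 9 (by decide) (by decide) (by decide) (by decide) ct_6_9 v s

theorem B_Y4 (v s : F) : gX F 11 s * gX F 6 v = gX F 6 v * gX F 11 s :=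
  comm_of_nil F 6 11 (by decide) (by decide) (by decide) (by decide) ct_6_11 v s

theorem B_Y3 (v s : F) : gX F 10 s * gX F 6 v = gX F 6 v * gX F 10 s * gX F 11 (-(v * s)) := by
  have h1 := gcomm F 6 10 (by decide) (by decide) (by decide) (by decide) v s
  have e : chevG2.commWord F 6 10 v s = [(11, -(v * s))] := by
    simp only [ChevalleyDatum.commWord, ct_6_10, List.map_cons, List.map_nil]
    have e1 : ((1 : ℤ) : F) * (-v) ^ 1 * s ^ 1 = -(v * s) := by push_cast; ring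
    rw [e1]
  rw [e, gW_cons, gW_nil, mul_one] at h1
  exact h1

theorem Y4_Y1 (s x : F) : gX F 11 s * gX F 8 x = gX F 8 x * gX F 11 s :=
  comm_of_nil F 8 11 (by decide) (by decide) (by decide) (by decide) ct_8_11 x s

theorem Y4_Y2 (s x : F) : gX F 11 s * gX F 9 x = gX F 9 x * gX F 11 s :=
  comm_of_nil F 9 11 (by decide) (by decide) (by decide) (by decide) ct_9_11 x s

theorem Y4_Y3 (s x : F) : gX F 11 s * gX F 10 x = gX F 10 x * gX F 11 s :=
  comm_of_nil F 10 11 (by decide) (by decide) (by decide) (by decide) ct_10_11 x s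

theorem A_Y3 (v s : F) : gX F 10 s * gX F 7 v = gX F 7 v * gX F 10 s :=
  comm_of_nil F 7 10 (by decide) (by decide) (by decide) (by decide) ct_7_10 v s

theorem A_Y4 (v s : F) : gX F 11 s * gX F 7 v = gX F 7 v * gX F 11 s :=
  comm_of_nil F 7 11 (by decide) (by decide) (by decide) (by decide) ct_7_11 v s

theorem A_Y2 (v s : F) : gX F 9 s * gX F 7 v = gX F 7 v * gX F 9 s * gX F 10 (-(3 * v * s)) := by
  have h1 := gcomm F 7 9 (by decide) (by decide) (by decide) (by decide) v s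
  have e : chevG2.commWord F 7 9 v s = [(10, -(3 * v * s))] := by
    simp only [ChevalleyDatum.commWord, ct_7_9, List.map_cons, List.map_nil]
    have e1 : ((3 : ℤ) : F) * (-v) ^ 1 * s ^ 1 = -(3 * v * s) := by push_cast; ring
    rw [e1]
  rw [e, gW_cons, gW_nil, mul_one] at h1
  exact h1

theorem A_Y1 (v s : F) : gX F 8 s * gX F 7 v =
    gX F 7 v * gX F 8 s *
      (gX F 9 (2 * v * s) * (gX F 10 (-(3 * v ^ 2 * s)) * gX F 11 (-(3 * v * s ^ 2)))) := by
  have h1 := gcomm F 7 8 (by decide) (by decide) (by decide) (by decide) v s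
  have e : chevG2.commWord F 7 8 v s =
      [(9, 2 * v * s), (10, -(3 * v ^ 2 * s)), (11, -(3 * v * s ^ 2))] := by
    simp only [ChevalleyDatum.commWord, ct_7_8, List.map_cons, List.map_nil]
    have e1 : ((-2 : ℤ) : F) * (-v) ^ 1 * s ^ 1 = 2 * v * s := by push_cast; ring
    have e2 : ((-3 : ℤ) : F) * (-v) ^ 2 * s ^ 1 = -(3 * v ^ 2 * s) := by push_cast; ring
    have e3 : ((3 : ℤ) : F) * (-v) ^ 1 * s ^ 2 = -(3 * v * s ^ 2) := by push_cast; ring
    rw [e1, e2, e3]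
  rw [e, gW_cons, gW_cons, gW_cons, gW_nil, mul_one] at h1
  exact h1

/-- `⟦x_b(t), x_a(u)⟧` -/
theorem cmm_B_A (t u : F) : cmm (gX F 6 t) (gX F 7 u) =
    gW F [(8, u * t), (9, u ^ 2 * t), (10, -(u ^ 3 * t)), (11, -(u ^ 3 * t ^ 2))] := by
  have h1 := gcomm F 7 6 (by decide) (by decide) (by decide) (by decide) u t
  have e : chevG2.commWord F 7 6 u t =
      [(8, u * t), (9, u ^ 2 * t), (10, -(u ^ 3 * t)), (11, -(u ^ 3 * t ^ 2))] := by
    simp only [ChevalleyDatum.commWord, ct_7_6, List.map_cons, List.map_nil]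
    have e1 : ((-1 : ℤ) : F) * (-u) ^ 1 * t ^ 1 = u * t := by push_cast; ring
    have e2 : ((1 : ℤ) : F) * (-u) ^ 2 * t ^ 1 = u ^ 2 * t := by push_cast; ring
    have e3 : ((1 : ℤ) : F) * (-u) ^ 3 * t ^ 1 = -(u ^ 3 * t) := by push_cast; ring
    have e4 : ((1 : ℤ) : F) * (-u) ^ 3 * t ^ 2 = -(u ^ 3 * t ^ 2) := by push_cast; ring
    rw [e1, e2, e3, e4]
  rw [e] at h1
  exact cmm_of_comm h1

/-- `⟦x_a(1), x_b(1)⟧` -/
theorem cmm_A_B : cmm (gX F 7 1) (gX F 6 1) =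
    gW F [(8, -1), (9, -1), (10, 1), (11, -2)] := by
  have h1 := gcomm F 6 7 (by decide) (by decide) (by decide) (by decide) 1 1
  have e : chevG2.commWord F 6 7 (1 : F) 1 = [(8, -1), (9, -1), (10, 1), (11, -2)] := by
    simp only [ChevalleyDatum.commWord, ct_6_7, List.map_cons, List.map_nil]
    have e1 : ((1 : ℤ) : F) * (-1) ^ 1 * 1 ^ 1 = -1 := by push_cast; ring
    have e2 : ((1 : ℤ) : F) * (-1) ^ 1 * 1 ^ 2 = -1 := by push_cast; ring
    have e3 : ((-1 : ℤ) : F) * (-1) ^ 1 * 1 ^ 3 = 1 := by push_cast; ring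
    have e4 : ((-2 : ℤ) : F) * (-1) ^ 2 * 1 ^ 3 = -2 := by push_cast; ring
    rw [e1, e2, e3, e4]
  rw [e] at h1
  exact cmm_of_comm h1

/-! ### words in `y₁, …, y₄` -/

/-- a word in the root elements of `a+b, 2a+b, 3a+b, 3a+2b` -/
def IsY (L : List (ℕ × F)) : Prop := ∀ p ∈ L, p.1 = 8 ∨ p.1 = 9 ∨ p.1 = 10 ∨ p.1 = 11

/-- the sum of the parameters of the letters of the root `3a+b` -/
def y3 (L : List (ℕ × F)) : F := (L.map fun p => if p.1 = 10 then p.2 else 0).sum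

theorem y3_cons (p : ℕ × F) (L : List (ℕ × F)) :
    y3 F (p :: L) = (if p.1 = 10 then p.2 else 0) + y3 F L := by
  simp [y3]

theorem Y4_letter (k : ℕ) (hk : k = 8 ∨ k = 9 ∨ k = 10 ∨ k = 11) (s x : F) :
    gX F 11 s * gX F k x = gX F k x * gX F 11 s := by
  rcases hk with rfl | rfl | rfl | rfl
  · exact Y4_Y1 F s x
  · exact Y4_Y2 F s x
  · exact Y4_Y3 F s x
  · rw [gX_mul, gX_mul, add_comm]

theorem Y4_word (L : List (ℕ × F)) (hL : IsY F L) (s : F) :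
    gX F 11 s * gW F L = gW F L * gX F 11 s := by
  induction L with
  | nil => rw [gW_nil, mul_one, one_mul]
  | cons p L ih =>
    rw [gW_cons, ← mul_assoc, Y4_letter F p.1 (hL p List.mem_cons_self) s p.2, mul_assoc,
      ih (fun q hq => hL q (List.mem_cons_of_mem _ hq)), mul_assoc]

theorem B_letter (k : ℕ) (hk : k = 8 ∨ k = 9 ∨ k = 10 ∨ k = 11) (v x : F) :
    (gX F 6 v)⁻¹ * gX F k x * gX F 6 v =
      gX F k x * gX F 11 (-(v * (if k = 10 then x else 0))) := by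
  rcases hk with rfl | rfl | rfl | rfl
  · rw [mul_assoc, B_Y1, inv_mul_cancel_left]
    simp [gX_zero]
  · rw [mul_assoc, B_Y2, inv_mul_cancel_left]
    simp [gX_zero]
  · rw [mul_assoc, B_Y3, mul_assoc, inv_mul_cancel_left]
    simp
  · rw [mul_assoc, B_Y4, inv_mul_cancel_left]
    simp [gX_zero]

theorem B_word (L : List (ℕ × F)) (hL : IsY F L) (v : F) :
    (gX F 6 v)⁻¹ * gW F L * gX F 6 v = gW F L * gX F 11 (-(v * y3 F L)) := by
  induction L with
  | nil => simp [gW_nil, y3, gX_zero]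
  | cons p L ih =>
    have hp := hL p List.mem_cons_self
    have hL' : IsY F L := fun q hq => hL q (List.mem_cons_of_mem _ hq)
    have e1 : (gX F 6 v)⁻¹ * (gX F p.1 p.2 * gW F L) * gX F 6 v =
        ((gX F 6 v)⁻¹ * gX F p.1 p.2 * gX F 6 v) * ((gX F 6 v)⁻¹ * gW F L * gX F 6 v) := by
      group
    rw [gW_cons, e1, B_letter F p.1 hp, ih hL', y3_cons]
    have e2 : gX F p.1 p.2 * gX F 11 (-(v * (if p.1 = 10 then p.2 else 0))) *
        (gW F L * gX F 11 (-(v * y3 F L))) =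
        gX F p.1 p.2 * (gX F 11 (-(v * (if p.1 = 10 then p.2 else 0))) * gW F L) *
          gX F 11 (-(v * y3 F L)) := by
      group
    rw [e2, Y4_word F L hL', mul_assoc, mul_assoc, gX_mul, ← mul_assoc]
    congr 2
    ring

/-- `⟦x_b(v), W⟧` for a word `W` in the `y`'s -/
theorem cmm_B_word (L : List (ℕ × F)) (hL : IsY F L) (v : F) :
    cmm (gX F 6 v) (gW F L) = gX F 11 (v * y3 F L) := by
  have h := B_word F L hL v
  have e : cmm (gX F 6 v) (gW F L) = ((gX F 6 v)⁻¹ * gW F L * gX F 6 v)⁻¹ * gW F L := by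
    unfold cmm
    group
  rw [e, h, mul_inv_rev, inv_mul_cancel_right, gX_inv, neg_neg]

/-! ### the invariant holds for `(b, a)` -/

theorem Rba (t u v w : F) :
    gX F 7 w * cmm (gX F 6 v) (cmm (gX F 6 t) (gX F 7 u)) =
      cmm (gX F 6 v) (cmm (gX F 6 t) (gX F 7 u)) * gX F 7 w := by
  rw [cmm_B_A, cmm_B_word]
  · exact (A_Y4 F w _).symm
  · intro p hp
    simp only [List.mem_cons, List.not_mem_nil, or_false] at hp
    rcases hp with rfl | rfl | rfl | rfl <;> simp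

/-! ### the invariant fails for `(a, b)` -/

theorem conjA4 (v s1 s2 s3 s4 : F) :
    (gX F 7 v)⁻¹ * gW F [(8, s1), (9, s2), (10, s3), (11, s4)] * gX F 7 v =
      gW F [(8, s1), (9, 2 * v * s1), (10, -(3 * v ^ 2 * s1)), (11, -(3 * v * s1 ^ 2)),
        (9, s2), (10, -(3 * v * s2)), (10, s3), (11, s4)] := by
  have h1 : (gX F 7 v)⁻¹ * gX F 8 s1 * gX F 7 v = gX F 8 s1 *
      (gX F 9 (2 * v * s1) * (gX F 10 (-(3 * v ^ 2 * s1)) * gX F 11 (-(3 * v * s1 ^ 2)))) := by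
    rw [mul_assoc, A_Y1, mul_assoc, inv_mul_cancel_left]
  have h2 : (gX F 7 v)⁻¹ * gX F 9 s2 * gX F 7 v = gX F 9 s2 * gX F 10 (-(3 * v * s2)) := by
    rw [mul_assoc, A_Y2, mul_assoc, inv_mul_cancel_left]
  have h3 : (gX F 7 v)⁻¹ * gX F 10 s3 * gX F 7 v = gX F 10 s3 := by
    rw [mul_assoc, A_Y3, inv_mul_cancel_left]
  have h4 : (gX F 7 v)⁻¹ * gX F 11 s4 * gX F 7 v = gX F 11 s4 := by
    rw [mul_assoc, A_Y4, inv_mul_cancel_left]
  have e : (gX F 7 v)⁻¹ * (gX F 8 s1 * (gX F 9 s2 * (gX F 10 s3 * gX F 11 s4))) * gX F 7 v =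
      ((gX F 7 v)⁻¹ * gX F 8 s1 * gX F 7 v) * (((gX F 7 v)⁻¹ * gX F 9 s2 * gX F 7 v) *
        (((gX F 7 v)⁻¹ * gX F 10 s3 * gX F 7 v) * ((gX F 7 v)⁻¹ * gX F 11 s4 * gX F 7 v))) := by
    group
  simp only [gW_cons, gW_nil, mul_one]
  rw [e, h1, h2, h3, h4]
  simp only [mul_assoc]

theorem notRab (h3 : (3 : F) ≠ 0) (ζ : F) (hζ : ζ ≠ 0) (hζ1 : ζ + 1 ≠ 0)
    (hcomm : gX F 6 1 * cmm (gX F 7 ζ) (cmm (gX F 7 1) (gX F 6 1)) =
      cmm (gX F 7 ζ) (cmm (gX F 7 1) (gX F 6 1)) * gX F 6 1) : False := by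
  obtain ⟨Lc, hLc⟩ : ∃ Lc : List (ℕ × F), Lc = [(8, -1), (9, -1), (10, 1), (11, -2)] := ⟨_, rfl⟩
  obtain ⟨Lc', hLc'⟩ : ∃ Lc' : List (ℕ × F), Lc' = [(8, -1), (9, 2 * ζ * (-1)),
      (10, -(3 * ζ ^ 2 * (-1))), (11, -(3 * ζ * (-1) ^ 2)), (9, -1), (10, -(3 * ζ * (-1))),
      (10, 1), (11, -2)] := ⟨_, rfl⟩
  have hY : IsY F Lc := by
    intro p hp
    rw [hLc] at hp
    simp only [List.mem_cons, List.not_mem_nil, or_false] at hp
    rcases hp with rfl | rfl | rfl | rfl <;> simp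
  have hY' : IsY F Lc' := by
    intro p hp
    rw [hLc'] at hp
    simp only [List.mem_cons, List.not_mem_nil, or_false] at hp
    rcases hp with rfl | rfl | rfl | rfl | rfl | rfl | rfl | rfl <;> simp
  have hy : y3 F Lc = 1 := by rw [hLc]; simp [y3]
  have hy' : y3 F Lc' = 3 * ζ ^ 2 + 3 * ζ + 1 := by
    rw [hLc']; simp [y3]; ring
  have hc : cmm (gX F 7 1) (gX F 6 1) = gW F Lc := by rw [hLc]; exact cmm_A_B F
  have hconj : (gX F 7 ζ)⁻¹ * gW F Lc * gX F 7 ζ = gW F Lc' := by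
    rw [hLc, hLc']; exact conjA4 F ζ (-1) (-1) 1 (-2)
  have hd : cmm (gX F 7 ζ) (gW F Lc) = (gW F Lc')⁻¹ * gW F Lc := by
    rw [← hconj]
    unfold cmm
    group
  rw [hc, hd] at hcomm
  have h1 : (gX F 6 1)⁻¹ * ((gW F Lc')⁻¹ * gW F Lc) * gX F 6 1 = (gW F Lc')⁻¹ * gW F Lc := by
    rw [mul_assoc, ← hcomm, inv_mul_cancel_left]
  have h2 : (gX F 6 1)⁻¹ * ((gW F Lc')⁻¹ * gW F Lc) * gX F 6 1 =
      ((gX F 6 1)⁻¹ * gW F Lc' * gX F 6 1)⁻¹ * ((gX F 6 1)⁻¹ * gW F Lc * gX F 6 1) := by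
    group
  rw [h2, B_word F Lc' hY', B_word F Lc hY, hy, hy'] at h1
  generalize hP : gX F 11 (-(1 * (3 * ζ ^ 2 + 3 * ζ + 1))) = P at h1
  generalize hQ : gX F 11 (-(1 * 1)) = Q at h1
  have hQW : Commute Q (gW F Lc) := by rw [← hQ]; exact Y4_word F Lc hY _
  have hQW' : Commute Q (gW F Lc') := by rw [← hQ]; exact Y4_word F Lc' hY' _
  have hQM : Commute Q ((gW F Lc')⁻¹ * gW F Lc) := (hQW'.inv_right).mul_right hQW
  have h4 : (gW F Lc' * P)⁻¹ * (gW F Lc * Q) = P⁻¹ * ((gW F Lc')⁻¹ * gW F Lc) * Q := by group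
  rw [h4, mul_assoc, ← hQM.eq, ← mul_assoc] at h1
  have h5 : P⁻¹ * Q = 1 := mul_right_cancel (h1.trans (one_mul _).symm)
  rw [← hP, ← hQ, gX_inv, gX_mul] at h5
  have h6 := gX_eq_one F (by decide) h5
  have h7 : 3 * (ζ * (ζ + 1)) = 0 := by linear_combination h6
  rcases mul_eq_zero.mp h7 with h | h
  · exact h3 h
  · rcases mul_eq_zero.mp h with h | h
    · exact hζ h
    · exact hζ1 h

end

/-! ### the piece -/

theorem xG_coe (F : Type u) [Field F] (r : ℕ) (t : F) :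
    ((xG (packS_G2 F).hP.sem r t : ↥(chevG2.group F)) : GL chevG2.Idx F) = gX F r t := rfl

theorem noFlipG2 : StNoFlipG2.{u} := by
  intro F _ h3 hζ θ hθ
  obtain ⟨ζ, hζ0, hζ1⟩ := hζ
  obtain ⟨hab, hba⟩ := hθ
  have e0 : chevG2.simple 0 = 7 := by decide
  have e1 : chevG2.simple 1 = 6 := by decide
  rw [e0, e1] at hab hba
  obtain ⟨t₀, ht₀⟩ := hba.2 1
  obtain ⟨v₀, hv₀⟩ := hba.2 ζ
  obtain ⟨u₀, hu₀⟩ := hab.2 1
  have hR := Rba F t₀ u₀ v₀ u₀
  have hR' : xG (packS_G2 F).hP.sem 7 u₀ * cmm (xG (packS_G2 F).hP.sem 6 v₀)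
        (cmm (xG (packS_G2 F).hP.sem 6 t₀) (xG (packS_G2 F).hP.sem 7 u₀)) =
      cmm (xG (packS_G2 F).hP.sem 6 v₀)
        (cmm (xG (packS_G2 F).hP.sem 6 t₀) (xG (packS_G2 F).hP.sem 7 u₀)) *
        xG (packS_G2 F).hP.sem 7 u₀ := by
    apply Subtype.ext
    simp only [cmm, Subgroup.coe_mul, Subgroup.coe_inv, xG_coe]
    simpa only [cmm] using hR
  have hθ := congrArg θ hR'
  simp only [cmm, map_mul, map_inv, ht₀, hv₀, hu₀] at hθ
  have hGL := congrArg (Subtype.val : ↥(chevG2.group F) → GL chevG2.Idx F) hθ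
  simp only [Subgroup.coe_mul, Subgroup.coe_inv, xG_coe] at hGL
  exact notRab F h3 ζ hζ0 hζ1 (by simpa only [cmm] using hGL)

example : Cfsg.Agent.H46.OutG.StNoFlipG2.{u} := noFlipG2

end Cfsg.Agent.H37.OutG
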