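import Mathlib

set_option autoImplicit false

/-!
# S4707-W2 (helper37, for helper74): `C(P) = P` for a primitive group of degree `2p`
whose Sylow `p`-subgroup has order `p` and normalizer of order `2p`.
-/

namespace Cfsg.Agent.H37.PD

open Equiv MulAction

variable {Ω : Type*} [Fintype Ω] [DecidableEq Ω]

/-- a nontrivial normal subgroup of a primitive permutation group is transitive, so the degree
divides its order -/
theorem card_dvd_of_normal {G : Subgroup (Perm Ω)} (hprim : IsPreprimitive G Ω)
    (N : Subgroup G) [N.Normal] (hN : N ≠ ⊥) : Fintype.card Ω ∣ Nat.card N := by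
  classical
  have hfix : fixedPoints N Ω ≠ Set.univ := by
    intro h
    apply hN
    rw [Subgroup.eq_bot_iff_forall]
    intro n hn
    apply Subtype.ext
    ext ω
    have h1 : ω ∈ fixedPoints N Ω := by rw [h]; trivial
    exact h1 ⟨n, hn⟩
  have : IsPretransitive N Ω := IsQuasiPreprimitive.isPretransitive_of_normal hfix
  rcases isEmpty_or_nonempty Ω with hΩ | ⟨⟨ω⟩⟩
  · exfalso
    apply hN
    rw [Subgroup.eq_bot_iff_forall]
    intro n _
    apply Subtype.ext
    ext ω
    exact (hΩ.false ω).elim
  · have h1 : (stabilizer N ω).index = Nat.card Ω := index_stabilizer_of_transitive N ω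
    rw [← Nat.card_eq_fintype_card, ← h1]
    exact Subgroup.index_dvd_card _

/-- a Sylow `p`-subgroup of order `p` forces `p² ∤ |G|` -/
theorem not_sq_dvd_card {G : Type*} [Group G] [Finite G] {p : ℕ} [Fact p.Prime] (P : Sylow p G)
    (hP : Nat.card P = p) : ¬ p ^ 2 ∣ Nat.card G := by
  intro h
  have hp : p.Prime := Fact.out
  have h1 := P.not_dvd_index
  have h2 : Nat.card (P : Subgroup G) * (P : Subgroup G).index = Nat.card G :=
    Subgroup.card_mul_index _
  have hP' : Nat.card (P : Subgroup G) = p := hP
  rw [hP'] at h2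
  rw [← h2, pow_two] at h
  exact h1 ((Nat.mul_dvd_mul_iff_left hp.pos).mp h)

/-- a Sylow subgroup of prime order lies in its centralizer -/
theorem sylow_le_centralizer {G : Type*} [Group G] {p : ℕ} [Fact p.Prime] (P : Sylow p G)
    (hP : Nat.card P = p) :
    (P : Subgroup G) ≤ Subgroup.centralizer ((P : Subgroup G) : Set G) := by
  have hP' : Nat.card (P : Subgroup G) = p := hP
  have : IsCyclic (P : Subgroup G) := isCyclic_of_prime_card hP'
  exact Subgroup.le_centralizer_iff_isMulCommutative.mpr inferInstance

theorem centralizer_eq_of_prim {G : Subgroup (Perm Ω)} {p : ℕ} [Fact p.Prime]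
    (hcard : Fintype.card Ω = 2 * p) (hprim : IsPreprimitive G Ω) (P : Sylow p G)
    (hP : Nat.card P = p)
    (hN : Nat.card (Subgroup.normalizer ((P : Subgroup G) : Set G)) = 2 * p) :
    Subgroup.centralizer ((P : Subgroup G) : Set G) = (P : Subgroup G) := by
  classical
  have hp : p.Prime := Fact.out
  have hP' : Nat.card (P : Subgroup G) = p := hP
  have hPC := sylow_le_centralizer P hP
  have hCN : Subgroup.centralizer ((P : Subgroup G) : Set G) ≤
      Subgroup.normalizer ((P : Subgroup G) : Set G) := Subgroup.centralizer_le_normalizer _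
  by_contra hne
  -- `|C(P)|` is a multiple of `p` dividing `2p`, different from `p`
  have hd1 : p ∣ Nat.card (Subgroup.centralizer ((P : Subgroup G) : Set G)) := by
    have := Subgroup.card_dvd_of_le hPC
    rwa [hP'] at this
  have hd2 : Nat.card (Subgroup.centralizer ((P : Subgroup G) : Set G)) ∣ 2 * p := by
    have := Subgroup.card_dvd_of_le hCN
    rwa [hN] at this
  have hnep : Nat.card (Subgroup.centralizer ((P : Subgroup G) : Set G)) ≠ p := by
    intro h
    apply hne
    exact (Subgroup.eq_of_le_of_card_ge hPC (by rw [h, hP'])).symm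
  have hC2 : Nat.card (Subgroup.centralizer ((P : Subgroup G) : Set G)) = 2 * p := by
    obtain ⟨a, ha⟩ := hd1
    obtain ⟨b, hb⟩ := hd2
    rw [ha] at hb hnep ⊢
    have hab : a * b = 2 := by
      have : p * (a * b) = p * 2 := by rw [← mul_assoc, ← hb, mul_comm]
      exact Nat.eq_of_mul_eq_mul_left hp.pos this
    have ha2 : a ∣ 2 := Dvd.intro _ hab
    have ha' : a = 1 ∨ a = 2 := by
      have := Nat.le_of_dvd (by norm_num) ha2
      interval_cases a
      · simp at hab
      · exact Or.inl rfl
      · exact Or.inr rfl
    rcases ha' with rfl | rfl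
    · exact absurd (mul_one p) hnep
    · exact mul_comm p 2
  have hNC : Subgroup.normalizer ((P : Subgroup G) : Set G) ≤
      Subgroup.centralizer ((P : Subgroup G) : Set G) := by
    have := Subgroup.eq_of_le_of_card_ge hCN (by rw [hC2, hN])
    exact this.symm.le
  -- Burnside's transfer theorem
  have hcompl := MonoidHom.ker_transferSylow_isComplement' P hNC
  have hmul := hcompl.card_mul_card
  rw [hP'] at hmul
  by_cases hK : (MonoidHom.transferSylow P hNC).ker = ⊥
  · rw [hK, Subgroup.card_bot, one_mul] at hmul
    have h2 : 2 * p ∣ p := by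
      have := Subgroup.card_subgroup_dvd_card (Subgroup.normalizer ((P : Subgroup G) : Set G))
      rwa [hN, ← hmul] at this
    have := Nat.le_of_dvd hp.pos h2
    have := hp.pos
    omega
  · have h1 := card_dvd_of_normal hprim (MonoidHom.transferSylow P hNC).ker hK
    rw [hcard] at h1
    have h2 : p ∣ Nat.card (MonoidHom.transferSylow P hNC).ker := (Dvd.intro_left 2 rfl).trans h1
    apply not_sq_dvd_card P hP
    rw [← hmul, pow_two]
    exact Nat.mul_dvd_mul_right h2 p

end Cfsg.Agent.H37.PD

section check
open Equiv MulAction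
variable {Ω : Type*} [Fintype Ω] [DecidableEq Ω]

example {G : Subgroup (Perm Ω)} {p : ℕ} [Fact p.Prime]
    (hcard : Fintype.card Ω = 2 * p) (hprim : IsPreprimitive G Ω) (P : Sylow p G)
    (hP : Nat.card P = p)
    (hN : Nat.card (Subgroup.normalizer ((P : Subgroup G) : Set G)) = 2 * p) :
    Subgroup.centralizer ((P : Subgroup G) : Set G) = (P : Subgroup G) :=
  Cfsg.Agent.H37.PD.centralizer_eq_of_prim hcard hprim P hP hN
end check
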