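import Cfsg.Agent.H37.PDW2

set_option autoImplicit false

/-!
# S4707-W3 (helper37, for helper74): a primitive group of degree `2p` whose Sylow
`p`-subgroup has order `p` and normalizer of order `2p` is simple.
-/

namespace Cfsg.Agent.H37.PD

open Equiv MulAction

open scoped Pointwise

variable {Ω : Type*} [Fintype Ω] [DecidableEq Ω]

/-- a multiple of the prime `p` dividing `2p` is `p` or `2p` -/
theorem eq_or_eq_of_dvd_two_mul {n p : ℕ} (hp : p.Prime) (h1 : p ∣ n) (h2 : n ∣ 2 * p) :
    n = p ∨ n = 2 * p := by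
  obtain ⟨a, rfl⟩ := h1
  obtain ⟨b, hb⟩ := h2
  have hab : a * b = 2 := by
    have : p * (a * b) = p * 2 := by rw [← mul_assoc, ← hb, mul_comm]
    exact Nat.eq_of_mul_eq_mul_left hp.pos this
  have ha2 : a ∣ 2 := Dvd.intro _ hab
  have hle := Nat.le_of_dvd (by norm_num) ha2
  interval_cases a
  · simp at hab
  · exact Or.inl (mul_one p)
  · exact Or.inr (mul_comm p 2)

/-- a normal subgroup of order divisible by `p` contains a Sylow `p`-subgroup of order `p` -/
theorem sylow_le_normal {G : Type*} [Group G] [Finite G] {p : ℕ} [Fact p.Prime] (P : Sylow p G)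
    (hP : Nat.card P = p) (K : Subgroup G) [hK : K.Normal] (hpK : p ∣ Nat.card K) :
    (P : Subgroup G) ≤ K := by
  have hp : p.Prime := Fact.out
  have hP' : Nat.card (P : Subgroup G) = p := hP
  obtain ⟨x, hx⟩ := exists_prime_orderOf_dvd_card' (G := K) p hpK
  have hxG : orderOf (x : G) = p := by rw [Subgroup.orderOf_coe]; exact hx
  have hpg : IsPGroup p (Subgroup.zpowers (x : G)) := by
    apply IsPGroup.of_card (n := 1)
    rw [Nat.card_zpowers, hxG, pow_one]
  obtain ⟨Q, hQ⟩ := hpg.exists_le_sylow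
  obtain ⟨n, hn⟩ := MulAction.exists_smul_eq G Q P
  have h1 : (x : G) ∈ (Q : Subgroup G) := hQ (Subgroup.mem_zpowers _)
  have h2 : MulAut.conj n • (x : G) ∈ MulAut.conj n • (Q : Subgroup G) :=
    Subgroup.smul_mem_pointwise_smul _ _ _ h1
  have h3 : (MulAut.conj n • (Q : Subgroup G)) = (P : Subgroup G) := by
    rw [← Sylow.coe_subgroup_smul, hn]
  rw [h3] at h2
  have h4 : MulAut.conj n • (x : G) = n * x * n⁻¹ := by simp [MulAut.smul_def]
  rw [h4] at h2
  have hord : orderOf (n * (x : G) * n⁻¹) = p := by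
    rw [← MulAut.conj_apply, MulEquiv.orderOf_eq, hxG]
  have hz : Subgroup.zpowers (n * (x : G) * n⁻¹) = (P : Subgroup G) :=
    Subgroup.eq_of_le_of_card_ge (by rwa [Subgroup.zpowers_le])
      (by rw [Nat.card_zpowers, hord, hP'])
  rw [← hz, Subgroup.zpowers_le]
  exact hK.conj_mem _ x.2 n

theorem simple_of_prim {G : Subgroup (Perm Ω)} {p : ℕ} [Fact p.Prime]
    (hcard : Fintype.card Ω = 2 * p) (hprim : IsPreprimitive G Ω) (P : Sylow p G)
    (hP : Nat.card P = p)
    (hN : Nat.card (Subgroup.normalizer ((P : Subgroup G) : Set G)) = 2 * p) :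
    IsSimpleGroup G := by
  classical
  have hp : p.Prime := Fact.out
  have hP' : Nat.card (P : Subgroup G) = p := hP
  have hnt : Nontrivial G := by
    have h1 : 1 < Nat.card G := by
      have := Subgroup.card_subgroup_dvd_card (P : Subgroup G)
      rw [hP'] at this
      exact lt_of_lt_of_le hp.one_lt (Nat.le_of_dvd Nat.card_pos this)
    exact Finite.one_lt_card_iff_nontrivial.mp h1
  refine ⟨fun K hK => ?_⟩
  by_cases hKb : K = ⊥
  · exact Or.inl hKb
  right
  by_contra hKt
  have h1 := card_dvd_of_normal hprim K hKb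
  rw [hcard] at h1
  have hpK : p ∣ Nat.card K := (Dvd.intro_left 2 rfl).trans h1
  have hPK : (P : Subgroup G) ≤ K := sylow_le_normal P hP K hpK
  -- the Frattini argument
  have hfr : Subgroup.normalizer ((P : Subgroup G) : Set G) ⊔ K = ⊤ :=
    Sylow.normalizer_sup_eq_top' P hPK
  have hNK : ¬ Subgroup.normalizer ((P : Subgroup G) : Set G) ≤ K := by
    intro h
    apply hKt
    rw [← hfr]
    exact (sup_eq_right.mpr h).symm
  have hPN : (P : Subgroup G) ≤ Subgroup.normalizer ((P : Subgroup G) : Set G) :=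
    Subgroup.le_normalizer
  have hinf : Subgroup.normalizer ((P : Subgroup G) : Set G) ⊓ K = (P : Subgroup G) := by
    have hle : (P : Subgroup G) ≤ Subgroup.normalizer ((P : Subgroup G) : Set G) ⊓ K :=
      le_inf hPN hPK
    have hd1 : p ∣ Nat.card ↥(Subgroup.normalizer ((P : Subgroup G) : Set G) ⊓ K) := by
      have := Subgroup.card_dvd_of_le hle
      rwa [hP'] at this
    have hd2 : Nat.card ↥(Subgroup.normalizer ((P : Subgroup G) : Set G) ⊓ K) ∣ 2 * p := by
      have := Subgroup.card_dvd_of_le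
        (inf_le_left : Subgroup.normalizer ((P : Subgroup G) : Set G) ⊓ K ≤ _)
      rwa [hN] at this
    rcases eq_or_eq_of_dvd_two_mul hp hd1 hd2 with h | h
    · exact (Subgroup.eq_of_le_of_card_ge hle (by rw [h, hP'])).symm
    · exfalso
      apply hNK
      have := Subgroup.eq_of_le_of_card_ge
        (inf_le_left : Subgroup.normalizer ((P : Subgroup G) : Set G) ⊓ K ≤ _) (by rw [h, hN])
      rw [← this]
      exact inf_le_right
  -- the Sylow subgroup of `K`
  have hP'c : ((P.subtype hPK : Sylow p K) : Subgroup K) = (P : Subgroup G).subgroupOf K :=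
    Sylow.coe_subtype P hPK
  have hP'card : Nat.card (P.subtype hPK : Sylow p K) = p := by
    show Nat.card ((P.subtype hPK : Sylow p K) : Subgroup K) = p
    rw [hP'c]
    exact (Nat.card_congr (Subgroup.subgroupOfEquivOfLe hPK).toEquiv).trans hP'
  have hNC' : Subgroup.normalizer (((P.subtype hPK : Sylow p K) : Subgroup K) : Set K) ≤
      Subgroup.centralizer (((P.subtype hPK : Sylow p K) : Subgroup K) : Set K) := by
    have hsub : Subgroup.normalizer (((P.subtype hPK : Sylow p K) : Subgroup K) : Set K) ≤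
        ((P.subtype hPK : Sylow p K) : Subgroup K) := by
      intro x hx
      rw [hP'c, Subgroup.mem_subgroupOf, ← hinf]
      refine Subgroup.mem_inf.mpr ⟨?_, x.2⟩
      rw [hP'c, Subgroup.mem_normalizer_iff] at hx
      rw [Subgroup.mem_normalizer_iff]
      intro y
      constructor
      · intro hy
        have hyK : y ∈ K := hPK hy
        have := (hx ⟨y, hyK⟩).mp (by rw [Subgroup.mem_subgroupOf]; exact hy)
        rw [Subgroup.mem_subgroupOf] at this
        simpa using this
      · intro hy
        have hyK : y ∈ K := by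
          have h1 : (x : G) * y * (x : G)⁻¹ ∈ K := hPK hy
          have := K.mul_mem (K.mul_mem (K.inv_mem x.2) h1) x.2
          simpa [mul_assoc] using this
        have := (hx ⟨y, hyK⟩).mpr (by rw [Subgroup.mem_subgroupOf]; simpa using hy)
        rw [Subgroup.mem_subgroupOf] at this
        exact this
    exact hsub.trans (sylow_le_centralizer (P.subtype hPK) hP'card)
  -- Burnside's transfer theorem in `K`
  have hcompl := MonoidHom.ker_transferSylow_isComplement' (P.subtype hPK) hNC'
  have hmul := hcompl.card_mul_card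
  have hndvd : ¬ p ∣ Nat.card (MonoidHom.transferSylow (P.subtype hPK) hNC').ker :=
    MonoidHom.not_dvd_card_ker_transferSylow (P.subtype hPK) hNC'
  have hmul' : Nat.card (MonoidHom.transferSylow (P.subtype hPK) hNC').ker * p = Nat.card K := by
    rw [← hmul]
    congr 1
    exact hP'card.symm
  have hLcard : Nat.card (((MonoidHom.transferSylow (P.subtype hPK) hNC').ker).map K.subtype) =
      Nat.card (MonoidHom.transferSylow (P.subtype hPK) hNC').ker :=
    Subgroup.card_map_of_injective (Subgroup.subtype_injective K)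
  have hLnormal : (((MonoidHom.transferSylow (P.subtype hPK) hNC').ker).map K.subtype).Normal := by
    constructor
    intro y hy g
    obtain ⟨k, hk, rfl⟩ := hy
    have hgk : g * (k : G) * g⁻¹ ∈ K := hK.conj_mem _ k.2 g
    refine ⟨⟨g * k * g⁻¹, hgk⟩, ?_, rfl⟩
    rw [SetLike.mem_coe, MonoidHom.mem_ker]
    have ho1 : orderOf (MonoidHom.transferSylow (P.subtype hPK) hNC' ⟨g * k * g⁻¹, hgk⟩) ∣
        orderOf (⟨g * k * g⁻¹, hgk⟩ : K) := orderOf_map_dvd _ _
    have ho2 : orderOf (⟨g * k * g⁻¹, hgk⟩ : K) = orderOf k := by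
      have e1 : orderOf (⟨g * k * g⁻¹, hgk⟩ : K) = orderOf (g * (k : G) * g⁻¹) :=
        Subgroup.orderOf_mk _ _
      have e2 : orderOf k = orderOf (k : G) := (Subgroup.orderOf_coe k).symm
      rw [e1, e2, ← MulAut.conj_apply, MulEquiv.orderOf_eq]
    have ho3 : orderOf k ∣ Nat.card (MonoidHom.transferSylow (P.subtype hPK) hNC').ker := by
      have := orderOf_dvd_natCard
        (⟨k, hk⟩ : (MonoidHom.transferSylow (P.subtype hPK) hNC').ker)
      rwa [Subgroup.orderOf_mk] at this
    have ho4 : orderOf (MonoidHom.transferSylow (P.subtype hPK) hNC' ⟨g * k * g⁻¹, hgk⟩) ∣ p := by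
      have := orderOf_dvd_natCard
        (MonoidHom.transferSylow (P.subtype hPK) hNC' ⟨g * k * g⁻¹, hgk⟩)
      rwa [hP'card] at this
    have ho5 : orderOf (MonoidHom.transferSylow (P.subtype hPK) hNC' ⟨g * k * g⁻¹, hgk⟩) = 1 := by
      rcases (Nat.dvd_prime hp).mp ho4 with h | h
      · exact h
      · exfalso
        have h5 := ho1.trans (ho2 ▸ ho3)
        rw [h] at h5
        exact hndvd h5
    exact orderOf_eq_one_iff.mp ho5
  by_cases hLb : ((MonoidHom.transferSylow (P.subtype hPK) hNC').ker).map K.subtype = ⊥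
  · have h3 : Nat.card (MonoidHom.transferSylow (P.subtype hPK) hNC').ker = 1 := by
      rw [← hLcard, hLb, Subgroup.card_bot]
    rw [h3, one_mul] at hmul'
    rw [← hmul'] at h1
    have := Nat.le_of_dvd hp.pos h1
    have := hp.pos
    omega
  · have h2 := card_dvd_of_normal hprim _ hLb
    rw [hcard, hLcard] at h2
    exact hndvd ((Dvd.intro_left 2 rfl).trans h2)

end Cfsg.Agent.H37.PD

section check
open Equiv MulAction
variable {Ω : Type*} [Fintype Ω] [DecidableEq Ω]

example {G : Subgroup (Perm Ω)} {p : ℕ} [Fact p.Prime]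
    (hcard : Fintype.card Ω = 2 * p) (hprim : IsPreprimitive G Ω) (P : Sylow p G)
    (hP : Nat.card P = p)
    (hN : Nat.card (Subgroup.normalizer ((P : Subgroup G) : Set G)) = 2 * p) :
    IsSimpleGroup G :=
  Cfsg.Agent.H37.PD.simple_of_prim hcard hprim P hP hN
end check
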