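import Mathlib
import Cfsg.Prelude.Def_OddOrderLocal
import Cfsg.Agent.H54.CharP2
import Cfsg.Agent.H1.Coprime
import Cfsg.Agent.H1.HallHigman
import Cfsg.Agent.H38.PiCore

set_option autoImplicit false
set_option linter.unusedSectionVars false

/-!
# A criterion for a `q`-subgroup to lie in `O_{π'}` of a solvable group (helper37, for S1481)

`T` is a finite solvable group, `π` the set of prime divisors of `n`, `Z p` (`p ∈ π`) commuting
`p`-subgroups of a subgroup `M`, such that `C_T(Z p)` normalizes every `Z p₂` and contains no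
nontrivial `M`-invariant `π'`-subgroup.  Then every `M`-invariant `q`-subgroup (`q ∉ π`, `|π| ≥ 2`)
lies in `O_{π'}(T)`.
-/

namespace Cfsg.Agent.H37.MaxLocal

open Cfsg Subgroup Cfsg.Agent.H54

universe u

section abstract

variable {T : Type u} [Group T]

theorem le_normalizer_sup' {A X Y : Subgroup T} (hX : A ≤ normalizer (X : Set T))
    (hY : A ≤ normalizer (Y : Set T)) : A ≤ normalizer ((X ⊔ Y : Subgroup T) : Set T) := by
  apply le_normalizer_of_conj_mem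
  intro g hg x hx
  have hle : X ⊔ Y ≤ (X ⊔ Y).comap (MulAut.conj g).toMonoidHom := by
    apply sup_le
    · intro y hy
      rw [Subgroup.mem_comap]
      have : g * y * g⁻¹ ∈ X ⊔ Y := (le_sup_left : X ≤ X ⊔ Y) (conj_mem_of_le_normalizer hX hg hy)
      simpa using this
    · intro y hy
      rw [Subgroup.mem_comap]
      have : g * y * g⁻¹ ∈ X ⊔ Y := (le_sup_right : Y ≤ X ⊔ Y) (conj_mem_of_le_normalizer hY hg hy)
      simpa using this
  have := hle hx
  rw [Subgroup.mem_comap] at this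
  simpa using this

theorem le_normalizer_of_normal' (A : Subgroup T) {K : Subgroup T} (hK : K.Normal) :
    A ≤ normalizer (K : Set T) :=
  le_of_le_of_eq le_top (Subgroup.normalizer_eq_top_iff.mpr hK).symm

variable [Finite T]

theorem coprime_card_piCore_primesNotDvd (n : ℕ) :
    (Nat.card (piCore (primesNotDvd n) T)).Coprime n := by
  apply Nat.coprime_of_dvd
  intro r hr hrK hrn
  exact (H38.piNat_card_piCore (primesNotDvd n) r hr hrK).2 hrn

theorem le_piCore_of_local_conditions [Group.IsSolvable T]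
    (n : ℕ) (M Q : Subgroup T) (Z : ℕ → Subgroup T) {q : ℕ} [hq : Fact q.Prime] (hqn : ¬ q ∣ n)
    (hQ : IsPGroup q Q) (hMQ : M ≤ normalizer (Q : Set T))
    (h2 : ∀ p : ℕ, p.Prime → p ∣ n → ∃ p₂ : ℕ, p₂.Prime ∧ p₂ ∣ n ∧ p₂ ≠ p)
    (hZp : ∀ p : ℕ, p.Prime → p ∣ n → IsPGroup p (Z p))
    (hZM : ∀ p : ℕ, p.Prime → p ∣ n → Z p ≤ M)
    (hMZ : ∀ p : ℕ, p.Prime → p ∣ n → M ≤ normalizer (Z p : Set T))
    (hcomm : ∀ p p₂ : ℕ, p.Prime → p ∣ n → p₂.Prime → p₂ ∣ n → p ≠ p₂ →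
      ∀ a ∈ Z p, ∀ b ∈ Z p₂, a * b = b * a)
    (hnorm : ∀ p p₂ : ℕ, p.Prime → p ∣ n → p₂.Prime → p₂ ∣ n → p ≠ p₂ →
      ∀ c ∈ centralizer (Z p : Set T), ∀ z ∈ Z p₂, c * z * c⁻¹ ∈ Z p₂)
    (hstar : ∀ p : ℕ, p.Prime → p ∣ n → ∀ Y : Subgroup T, Y ≤ centralizer (Z p : Set T) →
      M ≤ normalizer (Y : Set T) → (Nat.card Y).Coprime n → Y = ⊥) :
    Q ≤ piCore (primesNotDvd n) T := by
  classical
  obtain ⟨K, hKdef⟩ : ∃ K : Subgroup T, K = piCore (primesNotDvd n) T := ⟨_, rfl⟩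
  have hKn : K.Normal := by rw [hKdef]; infer_instance
  rw [← hKdef]
  obtain ⟨ψ, hψdef⟩ : ∃ ψ : T →* T ⧸ K, ψ = QuotientGroup.mk' K := ⟨_, rfl⟩
  have hψs : Function.Surjective ψ := by rw [hψdef]; exact QuotientGroup.mk'_surjective K
  have hker : ∀ x : T, ψ x = 1 ↔ x ∈ K := by
    intro x; rw [hψdef]; exact QuotientGroup.eq_one_iff x
  have hKcop : (Nat.card K).Coprime n := by rw [hKdef]; exact coprime_card_piCore_primesNotDvd n
  have hKsolv : Group.IsSolvable K := inferInstance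
  have hbar : piCore (primesNotDvd n) (T ⧸ K) = ⊥ := by
    subst hKdef; exact H38.piCore_quotient_piCore _
  have hQcop : (Nat.card Q).Coprime n := by
    obtain ⟨k, hk⟩ := IsPGroup.iff_card.mp hQ
    rw [hk]
    exact Nat.Coprime.pow_left k ((Nat.Prime.coprime_iff_not_dvd hq.out).mpr hqn)
  -- lifting centralizing elements
  have lift : ∀ (A : Subgroup T), (Nat.card A).Coprime (Nat.card K) → ∀ k : T,
      (∀ a ∈ A, ψ a * ψ k = ψ k * ψ a) → ∃ d ∈ K, k * d ∈ centralizer (A : Set T) := by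
    intro A hcop k hk
    apply H1.exists_mul_mem_centralizer A K (le_normalizer_of_normal' A hKn) hcop (Or.inr hKsolv) k
    intro a ha
    rw [← hker]
    have e : ψ (k⁻¹ * a * k * a⁻¹) = (ψ k)⁻¹ * (ψ a * ψ k) * (ψ a)⁻¹ := by
      simp only [map_mul, map_inv, mul_assoc]
    rw [e, hk a ha]
    group
  -- `O_r` of the quotient is trivial for `r ∤ n`
  have hcore_bot : ∀ r : ℕ, r.Prime → ¬ r ∣ n → pCore r (T ⧸ K) = ⊥ := by
    intro r hr hrn
    have : Fact r.Prime := ⟨hr⟩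
    rw [eq_bot_iff, ← hbar]
    apply H38.le_piCore _ inferInstance
    intro s hs hsd
    obtain ⟨k, hk⟩ := IsPGroup.iff_card.mp (pCore_isPGroup r (T ⧸ K))
    rw [hk] at hsd
    have hsr : s = r := (Nat.prime_dvd_prime_iff_eq hs hr).mp (hs.dvd_of_dvd_pow hsd)
    subst hsr
    exact ⟨hs, hrn⟩
  have hZcop : ∀ r : ℕ, r.Prime → r ∣ n → (Nat.card (Z r)).Coprime (Nat.card K) := by
    intro r hr hrn
    have : Fact r.Prime := ⟨hr⟩
    obtain ⟨k, hk⟩ := IsPGroup.iff_card.mp (hZp r hr hrn)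
    rw [hk]
    apply Nat.Coprime.pow_left
    rw [Nat.Prime.coprime_iff_not_dvd hr]
    intro hrK
    exact (Nat.Prime.coprime_iff_not_dvd hr).mp (Nat.Coprime.coprime_dvd_left hrK hKcop) hrn
  -- `Q̄` centralizes `O_p` of the quotient for `p ∣ n`
  have hQbar : ∀ p : ℕ, p.Prime → p ∣ n → ∀ y ∈ Q.map ψ, ∀ x ∈ pCore p (T ⧸ K), y * x = x * y := by
    intro p hp hpn
    obtain ⟨p₂, hp₂, hp₂n, hne⟩ := h2 p hp hpn
    have : Fact p.Prime := ⟨hp⟩
    have : Fact p₂.Prime := ⟨hp₂⟩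
    have hPp : IsPGroup p (pCore p (T ⧸ K)) := pCore_isPGroup p _
    have hPn : (pCore p (T ⧸ K)).Normal := inferInstance
    have hp₂p : (p₂).Coprime p := (Nat.coprime_primes hp₂ hp).mpr hne
    have hZ₂bar : IsPGroup p₂ ((Z p₂).map ψ) := (hZp p₂ hp₂ hp₂n).map ψ
    -- `Z̄_{p₂}` centralizes `O_p`
    have hZP : ∀ a ∈ (Z p₂).map ψ, ∀ x ∈ pCore p (T ⧸ K), a * x = x * a := by
      apply thompson_AxB ((Z p₂).map ψ) ((Z p).map ψ) (pCore p (T ⧸ K)) ((hZp p hp hpn).map ψ)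
        ?_ ?_ hPp (le_normalizer_of_normal' _ hPn) (le_normalizer_of_normal' _ hPn) ?_
      · obtain ⟨k, hk⟩ := IsPGroup.iff_card.mp hZ₂bar
        rw [hk]
        exact Nat.Coprime.pow_left k hp₂p
      · rintro _ ⟨a, ha, rfl⟩ _ ⟨b, hb, rfl⟩
        rw [← map_mul, ← map_mul, hcomm p₂ p hp₂ hp₂n hp hpn hne a ha b hb]
      · rintro _ ⟨z₂, hz₂, rfl⟩ x hx hxB
        obtain ⟨k, rfl⟩ := hψs x
        obtain ⟨d, hd, hc⟩ := lift (Z p) (hZcop p hp hpn) k (fun a ha => hxB (ψ a) ⟨a, ha, rfl⟩)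
        have hψc : ψ (k * d) = ψ k := by rw [map_mul, (hker d).mpr hd, mul_one]
        obtain ⟨c, hcdef⟩ : ∃ c : T, c = k * d := ⟨_, rfl⟩
        rw [← hcdef] at hc hψc
        have hw : c * z₂ * c⁻¹ ∈ Z p₂ := hnorm p p₂ hp hpn hp₂ hp₂n hne.symm c hc z₂ hz₂
        have hw' : c * z₂ * c⁻¹ * z₂⁻¹ ∈ Z p₂ := mul_mem hw (inv_mem hz₂)
        have hψw : ψ (c * z₂ * c⁻¹ * z₂⁻¹) ∈ pCore p (T ⧸ K) := by
          have e : ψ (c * z₂ * c⁻¹ * z₂⁻¹) = ψ k * (ψ z₂ * (ψ k)⁻¹ * (ψ z₂)⁻¹) := by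
            simp only [map_mul, map_inv, hψc, mul_assoc]
          rw [e]
          exact mul_mem hx (hPn.conj_mem _ (inv_mem hx) _)
        have hψw1 : ψ (c * z₂ * c⁻¹ * z₂⁻¹) = 1 := by
          apply eq_one_of_mem_pgroup_of_coprime hPp hψw
          obtain ⟨j, hj⟩ := (hZp p₂ hp₂ hp₂n) ⟨_, hw'⟩
          have hj' : (c * z₂ * c⁻¹ * z₂⁻¹) ^ p₂ ^ j = 1 := by
            simpa using congrArg Subtype.val hj
          have h1 : orderOf (ψ (c * z₂ * c⁻¹ * z₂⁻¹)) ∣ p₂ ^ j := by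
            apply orderOf_dvd_of_pow_eq_one
            rw [← map_pow, hj', map_one]
          exact Nat.Coprime.coprime_dvd_left h1 (Nat.Coprime.pow_left j hp₂p)
        have hwK : c * z₂ * c⁻¹ * z₂⁻¹ ∈ K := (hker _).mp hψw1
        have hw1 : c * z₂ * c⁻¹ * z₂⁻¹ = 1 := by
          have hdis : Disjoint (Z p₂) K :=
            Subgroup.disjoint_of_coprime_natCard (hZcop p₂ hp₂ hp₂n)
          exact (Subgroup.disjoint_def.mp hdis) hw' hwK
        have hcz : c * z₂ = z₂ * c := by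
          calc c * z₂ = (c * z₂ * c⁻¹ * z₂⁻¹) * z₂ * c := by group
            _ = z₂ * c := by rw [hw1, one_mul]
        calc ψ z₂ * ψ k = ψ z₂ * ψ c := by rw [hψc]
          _ = ψ (z₂ * c) := (map_mul _ _ _).symm
          _ = ψ (c * z₂) := by rw [hcz]
          _ = ψ k * ψ z₂ := by rw [map_mul, hψc]
    -- `C_{Q̄}(Z̄_{p₂}) = 1`
    have hCQ : ∀ y ∈ Q.map ψ, (∀ a ∈ (Z p₂).map ψ, a * y = y * a) → y = 1 := by
      rintro _ ⟨k, hk, rfl⟩ hy
      obtain ⟨d, hd, hc⟩ := lift (Z p₂) (hZcop p₂ hp₂ hp₂n) k (fun a ha => hy (ψ a) ⟨a, ha, rfl⟩)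
      have hY : (Q ⊔ K) ⊓ centralizer (Z p₂ : Set T) = ⊥ := by
        apply hstar p₂ hp₂ hp₂n _ inf_le_right
        · apply le_normalizer_inf'
          · exact le_normalizer_sup' hMQ (le_normalizer_of_normal' M hKn)
          · exact (hMZ p₂ hp₂ hp₂n).trans (normalizer_le_normalizer_centralizer _)
        · have h1 : Nat.card ↥(Q ⊔ K) ∣ Nat.card Q * Nat.card K := H38.card_sup_dvd_mul Q K
          have h2 : (Nat.card Q * Nat.card K).Coprime n := Nat.Coprime.mul_left hQcop hKcop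
          exact Nat.Coprime.coprime_dvd_left ((Subgroup.card_dvd_of_le inf_le_left).trans h1) h2
      have hmem : k * d ∈ (Q ⊔ K) ⊓ centralizer (Z p₂ : Set T) :=
        ⟨mul_mem ((le_sup_left : Q ≤ Q ⊔ K) hk) ((le_sup_right : K ≤ Q ⊔ K) hd), hc⟩
      rw [hY, Subgroup.mem_bot] at hmem
      have hkK : k ∈ K := by
        have hkd : k = d⁻¹ := eq_inv_of_mul_eq_one_left hmem
        rw [hkd]; exact inv_mem hd
      exact (hker k).mpr hkK
    have hq₂ : (p₂).Coprime q := by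
      rw [Nat.coprime_primes hp₂ hq.out]
      rintro rfl
      exact hqn hp₂n
    have hQZ : ⁅Q.map ψ, (Z p₂).map ψ⁆ = Q.map ψ := by
      have h := H1.coprime_commutator_sup_centralizer ((Z p₂).map ψ) (Q.map ψ)
        ((Subgroup.map_mono ((hZM p₂ hp₂ hp₂n).trans hMQ)).trans (Subgroup.le_normalizer_map ψ))
        (by
          obtain ⟨k, hk⟩ := IsPGroup.iff_card.mp hZ₂bar
          obtain ⟨j, hj⟩ := IsPGroup.iff_card.mp (hQ.map ψ)
          rw [hk, hj]
          exact Nat.Coprime.pow k j hq₂)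
        (Or.inl inferInstance)
      have hbot : Q.map ψ ⊓ centralizer (((Z p₂).map ψ : Subgroup (T ⧸ K)) : Set (T ⧸ K)) = ⊥ := by
        rw [eq_bot_iff]
        rintro y ⟨hyQ, hyC⟩
        rw [Subgroup.mem_bot]
        exact hCQ y hyQ (fun a ha => (Subgroup.mem_centralizer_iff.mp hyC a ha))
      rw [hbot, sup_bot_eq] at h
      exact h
    have hZPbot : ⁅(Z p₂).map ψ, pCore p (T ⧸ K)⁆ = ⊥ := by
      rw [Subgroup.commutator_eq_bot_iff_le_centralizer]
      intro a ha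
      rw [Subgroup.mem_centralizer_iff]
      intro x hx
      exact (hZP a ha x hx).symm
    have h3 : ⁅⁅Q.map ψ, (Z p₂).map ψ⁆, pCore p (T ⧸ K)⁆ = ⊥ := by
      apply Subgroup.commutator_commutator_eq_bot_of_rotate
      · rw [hZPbot]; exact Subgroup.commutator_bot_left _
      · have hle : ⁅pCore p (T ⧸ K), Q.map ψ⁆ ≤ pCore p (T ⧸ K) := Subgroup.commutator_le_left _ _
        rw [eq_bot_iff]
        calc ⁅⁅pCore p (T ⧸ K), Q.map ψ⁆, (Z p₂).map ψ⁆
            ≤ ⁅pCore p (T ⧸ K), (Z p₂).map ψ⁆ := Subgroup.commutator_mono hle le_rfl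
          _ = ⊥ := by rw [Subgroup.commutator_comm, hZPbot]
    rw [hQZ] at h3
    intro y hy x hx
    have hyc := Subgroup.commutator_eq_bot_iff_le_centralizer.mp h3 hy
    exact (Subgroup.mem_centralizer_iff.mp hyc x hx).symm
  -- `Q̄` centralizes the Fitting subgroup of the quotient
  have hQF : Q.map ψ ≤ centralizer ((fittingSubgroup (T ⧸ K) : Subgroup (T ⧸ K)) : Set (T ⧸ K)) := by
    have hle : fittingSubgroup (T ⧸ K) ≤ centralizer ((Q.map ψ : Subgroup (T ⧸ K)) : Set (T ⧸ K)) := by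
      rw [H1.fitting_eq_iSup_pCore]
      apply iSup_le
      rintro ⟨p, hp⟩
      by_cases hpn : p ∣ n
      · intro x hx
        rw [Subgroup.mem_centralizer_iff]
        intro y hy
        exact hQbar p hp hpn y hy x hx
      · show pCore p (T ⧸ K) ≤ _
        rw [hcore_bot p hp hpn]; exact bot_le
    exact Subgroup.le_centralizer_iff.mp hle
  have hQF' : Q.map ψ ≤ fittingSubgroup (T ⧸ K) := hQF.trans H1.centralizer_fitting_le
  have hFpi : fittingSubgroup (T ⧸ K) ≤ piCore {p | p ∣ n} (T ⧸ K) := by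
    rw [H1.fitting_eq_iSup_pCore]
    apply iSup_le
    rintro ⟨p, hp⟩
    by_cases hpn : p ∣ n
    · apply H38.le_piCore _ inferInstance
      intro s hs hsd
      have : Fact p.Prime := ⟨hp⟩
      obtain ⟨k, hk⟩ := IsPGroup.iff_card.mp (pCore_isPGroup p (T ⧸ K))
      have hsd' : s ∣ p ^ k := by rw [← hk]; exact hsd
      have hsp : s = p := (Nat.prime_dvd_prime_iff_eq hs hp).mp (hs.dvd_of_dvd_pow hsd')
      subst hsp
      exact hpn
    · show pCore p (T ⧸ K) ≤ _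
      rw [hcore_bot p hp hpn]; exact bot_le
  have hQpi : H38.PiNat {p | p ∣ n} (Nat.card (Q.map ψ)) :=
    (H38.piNat_card_piCore _).of_dvd (Subgroup.card_dvd_of_le (hQF'.trans hFpi))
  have hQbot : Q.map ψ = ⊥ := by
    apply Subgroup.eq_bot_of_card_eq
    obtain ⟨k, hk⟩ := IsPGroup.iff_card.mp (hQ.map ψ)
    rcases Nat.eq_zero_or_pos k with h0 | h0
    · rw [hk, h0, pow_zero]
    · have hqd : q ∣ Nat.card (Q.map ψ) := by rw [hk]; exact dvd_pow_self q h0.ne'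
      exact absurd (hQpi q hq.out hqd) hqn
  intro x hx
  rw [← hker]
  have hmem : ψ x ∈ Q.map ψ := ⟨x, hx, rfl⟩
  rw [hQbot, Subgroup.mem_bot] at hmem
  exact hmem

end abstract

end Cfsg.Agent.H37.MaxLocal
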