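import Mathlib
import Cfsg.Agent.H51.RsDefs

/-!
# S2113 (helper51's project), shared small lemmas for RS-STEP4 / RS-STEP5 (helper37)
-/

set_option autoImplicit false

namespace Cfsg.Agent.H37.Rs

open Cfsg.Agent.H96.Ro Cfsg.Agent.H51.Rs

universe u v w

section

variable {K : Type u} [Field K] {G : Type v} [Group G] {n : ℕ} {Γ : Type w} [Group Γ]
  (E : Ext K G n Γ)

theorem inU2_zeta (hn : n ≠ 0) (v : K) : E.InU2 (E.ζ v) := ⟨v, E.σ_ζ hn v⟩

theorem zeta_zero (hadd : ∀ v v' : K, E.ζ (v + v') = E.ζ v * E.ζ v') : E.ζ 0 = 1 := by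
  have h := hadd 0 0
  rw [add_zero] at h
  exact (mul_eq_left (a := E.ζ 0)).1 h.symm

theorem zeta_inv (hadd : ∀ v v' : K, E.ζ (v + v') = E.ζ v * E.ζ v') (v : K) :
    (E.ζ v)⁻¹ = E.ζ (-v) := by
  apply inv_eq_of_mul_eq_one_right
  rw [← hadd, add_neg_cancel, zeta_zero E hadd]

/-- conjugation by an element over `U` fixes an element over `U₂` (given STEP2) -/
theorem conj_inU2 (H2 : ∀ z x : Γ, E.InU2 z → E.InU x → z * x = x * z) {z x : Γ}
    (hz : E.InU2 z) (hx : E.InU x) : x * z * x⁻¹ = z := by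
  rw [← H2 z x hz hx, mul_inv_cancel_right]

/-- `b t s = (b s t)⁻¹` -/
theorem b_swap (t s : K) : E.b t s = (E.b s t)⁻¹ := by
  unfold Ext.b
  rw [cm_inv]

end

end Cfsg.Agent.H37.Rs
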