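import Mathlib
import Cfsg.Agent.H51.RsDefs
import Cfsg.Agent.H37.RsUtil

/-!
# S2113 (helper51's project), piece RS-STEP4 (helper37)

Every commutator of the preimage of `U` is `b t t' * ζ v`.
-/

set_option autoImplicit false

namespace Cfsg.Agent.H37.Rs

open Cfsg.Agent.H96.Ro Cfsg.Agent.H51.Rs

universe u v w

theorem step4 (h1 : StStep1.{u, v, w}) (h2 : StStep2.{u, v, w}) (h3 : StStep3.{u, v, w}) :
    StStep4.{u, v, w} := by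
  intro K _ _ _ m hm hK G _ Γ _ E x y hx hy
  have hn : (3 ^ (m + 1) : ℕ) ≠ 0 := by positivity
  obtain ⟨hadd, -, hcomm⟩ := h3 K m hm hK G Γ E
  have H1 := h1 K m hm hK G Γ E
  have H2 := h2 K m hm hK G Γ E
  obtain ⟨t, u, v, hx⟩ := hx
  obtain ⟨t', u', v', hy⟩ := hy
  have hxe : E.σ x = E.σ (E.r t 0 0 * E.r 0 u v) := by
    rw [hx, map_mul, E.σ_r, E.σ_r, ← R_split1 E.D hn]
  have hye : E.σ y = E.σ (E.r t' 0 0 * E.r 0 u' v') := by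
    rw [hy, map_mul, E.σ_r, E.σ_r, ← R_split1 E.D hn]
  have haU : E.InU1 (E.r 0 u v) := E.inU1_r u v
  have ha'U : E.InU1 (E.r 0 u' v') := E.inU1_r u' v'
  have hrU : E.InU (E.r t 0 0) := E.inU_r t 0 0
  have hr'U : E.InU (E.r t' 0 0) := E.inU_r t' 0 0
  obtain ⟨v₁, hv₁⟩ := hcomm (E.r 0 u v) (E.r t' 0 0 * E.r 0 u' v') haU (Ext.InU.mul E hr'U (Ext.InU1.inU E ha'U))
  obtain ⟨v₂, hv₂⟩ := hcomm (E.r 0 u' v') (E.r t 0 0) ha'U hrU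
  refine ⟨t, t', v₁ - v₂, ?_⟩
  have e1 : E.r t 0 0 * E.ζ v₁ * (E.r t 0 0)⁻¹ = E.ζ v₁ :=
    conj_inU2 E H2 (inU2_zeta E hn v₁) hrU
  have e2 : cm (E.r t 0 0) (E.r 0 u' v') = E.ζ (-v₂) := by
    rw [← cm_inv, hv₂, zeta_inv E hadd]
  have e3 : E.r t' 0 0 * E.ζ (-v₂) * (E.r t' 0 0)⁻¹ = E.ζ (-v₂) :=
    conj_inU2 E H2 (inU2_zeta E hn (-v₂)) hr'U
  have e4 : E.ζ v₁ * E.b t t' = E.b t t' * E.ζ v₁ :=
    H2 _ _ (inU2_zeta E hn v₁) (Ext.InU1.inU E (E.inU1_b t t'))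
  have e5 : cm (E.r t 0 0) (E.r t' 0 0) = E.b t t' := rfl
  rw [E.cm_congr hxe hye, cm_mul_left, hv₁, e1, cm_mul_right, e2, e3, e5, ← mul_assoc, e4,
    mul_assoc, ← hadd, sub_eq_add_neg]

example (h1 : StStep1.{u, v, w}) (h2 : StStep2.{u, v, w}) (h3 : StStep3.{u, v, w}) :
    StStep4.{u, v, w} := step4 h1 h2 h3

end Cfsg.Agent.H37.Rs
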