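import Mathlib
import Cfsg.Agent.H51.RsDefs
import Cfsg.Agent.H37.RsUtil

/-!
# S2113 (helper51's project), piece RS-STEP5 (helper37)

`b` is biadditive modulo `ζ(K)`.
-/

set_option autoImplicit false

namespace Cfsg.Agent.H37.Rs

open Cfsg.Agent.H96.Ro Cfsg.Agent.H51.Rs

universe u v w

theorem step5 (h1 : StStep1.{u, v, w}) (h2 : StStep2.{u, v, w}) (h3 : StStep3.{u, v, w}) :
    StStep5.{u, v, w} := by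
  intro K _ _ _ m hm hK G _ Γ _ E
  have hn : (3 ^ (m + 1) : ℕ) ≠ 0 := by positivity
  obtain ⟨hadd, -, hcomm⟩ := h3 K m hm hK G Γ E
  have H1 := h1 K m hm hK G Γ E
  have H2 := h2 K m hm hK G Γ E
  have key : ∀ t₁ t₂ t' : K, ∃ v : K, E.b (t₁ + t₂) t' = E.b t₁ t' * E.b t₂ t' * E.ζ v := by
    intro t₁ t₂ t'
    obtain ⟨A, hA⟩ : ∃ A : K, A = -(t₂ ^ (3 ^ (m + 1)) * t₁) := ⟨_, rfl⟩
    obtain ⟨B, hB⟩ : ∃ B : K, B = t₂ ^ (3 ^ (m + 1)) * t₁ * t₂ - t₂ ^ (3 ^ (m + 1)) * t₁ ^ 2 :=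
      ⟨_, rfl⟩
    have haU : E.InU1 (E.r 0 A B)⁻¹ := Ext.InU1.inv E (E.inU1_r A B)
    have hx : E.σ (E.r (t₁ + t₂) 0 0) =
        E.σ (E.r t₁ 0 0 * (E.r t₂ 0 0 * (E.r 0 A B)⁻¹)) := by
      rw [map_mul, map_mul, map_inv, E.σ_r, E.σ_r, E.σ_r, E.σ_r, ← mul_assoc, R_t_mul E.D hn,
        hA, hB, mul_inv_cancel_right]
    obtain ⟨v₀, hv₀⟩ := hcomm (E.r 0 A B)⁻¹ (E.r t' 0 0) haU (E.inU_r t' 0 0)
    obtain ⟨v₁, hv₁⟩ := hcomm (E.b t₂ t') (E.r t₁ 0 0) (E.inU1_b t₂ t') (E.inU_r t₁ 0 0)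
    refine ⟨v₀ - v₁, ?_⟩
    have e0 : E.b (t₁ + t₂) t' =
        cm (E.r t₁ 0 0 * (E.r t₂ 0 0 * (E.r 0 A B)⁻¹)) (E.r t' 0 0) := by
      unfold Ext.b
      exact E.cm_congr hx rfl
    have e1 : E.r t₂ 0 0 * E.ζ v₀ * (E.r t₂ 0 0)⁻¹ = E.ζ v₀ :=
      conj_inU2 E H2 (inU2_zeta E hn v₀) (E.inU_r t₂ 0 0)
    have e2 : cm (E.r t₂ 0 0) (E.r t' 0 0) = E.b t₂ t' := rfl
    have e3 : cm (E.r t₁ 0 0) (E.r t' 0 0) = E.b t₁ t' := rfl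
    have e4 : E.r t₁ 0 0 * (E.ζ v₀ * E.b t₂ t') * (E.r t₁ 0 0)⁻¹ =
        E.ζ v₀ * (E.ζ (-v₁) * E.b t₂ t') := by
      have e5 : E.r t₁ 0 0 * E.ζ v₀ * (E.r t₁ 0 0)⁻¹ = E.ζ v₀ :=
        conj_inU2 E H2 (inU2_zeta E hn v₀) (E.inU_r t₁ 0 0)
      have e6 : E.r t₁ 0 0 * E.b t₂ t' * (E.r t₁ 0 0)⁻¹ = E.ζ (-v₁) * E.b t₂ t' := by
        have e7 : cm (E.r t₁ 0 0) (E.b t₂ t') = E.ζ (-v₁) := by
          rw [← cm_inv, hv₁, zeta_inv E hadd]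
        rw [← e7]
        unfold cm
        group
      calc E.r t₁ 0 0 * (E.ζ v₀ * E.b t₂ t') * (E.r t₁ 0 0)⁻¹
          = (E.r t₁ 0 0 * E.ζ v₀ * (E.r t₁ 0 0)⁻¹) *
              (E.r t₁ 0 0 * E.b t₂ t' * (E.r t₁ 0 0)⁻¹) := by group
        _ = _ := by rw [e5, e6]
    have c1 := H1 (E.ζ (v₀ - v₁)) (E.b t₂ t') (Ext.InU2.inU1 E (inU2_zeta E hn _))
      (E.inU1_b t₂ t')
    have c2 := H1 (E.ζ (v₀ - v₁)) (E.b t₁ t') (Ext.InU2.inU1 E (inU2_zeta E hn _))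
      (E.inU1_b t₁ t')
    have c3 := H1 (E.b t₂ t') (E.b t₁ t') (E.inU1_b t₂ t') (E.inU1_b t₁ t')
    rw [e0, cm_mul_left, cm_mul_left, hv₀, e1, e2, e3, e4, ← mul_assoc, ← hadd,
      ← sub_eq_add_neg]
    generalize E.ζ (v₀ - v₁) = Z at c1 c2 ⊢
    generalize E.b t₂ t' = b₂ at c1 c3 ⊢
    generalize E.b t₁ t' = b₁ at c2 c3 ⊢
    rw [mul_assoc, c3, ← mul_assoc, c2, mul_assoc, c1, ← mul_assoc]
  refine ⟨key, ?_⟩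
  intro t t₁ t₂
  obtain ⟨v, hv⟩ := key t₁ t₂ t
  refine ⟨-v, ?_⟩
  have hb12 : E.InU1 (E.b t₁ t * E.b t₂ t) :=
    Ext.InU1.mul E (E.inU1_b t₁ t) (E.inU1_b t₂ t)
  have c1 : Commute (E.b t₁ t * E.b t₂ t) (E.ζ v) :=
    H1 _ _ hb12 (Ext.InU2.inU1 E (inU2_zeta E hn v))
  have c2 : Commute (E.b t₁ t) (E.b t₂ t) := H1 _ _ (E.inU1_b t₁ t) (E.inU1_b t₂ t)
  rw [b_swap E t (t₁ + t₂), hv, b_swap E t t₁, b_swap E t t₂, ← zeta_inv E hadd, c1.mul_inv,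
    c2.mul_inv]

example (h1 : StStep1.{u, v, w}) (h2 : StStep2.{u, v, w}) (h3 : StStep3.{u, v, w}) :
    StStep5.{u, v, w} := step5 h1 h2 h3

end Cfsg.Agent.H37.Rs
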