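import Mathlib
import Cfsg.Agent.H52.SmDefs

/-!
# SM-CEN (for S2772): `Q = ⟨e⟩ × W` with `e` central and `W` a normal four-group
-/

set_option autoImplicit false

namespace Cfsg.Agent.H37.Sm

universe u

theorem comm_of_sq {M : Type u} [Group M] (Q : Subgroup M) (hel : ∀ x ∈ Q, x * x = 1)
    {a b : M} (ha : a ∈ Q) (hb : b ∈ Q) : a * b = b * a := by
  have h1 : a⁻¹ = a := inv_eq_of_mul_eq_one_right (hel a ha)
  have h2 : b⁻¹ = b := inv_eq_of_mul_eq_one_right (hel b hb)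
  have h3 : (a * b)⁻¹ = a * b := inv_eq_of_mul_eq_one_right (hel _ (Q.mul_mem ha hb))
  calc a * b = (a * b)⁻¹ := h3.symm
    _ = b⁻¹ * a⁻¹ := mul_inv_rev a b
    _ = b * a := by rw [h1, h2]

/-- The commutator hom `x ↦ y x y⁻¹ x⁻¹` on an elementary abelian normal subgroup. -/
def commHom {M : Type u} [Group M] (Q : Subgroup M) (hQn : Q.Normal)
    (hel : ∀ x ∈ Q, x * x = 1) (y : M) : Q →* Q :=
  MonoidHom.mk' (fun x => ⟨y * x * y⁻¹ * (x : M)⁻¹,
      Q.mul_mem (hQn.conj_mem x x.2 y) (Q.inv_mem x.2)⟩)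
    (by
      intro a b
      apply Subtype.ext
      have hc : (y * b * y⁻¹ * (b : M)⁻¹) * (a : M)⁻¹ = (a : M)⁻¹ * (y * b * y⁻¹ * (b : M)⁻¹) :=
        comm_of_sq Q hel (Q.mul_mem (hQn.conj_mem b b.2 y) (Q.inv_mem b.2)) (Q.inv_mem a.2)
      show y * ((a : M) * (b : M)) * y⁻¹ * ((a : M) * (b : M))⁻¹
        = (y * a * y⁻¹ * (a : M)⁻¹) * (y * b * y⁻¹ * (b : M)⁻¹)
      calc y * ((a : M) * (b : M)) * y⁻¹ * ((a : M) * (b : M))⁻¹
          = (y * a * y⁻¹) * ((y * b * y⁻¹ * (b : M)⁻¹) * (a : M)⁻¹) := by group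
        _ = (y * a * y⁻¹ * (a : M)⁻¹) * (y * b * y⁻¹ * (b : M)⁻¹) := by rw [hc]; group)

theorem commHom_coe {M : Type u} [Group M] (Q : Subgroup M) (hQn : Q.Normal)
    (hel : ∀ x ∈ Q, x * x = 1) (y : M) (x : Q) :
    ((commHom Q hQn hel y x : Q) : M) = y * x * y⁻¹ * (x : M)⁻¹ := rfl

theorem d3_conj : ∀ d : DihedralGroup 3,
    d⁻¹ * DihedralGroup.r 1 * d = DihedralGroup.r 1 ∨
      d⁻¹ * DihedralGroup.r 1 * d = (DihedralGroup.r 1)⁻¹ := by
  decide

theorem cen : Cfsg.Agent.H52.Sm.StCen.{u} := by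
  intro M _ _ Q f hQn hQ8 hel hcent hf hker
  classical
  have hab : ∀ {a b : M}, a ∈ Q → b ∈ Q → a * b = b * a := fun ha hb => comm_of_sq Q hel ha hb
  -- the element `y`
  obtain ⟨x, hx⟩ := hf (DihedralGroup.r 1)
  have hx3 : x ^ 3 ∈ Q := by
    rw [← hker, MonoidHom.mem_ker, map_pow, hx, DihedralGroup.r_one_pow]
    decide
  have hx6 : x ^ 6 = 1 := by
    have h := hel _ hx3
    rw [← pow_add] at h
    exact h
  obtain ⟨y, hy⟩ : ∃ y : M, y = x ^ 4 := ⟨_, rfl⟩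
  have hy3 : y ^ 3 = 1 := by
    rw [hy]
    calc (x ^ 4) ^ 3 = (x ^ 6) ^ 2 := by rw [← pow_mul, ← pow_mul]
      _ = 1 := by rw [hx6, one_pow]
  have hfy1 : f y = DihedralGroup.r 1 := by
    rw [hy, map_pow, hx, DihedralGroup.r_one_pow]
    decide
  have hfy : f y ≠ 1 := by
    rw [hfy1]
    decide
  have hyinv : y⁻¹ = y * y := by
    apply inv_eq_of_mul_eq_one_right
    rw [← pow_three]; exact hy3
  -- conjugates of `y` are in `y Q` or `y⁻¹ Q`
  have hconj : ∀ m : M, m⁻¹ * y * m * y⁻¹ ∈ Q ∨ m⁻¹ * y * m * y ∈ Q := by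
    intro m
    rcases d3_conj (f m) with h | h
    · left
      rw [← hker, MonoidHom.mem_ker]
      simp only [map_mul, map_inv, hfy1]
      rw [h]; group
    · right
      rw [← hker, MonoidHom.mem_ker]
      simp only [map_mul, map_inv, hfy1]
      rw [h]; group
  -- the commutator hom
  obtain ⟨φ, hφdef⟩ : ∃ φ : Q →* Q, φ = commHom Q hQn hel y := ⟨_, rfl⟩
  have hφ : ∀ x : Q, ((φ x : Q) : M) = y * x * y⁻¹ * (x : M)⁻¹ := by
    intro x; rw [hφdef]; rfl
  have hkermem : ∀ x : Q, x ∈ φ.ker ↔ y * (x : M) * y⁻¹ = x := by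
    intro x
    rw [MonoidHom.mem_ker, Subtype.ext_iff, hφ]
    rw [OneMemClass.coe_one, mul_inv_eq_one]
  -- the 3-group action
  have hP : IsPGroup 3 (Subgroup.zpowers y) := by
    intro g
    refine ⟨1, ?_⟩
    obtain ⟨g, hg⟩ := g
    obtain ⟨k, rfl⟩ := Subgroup.mem_zpowers_iff.mp hg
    apply Subtype.ext
    show (y ^ k) ^ 3 ^ 1 = 1
    rw [pow_one, ← zpow_natCast, ← zpow_mul, mul_comm, zpow_mul, zpow_natCast, hy3, one_zpow]
  let act : MulAction (Subgroup.zpowers y) Q :=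
    { smul := fun p x => ⟨(p : M) * x * (p : M)⁻¹, hQn.conj_mem x x.2 p⟩
      one_smul := fun x => by
        apply Subtype.ext
        show (1 : M) * x * (1 : M)⁻¹ = x
        group
      mul_smul := fun p q x => by
        apply Subtype.ext
        show ((p : M) * q) * x * ((p : M) * q)⁻¹ = p * (q * x * (q : M)⁻¹) * (p : M)⁻¹
        group }
  have hsmul : ∀ (p : Subgroup.zpowers y) (x : Q), ((p • x : Q) : M) = (p : M) * x * (p : M)⁻¹ :=
    fun p x => rfl
  have : Fact (Nat.Prime 3) := ⟨Nat.prime_three⟩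
  have hmod := hP.card_modEq_card_fixedPoints (α := Q)
  have hfix : (MulAction.fixedPoints (Subgroup.zpowers y) Q : Set Q) = (φ.ker : Set Q) := by
    ext x
    rw [MulAction.mem_fixedPoints, SetLike.mem_coe, hkermem]
    constructor
    · intro h
      have h1 := h ⟨y, Subgroup.mem_zpowers y⟩
      have h2 := congrArg Subtype.val h1
      rw [hsmul] at h2
      exact h2
    · intro h p
      obtain ⟨p, hp⟩ := p
      have hle : Subgroup.zpowers y ≤ Subgroup.centralizer ({(x : M)} : Set M) := by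
        rw [Subgroup.zpowers_le, Subgroup.mem_centralizer_iff]
        intro h' hh'
        rw [Set.mem_singleton_iff] at hh'
        rw [hh']
        calc (x : M) * y = (y * x * y⁻¹) * y := by rw [h]
          _ = y * x := by group
      have hcen := (Subgroup.mem_centralizer_iff.mp (hle hp)) (x : M) (Set.mem_singleton _)
      apply Subtype.ext
      rw [hsmul]
      show p * (x : M) * p⁻¹ = x
      rw [← hcen]; group
  have hcardfix : Nat.card (MulAction.fixedPoints (Subgroup.zpowers y) Q) = Nat.card φ.ker :=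
    Nat.card_congr (Equiv.setCongr hfix)
  rw [hcardfix, hQ8] at hmod
  have hker_dvd : Nat.card φ.ker ∣ 8 := hQ8 ▸ Subgroup.card_subgroup_dvd_card φ.ker
  have hne8 : Nat.card φ.ker ≠ 8 := by
    intro h8
    have htop : φ.ker = ⊤ := Subgroup.eq_top_of_card_eq _ (by rw [h8, hQ8])
    apply hfy
    have hyQ : y ∈ Q := by
      apply hcent
      rw [Subgroup.mem_centralizer_iff]
      intro q hq
      have h1 := (hkermem ⟨q, hq⟩).mp (by rw [htop]; exact Subgroup.mem_top _)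
      calc q * y = (y * q * y⁻¹) * y := by rw [h1]
        _ = y * q := by group
    rw [← hker, MonoidHom.mem_ker] at hyQ
    exact hyQ
  have hk2 : Nat.card φ.ker = 2 := by
    have hle : Nat.card φ.ker ≤ 8 := Nat.le_of_dvd (by norm_num) hker_dvd
    have hm : 8 % 3 = Nat.card φ.ker % 3 := hmod
    generalize Nat.card φ.ker = k at *
    interval_cases k <;> omega
  have hr4 : Nat.card φ.range = 4 := by
    have h1 := Subgroup.card_mul_index φ.ker
    rw [Subgroup.index_ker, hk2, hQ8] at h1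
    omega
  have hidx : φ.range.index = 2 := by
    have h1 := Subgroup.card_mul_index φ.range
    rw [hr4, hQ8] at h1
    omega
  -- `W`
  obtain ⟨W, hWdef⟩ : ∃ W : Subgroup M, W = φ.range.map Q.subtype := ⟨_, rfl⟩
  have hWmem : ∀ q : Q, (q : M) ∈ W ↔ q ∈ φ.range := by
    intro q
    rw [hWdef, Subgroup.mem_map]
    constructor
    · rintro ⟨q', hq', heq⟩
      have : q' = q := Subtype.ext heq
      rw [← this]; exact hq'
    · intro h
      exact ⟨q, h, rfl⟩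
  have hWQ : W ≤ Q := by
    rw [hWdef]
    intro w hw
    obtain ⟨q, -, rfl⟩ := Subgroup.mem_map.mp hw
    exact q.2
  have hWφ : ∀ q ∈ Q, y * q * y⁻¹ * q⁻¹ ∈ W := by
    intro q hq
    have h1 : (φ ⟨q, hq⟩ : Q) ∈ φ.range := ⟨_, rfl⟩
    have h2 := (hWmem _).mpr h1
    rw [hφ] at h2
    exact h2
  have hWex : ∀ w ∈ W, ∃ q ∈ Q, w = y * q * y⁻¹ * q⁻¹ := by
    intro w hw
    have hwQ := hWQ hw
    have h1 := (hWmem ⟨w, hwQ⟩).mp hw
    obtain ⟨q, hq⟩ := h1
    refine ⟨q, q.2, ?_⟩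
    have h2 := congrArg Subtype.val hq
    rw [hφ] at h2
    exact h2.symm
  have hWcard : Nat.card W = 4 := by
    rw [hWdef, Subgroup.card_subtype, hr4]
  -- `y` acts fixed-point-freely on `W`
  have hfpf : ∀ w ∈ W, y * w * y⁻¹ = w → w = 1 := by
    intro w hw hyw
    obtain ⟨q, hq, hwq⟩ := hWex w hw
    have hwQ := hWQ hw
    have hyq : y * q * y⁻¹ = w * q := by rw [hwq]; group
    have h2 : y * (y * q * y⁻¹) * y⁻¹ = q := by
      rw [hyq]
      calc y * (w * q) * y⁻¹ = (y * w * y⁻¹) * (y * q * y⁻¹) := by group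
        _ = w * (w * q) := by rw [hyw, hyq]
        _ = (w * w) * q := by group
        _ = q := by rw [hel w hwQ, one_mul]
    have h3 : y⁻¹ * q = q * y⁻¹ := by
      rw [hyinv]
      calc y * y * q = (y * (y * q * y⁻¹) * y⁻¹) * (y * y) := by group
        _ = q * (y * y) := by rw [h2]
    have h4 : y * q * y⁻¹ = q := by
      calc y * q * y⁻¹ = y * (q * y⁻¹) := by group
        _ = y * (y⁻¹ * q) := by rw [h3]
        _ = q := by group
    rw [hwq, h4]; group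
  -- the element `e`
  obtain ⟨e, he1, heu⟩ := (Nat.card_eq_two_iff' (1 : φ.ker)).mp hk2
  have heQ : ((e : Q) : M) ∈ Q := (e : Q).2
  have hey : y * ((e : Q) : M) * y⁻¹ = ((e : Q) : M) := (hkermem (e : Q)).mp e.2
  have heM1 : ((e : Q) : M) ≠ 1 := by
    intro h
    apply he1
    apply Subtype.ext
    apply Subtype.ext
    exact h
  have heW : ((e : Q) : M) ∉ W := fun h => heM1 (hfpf _ h hey)
  have hye : y * ((e : Q) : M) = ((e : Q) : M) * y := by
    calc y * ((e : Q) : M) = (y * ((e : Q) : M) * y⁻¹) * y := by group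
      _ = ((e : Q) : M) * y := by rw [hey]
  have hyie : y⁻¹ * ((e : Q) : M) = ((e : Q) : M) * y⁻¹ := by
    calc y⁻¹ * ((e : Q) : M) = y⁻¹ * (((e : Q) : M) * y) * y⁻¹ := by group
      _ = y⁻¹ * (y * ((e : Q) : M)) * y⁻¹ := by rw [hye]
      _ = ((e : Q) : M) * y⁻¹ := by group
  have hcentral : ∀ m : M, m * ((e : Q) : M) = ((e : Q) : M) * m := by
    intro m
    -- `z = m⁻¹ y m` commutes with `e`
    have hz : (m⁻¹ * y * m) * ((e : Q) : M) = ((e : Q) : M) * (m⁻¹ * y * m) := by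
      rcases hconj m with h | h
      · have hc := hab h heQ
        calc (m⁻¹ * y * m) * ((e : Q) : M)
            = (m⁻¹ * y * m * y⁻¹) * (y * ((e : Q) : M)) := by group
          _ = ((m⁻¹ * y * m * y⁻¹) * ((e : Q) : M)) * y := by rw [hye]; group
          _ = (((e : Q) : M) * (m⁻¹ * y * m * y⁻¹)) * y := by rw [hc]
          _ = ((e : Q) : M) * (m⁻¹ * y * m) := by group
      · have hc := hab h heQ
        calc (m⁻¹ * y * m) * ((e : Q) : M)
            = (m⁻¹ * y * m * y) * (y⁻¹ * ((e : Q) : M)) := by group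
          _ = ((m⁻¹ * y * m * y) * ((e : Q) : M)) * y⁻¹ := by rw [hyie]; group
          _ = (((e : Q) : M) * (m⁻¹ * y * m * y)) * y⁻¹ := by rw [hc]
          _ = ((e : Q) : M) * (m⁻¹ * y * m) := by group
    have hmeQ : m * ((e : Q) : M) * m⁻¹ ∈ Q := hQn.conj_mem _ heQ m
    have hker' : (⟨m * ((e : Q) : M) * m⁻¹, hmeQ⟩ : Q) ∈ φ.ker := by
      rw [hkermem]
      show y * (m * ((e : Q) : M) * m⁻¹) * y⁻¹ = m * ((e : Q) : M) * m⁻¹
      calc y * (m * ((e : Q) : M) * m⁻¹) * y⁻¹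
          = m * ((m⁻¹ * y * m) * ((e : Q) : M)) * m⁻¹ * y⁻¹ := by group
        _ = m * (((e : Q) : M) * (m⁻¹ * y * m)) * m⁻¹ * y⁻¹ := by rw [hz]
        _ = m * ((e : Q) : M) * m⁻¹ := by group
    have hne : (⟨⟨m * ((e : Q) : M) * m⁻¹, hmeQ⟩, hker'⟩ : φ.ker) ≠ 1 := by
      intro h
      apply heM1
      have h1 := congrArg (fun z : φ.ker => ((z : Q) : M)) h
      have h2 : m * ((e : Q) : M) * m⁻¹ = 1 := h1
      calc ((e : Q) : M) = m⁻¹ * (m * ((e : Q) : M) * m⁻¹) * m := by group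
        _ = 1 := by rw [h2]; group
    have h3 := heu _ hne
    have h4 := congrArg (fun z : φ.ker => ((z : Q) : M)) h3
    have h5 : m * ((e : Q) : M) * m⁻¹ = ((e : Q) : M) := h4
    calc m * ((e : Q) : M) = (m * ((e : Q) : M) * m⁻¹) * m := by group
      _ = ((e : Q) : M) * m := by rw [h5]
  -- `W` is normal
  have hWn : W.Normal := by
    constructor
    intro w hw m
    obtain ⟨q, hq, rfl⟩ := hWex w hw
    have hq' : m * q * m⁻¹ ∈ Q := hQn.conj_mem _ hq m
    rcases hconj m⁻¹ with h | h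
    · rw [inv_inv] at h
      have hyq' : y * (m * q * m⁻¹) * y⁻¹ ∈ Q := hQn.conj_mem _ hq' y
      have hc := hab h hyq'
      have : m * (y * q * y⁻¹ * q⁻¹) * m⁻¹
          = y * (m * q * m⁻¹) * y⁻¹ * (m * q * m⁻¹)⁻¹ := by
        calc m * (y * q * y⁻¹ * q⁻¹) * m⁻¹
            = ((m * y * m⁻¹ * y⁻¹) * (y * (m * q * m⁻¹) * y⁻¹)) * (m * y * m⁻¹ * y⁻¹)⁻¹
                * (m * q * m⁻¹)⁻¹ := by group
          _ = ((y * (m * q * m⁻¹) * y⁻¹) * (m * y * m⁻¹ * y⁻¹)) * (m * y * m⁻¹ * y⁻¹)⁻¹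
                * (m * q * m⁻¹)⁻¹ := by rw [hc]
          _ = y * (m * q * m⁻¹) * y⁻¹ * (m * q * m⁻¹)⁻¹ := by group
      rw [this]
      exact hWφ _ hq'
    · rw [inv_inv] at h
      have hyq' : y⁻¹ * (m * q * m⁻¹) * y ∈ Q := by
        have := hQn.conj_mem _ hq' y⁻¹
        rw [inv_inv] at this
        exact this
      have hc := hab h hyq'
      have : m * (y * q * y⁻¹ * q⁻¹) * m⁻¹
          = (y * (y⁻¹ * (m * q * m⁻¹) * y) * y⁻¹ * (y⁻¹ * (m * q * m⁻¹) * y)⁻¹)⁻¹ := by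
        calc m * (y * q * y⁻¹ * q⁻¹) * m⁻¹
            = ((m * y * m⁻¹ * y) * (y⁻¹ * (m * q * m⁻¹) * y)) * (m * y * m⁻¹ * y)⁻¹
                * (m * q * m⁻¹)⁻¹ := by group
          _ = ((y⁻¹ * (m * q * m⁻¹) * y) * (m * y * m⁻¹ * y)) * (m * y * m⁻¹ * y)⁻¹
                * (m * q * m⁻¹)⁻¹ := by rw [hc]
          _ = (y * (y⁻¹ * (m * q * m⁻¹) * y) * y⁻¹ * (y⁻¹ * (m * q * m⁻¹) * y)⁻¹)⁻¹ := by group
      rw [this]
      exact W.inv_mem (hWφ _ hyq')
  refine ⟨((e : Q) : M), y, W, heQ, heM1, hcentral, hWn, hWQ, hWcard, heW, hy3, hfy, hfpf, ?_⟩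
  intro q hq
  by_cases hqW : q ∈ W
  · exact ⟨q, hqW, 1, by group, by group⟩
  · have h1 : (⟨q, hq⟩ : Q) ∉ φ.range := fun h => hqW ((hWmem ⟨q, hq⟩).mpr h)
    have h2 : (e : Q) ∉ φ.range := fun h => heW ((hWmem (e : Q)).mpr h)
    have h3 : (⟨q, hq⟩ : Q) * (e : Q) ∈ φ.range := by
      rw [Subgroup.mul_mem_iff_of_index_two hidx]
      exact ⟨fun h => absurd h h1, fun h => absurd h h2⟩
    have h4 := (hWmem _).mpr h3
    have h5 : q * ((e : Q) : M) ∈ W := h4
    refine ⟨q * ((e : Q) : M), h5, ((e : Q) : M), hye.symm, ?_⟩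
    rw [mul_assoc, hel _ heQ, mul_one]

example : Cfsg.Agent.H52.Sm.StCen.{u} := Cfsg.Agent.H37.Sm.cen

end Cfsg.Agent.H37.Sm
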