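import Mathlib
import Cfsg.Agent.H68.StDefs
import Cfsg.Agent.H19.TwoTrans

/-!
# helper37: piece BA of the Steinberg character project (S2311, helper68)

Inner products of parabolic permutation characters of a finite group with a (B,N)-pair:
`⟨1_{P_X}^G, 1_{P_Y}^G⟩ = #Red X Y` (number of distinguished double coset representatives).
This file proves the statement with the two facts of piece WA as hypotheses.
-/

set_option autoImplicit false

namespace Cfsg.Agent.H37.St

open Cfsg Cfsg.H8Exch Cfsg.H8BN Cfsg.Agent.H68.St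

variable {G : Type*} [Group G] (P : BNPair G)

theorem val_image_subset (X : Set P.S) : (Subtype.val '' X : Set G) ⊆ P.S := by
  rintro _ ⟨s, _, rfl⟩; exact s.2

theorem B_le_par (X : Set P.S) : P.B ≤ par P X := le_sup_left

theorem closure_le_par (X : Set P.S) : Subgroup.closure (Subtype.val '' X) ≤ par P X :=
  le_sup_right

/-- left half of the double coset lemma -/
theorem par_mul_mem_dc (X : Set P.S) {n g x : G} (hn : n ∈ P.N) (hg : g ∈ dc P n)
    (hx : x ∈ par P X) :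
    ∃ m ∈ Subgroup.closure (Subtype.val '' X), x * g ∈ dc P (m * n) := by
  have hJ := val_image_subset P X
  have := sup_closure_mul_mem P (Subtype.val '' X)
    {g | ∃ m ∈ Subgroup.closure (Subtype.val '' X), g ∈ dc P (m * n)} ?_ ?_ x hx g
    ⟨1, Subgroup.one_mem _, by simpa using hg⟩
  · exact this
  · rintro b hb g ⟨m, hm, hg⟩
    exact ⟨m, hm, left_mul_mem_dc P hb hg⟩
  · rintro s hs g ⟨m, hm, hg⟩
    have hmn : m * n ∈ P.N := P.N.mul_mem (closure_le_N P hJ hm) hn
    have hsm : s * m ∈ Subgroup.closure (Subtype.val '' X) :=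
      Subgroup.mul_mem _ (Subgroup.subset_closure hs) hm
    constructor
    · rcases S_mul_mem P (hJ hs) hmn hg with h | h
      · exact ⟨s * m, hsm, by rwa [mul_assoc]⟩
      · exact ⟨m, hm, h⟩
    · rcases S_inv_mul_mem P (hJ hs) hmn hg with h | h
      · exact ⟨s * m, hsm, by rwa [mul_assoc]⟩
      · exact ⟨m, hm, h⟩

/-- the double coset lemma: `P_X n P_Y ⊆ ⋃ B (m n m') B`. -/
theorem par_mul_par_mem_dc (X Y : Set P.S) {n x y : G} (hn : n ∈ P.N)
    (hx : x ∈ par P X) (hy : y ∈ par P Y) :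
    ∃ m ∈ Subgroup.closure (Subtype.val '' X), ∃ m' ∈ Subgroup.closure (Subtype.val '' Y),
      x * n * y ∈ dc P (m * n * m') := by
  have hJX := val_image_subset P X
  obtain ⟨m, hm, h1⟩ := par_mul_mem_dc P X hn (self_mem_dc P n) hx
  have hmn : m * n ∈ P.N := P.N.mul_mem (closure_le_N P hJX hm) hn
  have h2 : (x * n)⁻¹ ∈ dc P (m * n)⁻¹ := inv_mem_dc P h1
  obtain ⟨m'', hm'', h3⟩ := par_mul_mem_dc P Y (P.N.inv_mem hmn) h2 ((par P Y).inv_mem hy)
  have h4 := inv_mem_dc P h3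
  refine ⟨m, hm, m''⁻¹, Subgroup.inv_mem _ hm'', ?_⟩
  have e1 : (y⁻¹ * (x * n)⁻¹)⁻¹ = x * n * y := by group
  have e2 : (m'' * (m * n)⁻¹)⁻¹ = m * n * m''⁻¹ := by group
  rwa [e1, e2] at h4

/-- lifting an element of a standard parabolic subgroup of `W` into the parabolic subgroup -/
theorem exists_lift_par (X : Set P.S) {u : Wq P}
    (hu : u ∈ Subgroup.closure (sg P '' X)) :
    ∃ n : P.N, pr P n = u ∧ (n : G) ∈ par P X := by
  obtain ⟨n, rfl⟩ := pr_surjective P u
  refine ⟨n, rfl, ?_⟩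
  have hpre : (Subtype.val ⁻¹' (Subtype.val '' X) : Set P.S) = X :=
    Set.preimage_image_eq X Subtype.val_injective
  have h := mem_sup_of_pr_mem_closure P (J := Subtype.val '' X) (n := n) (by rwa [hpre])
  have hle : Subgroup.closure (Subtype.val '' X) ⊔ (P.B ⊓ P.N) ≤ par P X :=
    sup_le le_sup_right (inf_le_left.trans le_sup_left)
  exact hle h

theorem pr_mem_closure_sg (X : Set P.S) {m : G} (hm : m ∈ Subgroup.closure (Subtype.val '' X)) :
    ∃ hmN : m ∈ P.N, pr P ⟨m, hmN⟩ ∈ Subgroup.closure (sg P '' X) := by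
  have hJ := val_image_subset P X
  have hmN : m ∈ P.N := closure_le_N P hJ hm
  refine ⟨hmN, ?_⟩
  have hpre : (Subtype.val ⁻¹' (Subtype.val '' X) : Set P.S) = X :=
    Set.preimage_image_eq X Subtype.val_injective
  have := pr_mem_closure_of_mem P hJ (n := ⟨m, hmN⟩) hm
  rwa [hpre] at this

/-- fixed points on a product -/
theorem card_fixedBy_prod' {α β : Type*} [MulAction G α] [MulAction G β] (g : G) :
    Nat.card (MulAction.fixedBy (α × β) g) =
      Nat.card (MulAction.fixedBy α g) * Nat.card (MulAction.fixedBy β g) := by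
  rw [← Nat.card_prod]
  apply Nat.card_congr
  refine ⟨fun p => (⟨p.1.1, ?_⟩, ⟨p.1.2, ?_⟩), fun q => ⟨(q.1.1, q.2.1), ?_⟩, ?_, ?_⟩
  · have := p.2
    rw [MulAction.mem_fixedBy, Prod.smul_def] at this
    exact congrArg Prod.fst this
  · have := p.2
    rw [MulAction.mem_fixedBy, Prod.smul_def] at this
    exact congrArg Prod.snd this
  · rw [MulAction.mem_fixedBy, Prod.smul_mk]
    have h1 := q.1.2
    have h2 := q.2.2
    rw [MulAction.mem_fixedBy] at h1 h2
    rw [h1, h2]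
  · intro p; rfl
  · intro q; rfl

/-- a section of `N → W` -/
noncomputable def nrep (w : Wq P) : P.N := Classical.choose (pr_surjective P w)

theorem pr_nrep (w : Wq P) : pr P (nrep P w) = w := Classical.choose_spec (pr_surjective P w)

/-- the map from reduced elements to orbits on pairs of cosets -/
noncomputable def orbMap (X Y : Set P.S) (w : Red (sg P) X Y) :
    Quotient (MulAction.orbitRel G ((G ⧸ par P X) × (G ⧸ par P Y))) :=
  Quotient.mk _ ((QuotientGroup.mk (1 : G) : G ⧸ par P X),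
    (QuotientGroup.mk ((nrep P w.1 : P.N) : G) : G ⧸ par P Y))

theorem orbMap_injective
    (hun : ∀ (X Y : Set P.S) (d d' u v : Wq P), d ∈ Red (sg P) X Y → d' ∈ Red (sg P) X Y →
      u ∈ Subgroup.closure (sg P '' X) → v ∈ Subgroup.closure (sg P '' Y) →
      d' = u * d * v → d' = d)
    (X Y : Set P.S) : Function.Injective (orbMap P X Y) := by
  intro w w' h
  unfold orbMap at h
  rw [Quotient.eq] at h
  change _ ∈ MulAction.orbit G _ at h
  obtain ⟨g, hg⟩ := MulAction.mem_orbit_iff.1 h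
  rw [Prod.smul_mk, Prod.mk.injEq, MulAction.Quotient.smul_mk, MulAction.Quotient.smul_mk,
    smul_eq_mul, smul_eq_mul, QuotientGroup.eq, QuotientGroup.eq] at hg
  obtain ⟨hg1, hg2⟩ := hg
  -- hg1 : (g * 1)⁻¹ * 1 ∈ par X ; hg2 : (g * n')⁻¹ * n ∈ par Y
  have hgX : g ∈ par P X := by
    have := (par P X).inv_mem hg1
    simpa using this
  set n : P.N := nrep P w.1 with hn
  set n' : P.N := nrep P w'.1 with hn'
  have e : (n : G) = g * (n' : G) * ((g * (n' : G))⁻¹ * (n : G)) := by group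
  obtain ⟨m, hm, m', hm', hdc⟩ := par_mul_par_mem_dc P X Y n'.2 hgX hg2
  rw [← e] at hdc
  obtain ⟨hmN, hmu⟩ := pr_mem_closure_sg P X hm
  obtain ⟨hmN', hmv⟩ := pr_mem_closure_sg P Y hm'
  have h3 : pr P n = pr P (⟨m, hmN⟩ * n' * ⟨m', hmN'⟩) := pr_eq_of_mem_dc P hdc
  have h4 : w.1 = pr P ⟨m, hmN⟩ * w'.1 * pr P ⟨m', hmN'⟩ := by
    rw [← pr_nrep P w.1, ← pr_nrep P w'.1]
    exact h3
  have := hun X Y w'.1 w.1 _ _ w'.2 w.2 hmu hmv h4
  exact Subtype.ext this

theorem orbMap_surjective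
    (hex : ∀ (X Y : Set P.S) (w : Wq P), ∃ d ∈ Red (sg P) X Y,
      ∃ u ∈ Subgroup.closure (sg P '' X), ∃ v ∈ Subgroup.closure (sg P '' Y), w = u * d * v)
    (X Y : Set P.S) : Function.Surjective (orbMap P X Y) := by
  intro q
  induction q using Quotient.inductionOn with
  | _ ab =>
  obtain ⟨a, b⟩ := ab
  induction a using QuotientGroup.induction_on with
  | _ g =>
  induction b using QuotientGroup.induction_on with
  | _ g' =>
  obtain ⟨n, hnN, hdc⟩ := exists_mem_dc P (g⁻¹ * g')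
  obtain ⟨b, hb, b', hb', hbb⟩ := (mem_dc P).1 hdc
  obtain ⟨d, hd, u, hu, v, hv, huv⟩ := hex X Y (pr P ⟨n, hnN⟩)
  obtain ⟨mu, hmu, hmuX⟩ := exists_lift_par P X hu
  obtain ⟨mv, hmv, hmvY⟩ := exists_lift_par P Y hv
  refine ⟨⟨d, hd⟩, ?_⟩
  unfold orbMap
  rw [Quotient.eq]
  change _ ∈ MulAction.orbit G _
  rw [MulAction.mem_orbit_iff]
  set nd : P.N := nrep P d with hnd
  have hpr : pr P ⟨n, hnN⟩ = pr P (mu * nd * mv) := by
    rw [huv, ← hmu, ← hmv, ← pr_nrep P d]
    rfl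
  have ht : n⁻¹ * ((mu : G) * (nd : G) * (mv : G)) ∈ P.B := (pr_eq_iff P).1 hpr
  refine ⟨(mu : G)⁻¹ * b⁻¹ * g⁻¹, ?_⟩
  rw [Prod.smul_mk, Prod.mk.injEq, MulAction.Quotient.smul_mk, MulAction.Quotient.smul_mk,
    smul_eq_mul, smul_eq_mul, QuotientGroup.eq, QuotientGroup.eq]
  constructor
  · have e : ((mu : G)⁻¹ * b⁻¹ * g⁻¹ * g)⁻¹ * 1 = b * (mu : G) := by group
    rw [e]
    exact (par P X).mul_mem (B_le_par P X hb) hmuX
  · have hg' : g' = g * (b * n * b') := by rw [← hbb]; group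
    have e : ((mu : G)⁻¹ * b⁻¹ * g⁻¹ * g')⁻¹ * (nd : G) =
        b'⁻¹ * (n⁻¹ * ((mu : G) * (nd : G) * (mv : G))) * (mv : G)⁻¹ := by
      rw [hg']; group
    rw [e]
    exact (par P Y).mul_mem ((par P Y).mul_mem (B_le_par P Y (P.B.inv_mem hb'))
      (B_le_par P Y ht)) ((par P Y).inv_mem hmvY)

/-- piece BA with the two facts of WA as hypotheses -/
theorem classInner_pch_aux [Fintype G]
    (hex : ∀ (X Y : Set P.S) (w : Wq P), ∃ d ∈ Red (sg P) X Y,
      ∃ u ∈ Subgroup.closure (sg P '' X), ∃ v ∈ Subgroup.closure (sg P '' Y), w = u * d * v)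
    (hun : ∀ (X Y : Set P.S) (d d' u v : Wq P), d ∈ Red (sg P) X Y → d' ∈ Red (sg P) X Y →
      u ∈ Subgroup.closure (sg P '' X) → v ∈ Subgroup.closure (sg P '' Y) →
      d' = u * d * v → d' = d)
    (X Y : Set P.S) :
    classInner (fixedPointCharacter (par P X)) (fixedPointCharacter (par P Y)) =
      (Nat.card ↥(Red (sg P) X Y) : ℂ) := by
  have hcard : Nat.card ↥(Red (sg P) X Y) =
      Nat.card (Quotient (MulAction.orbitRel G ((G ⧸ par P X) × (G ⧸ par P Y)))) :=
    Nat.card_eq_of_bijective (orbMap P X Y)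
      ⟨orbMap_injective P hun X Y, orbMap_surjective P hex X Y⟩
  have hburn := Cfsg.Agent.H19.sum_card_fixedBy G ((G ⧸ par P X) × (G ⧸ par P Y))
  have hG0 : (Nat.card G : ℂ) ≠ 0 := by
    exact_mod_cast Nat.card_pos.ne'
  unfold classInner fixedPointCharacter
  have hsum : ∑ g : G, ((Nat.card (MulAction.fixedBy (G ⧸ par P X) g) : ℂ) *
      (starRingEnd ℂ) (Nat.card (MulAction.fixedBy (G ⧸ par P Y) g) : ℂ)) =
      ((∑ g : G, Nat.card (MulAction.fixedBy ((G ⧸ par P X) × (G ⧸ par P Y)) g) : ℕ) : ℂ) := by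
    rw [Nat.cast_sum]
    apply Finset.sum_congr rfl
    intro g _
    rw [Complex.conj_natCast, card_fixedBy_prod', Nat.cast_mul]
  rw [hsum, hburn, hcard, Nat.cast_mul]
  field_simp

end Cfsg.Agent.H37.St
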