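import Mathlib
import Cfsg.Agent.H68.StDefs
import Cfsg.Agent.H51.StWA
import Cfsg.Agent.H37.StBAaux

/-!
# helper37: piece BA of the Steinberg character project (S2311, helper68)

`classInner_pch`: for a finite group with a (B,N)-pair, the inner product of the permutation
characters on the cosets of two standard parabolic subgroups `P_X`, `P_Y` is the number of
`(X, Y)`-reduced elements of the Weyl group.
-/

set_option autoImplicit false

namespace Cfsg.Agent.H37.St

open Cfsg Cfsg.H8Exch Cfsg.H8BN Cfsg.Agent.H68.St

/-- piece BA (exact posted statement) -/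
theorem classInner_pch {G : Type*} [Group G] [Fintype G] (P : BNPair G) (X Y : Set P.S) :
    classInner (fixedPointCharacter (par P X)) (fixedPointCharacter (par P Y)) =
      (Nat.card ↥(Red (sg P) X Y) : ℂ) :=
  classInner_pch_aux P
    (fun X Y w => Cfsg.Agent.H51.St.red_exists (sg P) (sg_mul_self P) (closure_range_sg P)
      (Ps P) (Ps_one P) (Ps_B P) (Ps_C P) X Y w)
    (fun X Y _ _ _ _ hd hd' hu hv h => Cfsg.Agent.H51.St.red_unique (sg P) (sg_mul_self P)
      (closure_range_sg P) (Ps P) (Ps_one P) (Ps_B P) (Ps_C P) X Y hd hd' hu hv h)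
    X Y

example {G : Type*} [Group G] [Fintype G] (P : BNPair G) (X Y : Set P.S) : classInner (fixedPointCharacter (par P X)) (fixedPointCharacter (par P Y)) = (Nat.card ↥(Red (sg P) X Y) : ℂ) :=
  classInner_pch P X Y

end Cfsg.Agent.H37.St
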