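import Mathlib
import Cfsg.Agent.H74.W2PDefs
import Cfsg.Agent.H37.W2PLA1

set_option autoImplicit false
set_option linter.unusedSectionVars false

/-!
# S0720-LA7 (helper37, for helper74): the centralizer algebra acts on the line
`Uperp ⊓ Vh h` by the scalar `wch`
-/

namespace Cfsg.Agent.H37.W2P

open Cfsg.Agent.H74.W2P Equiv MulAction

variable {Ω : Type*} [Fintype Ω] [DecidableEq Ω]

theorem hab_of_not_sameCycle {x : Perm Ω} {a₀ b₀ : Ω} (hb₀ : ¬ x.SameCycle a₀ b₀) (i j : ℕ) :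
    (x ^ i) a₀ ≠ (x ^ j) b₀ := by
  intro hij
  apply hb₀
  have h1 : x.SameCycle a₀ ((x ^ i) a₀) :=
    Equiv.Perm.sameCycle_pow_right.2 (Equiv.Perm.SameCycle.refl _ _)
  rw [hij] at h1
  exact Equiv.Perm.sameCycle_pow_right.1 h1

theorem phi_bij {G : Subgroup (Perm Ω)} {p : ℕ} {x : Perm Ω} (hyp : Hyp G p x) (a₀ b₀ : Ω)
    (hab : ∀ i j : ℕ, (x ^ i) a₀ ≠ (x ^ j) b₀) :
    Function.Bijective
      (fun ck : Bool × Fin p => (x ^ (ck.2 : ℕ)) (if ck.1 then a₀ else b₀)) := by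
  classical
  have hcard := hyp.hcard
  have hsame : ∀ (a : Ω) (k k' : Fin p), (x ^ (k : ℕ)) a = (x ^ (k' : ℕ)) a → k = k' := by
    intro a k k' hkk
    have h1 : (x ^ (((k : ℕ) : ℤ) - (k' : ℕ))) a = a := by
      have : (x ^ (((k : ℕ) : ℤ) - (k' : ℕ))) = (x ^ (k' : ℕ))⁻¹ * x ^ (k : ℕ) := by
        rw [sub_eq_neg_add, zpow_add, zpow_neg, zpow_natCast, zpow_natCast]
      rw [this, Perm.mul_apply, hkk]
      exact Equiv.symm_apply_apply _ _
    have h2 := dvd_of_zpow_fix hyp a _ h1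
    have h3 : (((k : ℕ) : ℤ) - (k' : ℕ)) = 0 := by
      apply Int.eq_zero_of_abs_lt_dvd h2
      rw [abs_lt]
      have := k.2
      have := k'.2
      constructor <;> omega
    apply Fin.ext
    omega
  rw [Fintype.bijective_iff_injective_and_card]
  refine ⟨?_, ?_⟩
  · rintro ⟨c, k⟩ ⟨c', k'⟩ hck
    simp only at hck
    cases c <;> cases c'
    · simp only [Bool.false_eq_true, if_false] at hck
      rw [hsame b₀ k k' hck]
    · simp only [Bool.false_eq_true, if_false, if_true] at hck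
      exact absurd hck.symm (hab _ _)
    · simp only [Bool.false_eq_true, if_false, if_true] at hck
      exact absurd hck (hab _ _)
    · simp only [if_true] at hck
      rw [hsame a₀ k k' hck]
  · rw [Fintype.card_prod, Fintype.card_bool, Fintype.card_fin, hcard]

theorem sum_split {G : Subgroup (Perm Ω)} {p : ℕ} {x : Perm Ω} (hyp : Hyp G p x) (a₀ b₀ : Ω)
    (hab : ∀ i j : ℕ, (x ^ i) a₀ ≠ (x ^ j) b₀) (F : Ω → ℂ) :
    ∑ j, F j = ∑ z ∈ Finset.range p, F ((x ^ z) a₀) + ∑ z ∈ Finset.range p, F ((x ^ z) b₀) := by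
  have hb := phi_bij hyp a₀ b₀ hab
  rw [← Function.Bijective.sum_comp hb F, Fintype.sum_prod_type, Fintype.sum_bool]
  simp only [if_true, Bool.false_eq_true, if_false]
  rw [Fin.sum_univ_eq_sum_range (fun z => F ((x ^ z) a₀)) p,
    Fin.sum_univ_eq_sum_range (fun z => F ((x ^ z) b₀)) p]

theorem cover {G : Subgroup (Perm Ω)} {p : ℕ} {x : Perm Ω} (hyp : Hyp G p x) (a₀ b₀ : Ω)
    (hab : ∀ i j : ℕ, (x ^ i) a₀ ≠ (x ^ j) b₀) (ω : Ω) :
    (∃ k : ℕ, (x ^ k) a₀ = ω) ∨ (∃ k : ℕ, (x ^ k) b₀ = ω) := by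
  obtain ⟨⟨c, k⟩, hck⟩ := (phi_bij hyp a₀ b₀ hab).2 ω
  cases c
  · right
    exact ⟨k, by simpa using hck⟩
  · left
    exact ⟨k, by simpa using hck⟩

theorem coord_inj {G : Subgroup (Perm Ω)} {p : ℕ} {x : Perm Ω} (hyp : Hyp G p x) (a₀ b₀ : Ω)
    (hab : ∀ i j : ℕ, (x ^ i) a₀ ≠ (x ^ j) b₀) {h : ZMod p} {g : Ω → ℂ} (hg : g ∈ Vh x p h)
    (h1 : g a₀ = 0) (h2 : g b₀ = 0) : g = 0 := by
  funext ω
  rcases cover hyp a₀ b₀ hab ω with ⟨k, hk⟩ | ⟨k, hk⟩
  · rw [← hk, Vh_apply_pow hg, h1, mul_zero]; rfl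
  · rw [← hk, Vh_apply_pow hg, h2, mul_zero]; rfl

theorem mulVec_mem_Vh {G : Subgroup (Perm Ω)} {p : ℕ} {x : Perm Ω} (hyp : Hyp G p x)
    {A : Matrix Ω Ω ℂ} (hA : CentC G A) {h : ZMod p} {f : Ω → ℂ} (hf : f ∈ Vh x p h) :
    A.mulVec f ∈ Vh x p h := by
  intro ω
  show ∑ j, A (x ω) j * f j = zeta p ^ h.val * ∑ j, A ω j * f j
  rw [← Equiv.sum_comp x (fun j => A (x ω) j * f j), Finset.mul_sum]
  apply Finset.sum_congr rfl
  intro j _
  rw [hA x hyp.hxG, hf j]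
  ring

theorem Uperp_orth {G : Subgroup (Perm Ω)} {x : Perm Ω} {a₀ : Ω} {f : Ω → ℂ}
    (hf : f ∈ Uperp G x a₀) {u : Ω → ℂ} (hu : u ∈ U0 G x a₀) : ∑ ω, f ω * u ω = 0 := by
  unfold U0 at hu
  induction hu using Submodule.span_induction with
  | mem v hv =>
    obtain ⟨g, hg, rfl⟩ := hv
    exact hf g hg
  | zero => simp
  | add v w _ _ hv hw =>
    simp only [Pi.add_apply, mul_add, Finset.sum_add_distrib, hv, hw, add_zero]
  | smul c v _ hv =>
    have : ∑ ω, f ω * (c • v) ω = c * ∑ ω, f ω * v ω := by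
      rw [Finset.mul_sum]
      apply Finset.sum_congr rfl
      intro ω _
      simp only [Pi.smul_apply, smul_eq_mul]
      ring
    rw [this, hv, mul_zero]

theorem U0_conj {G : Subgroup (Perm Ω)} {x : Perm Ω} {a₀ : Ω} {u : Ω → ℂ}
    (hu : u ∈ U0 G x a₀) : (fun ω => (starRingEnd ℂ) (u ω)) ∈ U0 G x a₀ := by
  unfold U0 at hu ⊢
  induction hu using Submodule.span_induction with
  | mem v hv =>
    obtain ⟨g, hg, rfl⟩ := hv
    apply Submodule.subset_span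
    refine ⟨g, hg, ?_⟩
    funext ω
    unfold sig
    by_cases hs : x.SameCycle a₀ (g ω)
    · simp [hs]
    · simp [hs]
  | zero =>
    have : (fun ω : Ω => (starRingEnd ℂ) ((0 : Ω → ℂ) ω)) = 0 := by
      funext ω; simp
    rw [this]
    exact Submodule.zero_mem _
  | add v w _ _ hv hw =>
    have h1 := Submodule.add_mem _ hv hw
    have : (fun ω : Ω => (starRingEnd ℂ) ((v + w) ω)) =
        (fun ω => (starRingEnd ℂ) (v ω)) + (fun ω => (starRingEnd ℂ) (w ω)) := by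
      funext ω; simp
    rw [this]
    exact h1
  | smul c v _ hv =>
    have h1 := Submodule.smul_mem _ ((starRingEnd ℂ) c) hv
    have : (fun ω : Ω => (starRingEnd ℂ) ((c • v) ω)) =
        (starRingEnd ℂ) c • (fun ω => (starRingEnd ℂ) (v ω)) := by
      funext ω; simp
    rw [this]
    exact h1

theorem U0_inf_Uperp {G : Subgroup (Perm Ω)} {x : Perm Ω} {a₀ : Ω} {f : Ω → ℂ}
    (hf0 : f ∈ U0 G x a₀) (hf1 : f ∈ Uperp G x a₀) : f = 0 := by
  have h1 := Uperp_orth hf1 (U0_conj hf0)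
  have h2 : ∑ ω, (Complex.normSq (f ω) : ℂ) = 0 := by
    rw [← h1]
    apply Finset.sum_congr rfl
    intro ω _
    rw [Complex.mul_conj]
  have h3 : ∑ ω, Complex.normSq (f ω) = 0 := by exact_mod_cast h2
  have h4 := (Finset.sum_eq_zero_iff_of_nonneg (fun ω _ => Complex.normSq_nonneg (f ω))).1 h3
  funext ω
  exact Complex.normSq_eq_zero.1 (h4 ω (Finset.mem_univ ω))

theorem mulVec_mem_Uperp {G : Subgroup (Perm Ω)} {x : Perm Ω} {a₀ : Ω} (hsc : ScalU G x a₀)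
    {A : Matrix Ω Ω ℂ} (hA : CentC G A) {f : Ω → ℂ} (hf : f ∈ Uperp G x a₀) :
    A.mulVec f ∈ Uperp G x a₀ := by
  intro g hg
  show ∑ ω, (∑ j, A ω j * f j) * sig x a₀ (g ω) = 0
  have hAT : CentC G A.transpose := fun g' hg' i j => hA g' hg' j i
  have hmem : (fun ω => sig x a₀ (g ω)) ∈ U0 G x a₀ := Submodule.subset_span ⟨g, hg, rfl⟩
  have h1 := hsc A.transpose hAT _ hmem
  have h2 : ∀ j, ∑ ω, A ω j * sig x a₀ (g ω) =
      (∑ j', A.transpose a₀ j' * sig x a₀ j') * sig x a₀ (g j) := fun j => congrFun h1 j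
  calc ∑ ω, (∑ j, A ω j * f j) * sig x a₀ (g ω)
      = ∑ j, f j * ∑ ω, A ω j * sig x a₀ (g ω) := by
        simp only [Finset.sum_mul, Finset.mul_sum]
        rw [Finset.sum_comm]
        apply Finset.sum_congr rfl
        intro j _
        apply Finset.sum_congr rfl
        intro ω _
        ring
    _ = (∑ j', A.transpose a₀ j' * sig x a₀ j') * ∑ j, f j * sig x a₀ (g j) := by
        rw [Finset.mul_sum]
        apply Finset.sum_congr rfl
        intro j _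
        rw [h2 j]
        ring
    _ = 0 := by rw [hf g hg, mul_zero]

theorem mulVec_coord {G : Subgroup (Perm Ω)} {p : ℕ} {x : Perm Ω} (hyp : Hyp G p x) (a₀ b₀ : Ω)
    (hab : ∀ i j : ℕ, (x ^ i) a₀ ≠ (x ^ j) b₀) (A : Matrix Ω Ω ℂ) {h : ZMod p} {f : Ω → ℂ}
    (hf : f ∈ Vh x p h) (c : Ω) :
    A.mulVec f c = (∑ z ∈ Finset.range p, A c ((x ^ z) a₀) * zeta p ^ (h.val * z)) * f a₀ +
      (∑ z ∈ Finset.range p, A c ((x ^ z) b₀) * zeta p ^ (h.val * z)) * f b₀ := by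
  show ∑ j, A c j * f j = _
  rw [sum_split hyp a₀ b₀ hab (fun j => A c j * f j), Finset.sum_mul, Finset.sum_mul]
  congr 1 <;>
  · apply Finset.sum_congr rfl
    intro z _
    rw [Vh_apply_pow hf]
    ring

theorem scalW {G : Subgroup (Perm Ω)} {p : ℕ} {x : Perm Ω} (hyp : Hyp G p x) (a₀ b₀ : Ω)
    (hb₀ : ¬ x.SameCycle a₀ b₀) (hU : DimU G p x a₀) (hW : DimW G p x a₀) (hsc : ScalU G x a₀)
    (A : Matrix Ω Ω ℂ) (hA : CentC G A) (h : ZMod p) (hh : h ≠ 0) (f : Ω → ℂ)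
    (hf : f ∈ Uperp G x a₀ ⊓ Vh x p h) : A.mulVec f = wch x a₀ b₀ p A h • f := by
  classical
  by_cases hf0 : f = 0
  · subst hf0
    simp
  have hab := hab_of_not_sameCycle hb₀
  obtain ⟨hfU, hfV⟩ := Submodule.mem_inf.1 hf
  have hAf : A.mulVec f ∈ Uperp G x a₀ ⊓ Vh x p h :=
    Submodule.mem_inf.2 ⟨mulVec_mem_Uperp hsc hA hfU, mulVec_mem_Vh hyp hA hfV⟩
  have hne : (⟨f, hf⟩ : ↥(Uperp G x a₀ ⊓ Vh x p h)) ≠ 0 :=
    fun hc => hf0 (congrArg Subtype.val hc)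
  obtain ⟨c, hc⟩ := (finrank_eq_one_iff_of_nonzero' _ hne).1 (hW h hh) ⟨A.mulVec f, hAf⟩
  have hc' : c • f = A.mulVec f := congrArg Subtype.val hc
  obtain ⟨⟨u, hu⟩, hu0⟩ : ∃ u : ↥(U0 G x a₀ ⊓ Vh x p h), u ≠ 0 := by
    have : 0 < Module.finrank ℂ ↥(U0 G x a₀ ⊓ Vh x p h) := by
      rw [hU h hh]; exact one_pos
    exact Module.finrank_pos_iff_exists_ne_zero.1 this
  have hu0' : u ≠ 0 := fun hc => hu0 (Subtype.ext hc)
  obtain ⟨huU, huV⟩ := Submodule.mem_inf.1 hu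
  have hAu : A.mulVec u = (∑ j, A a₀ j * sig x a₀ j) • u := hsc A hA u huU
  have e1 := mulVec_coord hyp a₀ b₀ hab A huV a₀
  have e2 := mulVec_coord hyp a₀ b₀ hab A huV b₀
  have e3 := mulVec_coord hyp a₀ b₀ hab A hfV a₀
  have e4 := mulVec_coord hyp a₀ b₀ hab A hfV b₀
  rw [hAu] at e1 e2
  rw [← hc'] at e3 e4
  simp only [Pi.smul_apply, smul_eq_mul] at e1 e2 e3 e4
  have hD : u a₀ * f b₀ - u b₀ * f a₀ ≠ 0 := by
    intro hD
    apply hf0
    apply U0_inf_Uperp _ hfU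
    by_cases hu1 : u a₀ = 0
    · have hu2 : u b₀ ≠ 0 := fun hu2 => hu0' (coord_inj hyp a₀ b₀ hab huV hu1 hu2)
      have hf1 : f a₀ = 0 := by
        rw [hu1, zero_mul, zero_sub, neg_eq_zero] at hD
        exact (mul_eq_zero.1 hD).resolve_left hu2
      have hz : f - (f b₀ / u b₀) • u = 0 := by
        apply coord_inj hyp a₀ b₀ hab
          ((Vh x p h).sub_mem hfV ((Vh x p h).smul_mem _ huV))
        · simp only [Pi.sub_apply, Pi.smul_apply, smul_eq_mul, hf1, hu1, mul_zero, sub_zero]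
        · simp only [Pi.sub_apply, Pi.smul_apply, smul_eq_mul]
          field_simp
          ring
      rw [sub_eq_zero] at hz
      rw [hz]
      exact (U0 G x a₀).smul_mem _ huU
    · have hz : f - (f a₀ / u a₀) • u = 0 := by
        apply coord_inj hyp a₀ b₀ hab
          ((Vh x p h).sub_mem hfV ((Vh x p h).smul_mem _ huV))
        · simp only [Pi.sub_apply, Pi.smul_apply, smul_eq_mul]
          field_simp
          ring
        · simp only [Pi.sub_apply, Pi.smul_apply, smul_eq_mul]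
          field_simp
          linear_combination hD
      rw [sub_eq_zero] at hz
      rw [hz]
      exact (U0 G x a₀).smul_mem _ huU
  have hwch : wch x a₀ b₀ p A h =
      (∑ z ∈ Finset.range p, A a₀ ((x ^ z) a₀) * zeta p ^ (h.val * z)) +
        (∑ z ∈ Finset.range p, A b₀ ((x ^ z) b₀) * zeta p ^ (h.val * z)) -
          ∑ j, A a₀ j * sig x a₀ j := by
    unfold wch
    rw [← Finset.sum_add_distrib]
    congr 1
    apply Finset.sum_congr rfl
    intro z _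
    ring
  have hcc : wch x a₀ b₀ p A h = c := by
    rw [hwch]
    apply mul_right_cancel₀ hD
    linear_combination -(f b₀) * e1 + (u b₀) * e3 - (u a₀) * e4 + (f a₀) * e2
  rw [hcc, hc']

end Cfsg.Agent.H37.W2P

open Cfsg.Agent.H74.W2P Equiv MulAction in
example {Ω : Type*} [Fintype Ω] [DecidableEq Ω] {G : Subgroup (Perm Ω)} {p : ℕ} {x : Perm Ω}
    (hyp : Hyp G p x) (a₀ b₀ : Ω)
    (hb₀ : ¬ x.SameCycle a₀ b₀) (hU : DimU G p x a₀) (hW : DimW G p x a₀) (hsc : ScalU G x a₀)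
    (A : Matrix Ω Ω ℂ) (hA : CentC G A) (h : ZMod p) (hh : h ≠ 0) (f : Ω → ℂ)
    (hf : f ∈ Uperp G x a₀ ⊓ Vh x p h) : A.mulVec f = wch x a₀ b₀ p A h • f :=
  Cfsg.Agent.H37.W2P.scalW hyp a₀ b₀ hb₀ hU hW hsc A hA h hh f hf
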